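import Mathlib
import Cfsg.Agent.Lib.Helper48.AmStmt

set_option autoImplicit false

/-! Piece SYLCLOS of S2856 / S2857 (helper7). -/

namespace Cfsg.Agent.Lib.Helper7.AmSYLCLOS

open Cfsg Cfsg.Agent.Lib.Helper46.Amalgam Cfsg.Agent.Lib.Helper46.PCore
open Cfsg.Agent.Lib.Helper48.AmStmt

universe u

theorem closure_le_self {X : Type u} [Group X] (p : ℕ) (A : Subgroup X) :
    Cfsg.pElementClosure p A ≤ A := by
  unfold Cfsg.pElementClosure
  rw [Subgroup.closure_le]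
  rintro x ⟨hx, -⟩
  exact hx

theorem isSyl_closure {X : Type u} [Group X] (p : ℕ) [Fact p.Prime] {A T : Subgroup X}
    (hT : IsSyl p T A) : IsSyl p T (Cfsg.pElementClosure p A) := by
  refine ⟨?_, hT.2.1, fun Q hQ hQp hTQ => hT.2.2 Q (hQ.trans (closure_le_self p A)) hQp hTQ⟩
  intro t ht
  apply Subgroup.subset_closure
  refine ⟨hT.1 ht, ?_⟩
  obtain ⟨k, hk⟩ := (IsPGroup.iff_orderOf.mp hT.2.1) ⟨t, ht⟩
  exact ⟨k, by rw [← hk, Subgroup.orderOf_mk]⟩

theorem main : SylClos.{u} := by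
  intro X _ p _ A T _ hT
  exact ⟨closure_le_self p A, isSyl_closure p hT⟩

end Cfsg.Agent.Lib.Helper7.AmSYLCLOS
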