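import Mathlib
import Cfsg.Agent.Lib.Helper48.AmStmt
import Cfsg.Agent.Lib.Helper7.AmSYLCLOS

set_option autoImplicit false

/-! Piece FRAT of S2856 / S2857 (helper7): the Frattini argument `A = O^{p'}(A) N_A(T)`. -/

namespace Cfsg.Agent.Lib.Helper7.AmFRAT

open Cfsg Cfsg.Agent.Lib.Helper46.Amalgam Cfsg.Agent.Lib.Helper46.PCore
open Cfsg.Agent.Lib.Helper48.AmStmt Cfsg.Agent.Lib.Helper7.AmSYLCLOS

universe u

theorem main : Frat.{u} := by
  intro X _ p _ A T hfin hT a ha
  have hLA := closure_le_self p A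
  have : Finite A := hfin
  have : Finite (Cfsg.pElementClosure p A) :=
    Finite.of_injective _ (Subgroup.inclusion_injective hLA)
  have h1 : IsSyl p T (Cfsg.pElementClosure p A) := isSyl_closure p hT
  have h2 : IsSyl p (T.map (MulAut.conj a).toMonoidHom) (Cfsg.pElementClosure p A) := by
    apply isSyl_closure
    have h := hT.map_conj a
    rwa [map_conj_eq_self_of_mem ha] at h
  obtain ⟨l, hl, hEq⟩ := h1.conj h2
  have hn : l⁻¹ * a ∈ Subgroup.normalizer (T : Set X) := by
    rw [Subgroup.mem_normalizer_iff]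
    intro x
    constructor
    · intro hx
      have h3 : a * x * a⁻¹ ∈ T.map (MulAut.conj l).toMonoidHom := by
        rw [← hEq]; exact conj_mem_map_conj hx
      rw [mem_map_conj] at h3
      convert h3 using 1
      group
    · intro hx
      have h3 : l * (l⁻¹ * a * x * (l⁻¹ * a)⁻¹) * l⁻¹ ∈ T.map (MulAut.conj a).toMonoidHom := by
        rw [hEq]; exact conj_mem_map_conj hx
      rw [mem_map_conj] at h3
      convert h3 using 1
      group
  have h4 : a = l * (l⁻¹ * a) := by group
  rw [h4]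
  exact Subgroup.mul_mem_sup hl ⟨A.mul_mem (A.inv_mem (hLA hl)) ha, hn⟩

end Cfsg.Agent.Lib.Helper7.AmFRAT
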