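import Mathlib
import Cfsg.Agent.Lib.Helper48.AmStmt

set_option autoImplicit false

/-! Piece NIL of S2856 / S2857 (helper7): in a finite `p`-group `Q` normalizing `U ≤ V ≤ Q`,
`V ≤ U [V, Q]` implies `V ≤ U`. -/

namespace Cfsg.Agent.Lib.Helper7.AmNIL

open Cfsg Cfsg.Agent.Lib.Helper48.AmStmt

universe u

theorem nil_aux {N : Type u} [Group N] [hN : Group.IsNilpotent N] (W : Subgroup N)
    (h : W ≤ ⁅W, (⊤ : Subgroup N)⁆) : W = ⊥ := by
  obtain ⟨n, hn⟩ := Subgroup.nilpotent_iff_lowerCentralSeries.mp hN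
  have h1 : ∀ k, W ≤ (⊤ : Subgroup N).lowerCentralSeries k := by
    intro k
    induction k with
    | zero => exact le_top
    | succ k ih => exact h.trans (Subgroup.commutator_mono ih le_rfl)
  exact le_bot_iff.mp (hn ▸ h1 n)

theorem main : Nil.{u} := by
  intro X _ p _ Q U V hfin hQp hVQ hUV hQV hQU hVU
  have : Finite Q := hfin
  have hUQ : U ≤ Q := hUV.trans hVQ
  have hU'n : (U.subgroupOf Q).Normal := by
    constructor
    intro n hn g
    rw [Subgroup.mem_subgroupOf] at hn ⊢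
    exact (Subgroup.mem_normalizer_iff.mp (hQU g.2) (n : X)).mp hn
  have hmU : (U.subgroupOf Q).map Q.subtype = U := by
    rw [Subgroup.subgroupOf_map_subtype]; exact inf_eq_left.mpr hUQ
  have hmV : (V.subgroupOf Q).map Q.subtype = V := by
    rw [Subgroup.subgroupOf_map_subtype]; exact inf_eq_left.mpr hVQ
  have hmT : (⊤ : Subgroup Q).map Q.subtype = Q := by
    rw [← MonoidHom.range_eq_map, Subgroup.range_subtype]
  have h1 : V.subgroupOf Q ≤ U.subgroupOf Q ⊔ ⁅V.subgroupOf Q, (⊤ : Subgroup Q)⁆ := by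
    rw [← Subgroup.map_le_map_iff_of_injective Q.subtype_injective, Subgroup.map_sup,
      Subgroup.map_commutator, hmU, hmV, hmT]
    exact hVU
  have hker : (U.subgroupOf Q).map (QuotientGroup.mk' (U.subgroupOf Q)) = ⊥ := by
    rw [Subgroup.map_eq_bot_iff, QuotientGroup.ker_mk']
  have hW : (V.subgroupOf Q).map (QuotientGroup.mk' (U.subgroupOf Q)) ≤
      ⁅(V.subgroupOf Q).map (QuotientGroup.mk' (U.subgroupOf Q)), ⊤⁆ := by
    calc (V.subgroupOf Q).map (QuotientGroup.mk' (U.subgroupOf Q))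
        ≤ (U.subgroupOf Q ⊔ ⁅V.subgroupOf Q, (⊤ : Subgroup Q)⁆).map
            (QuotientGroup.mk' (U.subgroupOf Q)) := Subgroup.map_mono h1
      _ = (⁅V.subgroupOf Q, (⊤ : Subgroup Q)⁆).map (QuotientGroup.mk' (U.subgroupOf Q)) := by
          rw [Subgroup.map_sup, hker, bot_sup_eq]
      _ = ⁅(V.subgroupOf Q).map (QuotientGroup.mk' (U.subgroupOf Q)),
            (⊤ : Subgroup Q).map (QuotientGroup.mk' (U.subgroupOf Q))⁆ :=
          Subgroup.map_commutator _ _ _
      _ ≤ _ := Subgroup.commutator_mono le_rfl le_top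
  have hnil : Group.IsNilpotent (↥Q ⧸ U.subgroupOf Q) :=
    (hQp.to_quotient (U.subgroupOf Q)).isNilpotent
  have h0 := nil_aux _ hW
  intro v hv
  have hvQ := hVQ hv
  have h2 : QuotientGroup.mk' (U.subgroupOf Q) ⟨v, hvQ⟩ ∈
      (V.subgroupOf Q).map (QuotientGroup.mk' (U.subgroupOf Q)) :=
    Subgroup.mem_map_of_mem _ (Subgroup.mem_subgroupOf.mpr hv)
  rw [h0, Subgroup.mem_bot, QuotientGroup.mk'_apply, QuotientGroup.eq_one_iff] at h2
  exact Subgroup.mem_subgroupOf.mp h2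

end Cfsg.Agent.Lib.Helper7.AmNIL
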