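import Mathlib
import Cfsg.Agent.Lib.Helper48.AmStmt

set_option autoImplicit false

/-! Piece NORMR of S2856 / S2857 (helper7): `O^p(O^{p'}(A))` lies in `A` and is normalized by
`A`. -/

namespace Cfsg.Agent.Lib.Helper7.AmNORMR

open Cfsg Cfsg.Agent.Lib.Helper46.Amalgam Cfsg.Agent.Lib.Helper46.PCore
open Cfsg.Agent.Lib.Helper48.AmStmt

universe u

theorem pec_le_self {X : Type u} [Group X] (p : ℕ) (A : Subgroup X) :
    Cfsg.pElementClosure p A ≤ A := by
  unfold Cfsg.pElementClosure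
  rw [Subgroup.closure_le]
  rintro x ⟨hx, -⟩
  exact hx

theorem resid_eq {X : Type u} [Group X] (p : ℕ) (A : Subgroup X) :
    resid p A = Subgroup.closure
      {x : X | x ∈ Cfsg.pElementClosure p A ∧ Nat.Coprime (orderOf x) p} := by
  unfold resid Cfsg.pResidual
  rw [MonoidHom.map_closure]
  congr 1
  ext x
  constructor
  · rintro ⟨g, hg, rfl⟩
    refine ⟨g.2, ?_⟩
    have : Nat.Coprime (orderOf g) p := hg
    simpa using this
  · rintro ⟨hx, hc⟩
    refine ⟨⟨x, hx⟩, ?_, rfl⟩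
    show Nat.Coprime (orderOf (⟨x, hx⟩ : ↥(Cfsg.pElementClosure p A))) p
    rw [Subgroup.orderOf_mk]
    exact hc

theorem pec_conj {X : Type u} [Group X] (p : ℕ) (A : Subgroup X) {a : X} (ha : a ∈ A) :
    (Cfsg.pElementClosure p A).map (MulAut.conj a).toMonoidHom ≤ Cfsg.pElementClosure p A := by
  unfold Cfsg.pElementClosure
  rw [MonoidHom.map_closure, Subgroup.closure_le]
  rintro _ ⟨x, ⟨hxA, k, hk⟩, rfl⟩
  apply Subgroup.subset_closure
  refine ⟨?_, k, ?_⟩
  · simpa using A.mul_mem (A.mul_mem ha hxA) (A.inv_mem ha)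
  · rw [← hk]
    exact (MulAut.conj a).orderOf_eq x

theorem resid_conj {X : Type u} [Group X] (p : ℕ) (A : Subgroup X) {a : X} (ha : a ∈ A) :
    (resid p A).map (MulAut.conj a).toMonoidHom ≤ resid p A := by
  rw [resid_eq, MonoidHom.map_closure, Subgroup.closure_le]
  rintro _ ⟨x, ⟨hxL, hc⟩, rfl⟩
  apply Subgroup.subset_closure
  refine ⟨pec_conj p A ha ⟨x, hxL, rfl⟩, ?_⟩
  have h := (MulAut.conj a).orderOf_eq x
  show Nat.Coprime (orderOf ((MulAut.conj a).toMonoidHom x)) p
  have h' : orderOf ((MulAut.conj a).toMonoidHom x) = orderOf x := h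
  rw [h']
  exact hc

theorem main : NormR.{u} := by
  intro X _ p A
  refine ⟨(Subgroup.map_subtype_le _).trans (pec_le_self p A), ?_⟩
  intro a ha
  rw [Subgroup.mem_normalizer_iff]
  intro x
  constructor
  · intro hx
    have h := resid_conj p A ha ⟨x, hx, rfl⟩
    simpa using h
  · intro hx
    have h := resid_conj p A (A.inv_mem ha) ⟨_, hx, rfl⟩
    have e : (MulAut.conj a⁻¹).toMonoidHom (a * x * a⁻¹) = x := by
      simp [MulAut.conj_apply, mul_assoc]
    rw [e] at h
    exact h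

end Cfsg.Agent.Lib.Helper7.AmNORMR
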