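import Mathlib
import Cfsg.Agent.Lib.Helper48.AmStmt

set_option autoImplicit false

/-! Piece RES of S2856 / S2857 (helper7): `L = O^p(L) T` for a Sylow `p`-subgroup `T` of a finite
subgroup `L`. -/

namespace Cfsg.Agent.Lib.Helper7.AmRES

open Cfsg Cfsg.Agent.Lib.Helper46.Amalgam Cfsg.Agent.Lib.Helper46.PCore
open Cfsg.Agent.Lib.Helper48.AmStmt

universe u

/-- In a finite group, `O^p(G) S = G` for a Sylow `p`-subgroup `S`. -/
theorem residual_sup_sylow {G : Type u} [Group G] [Finite G] (p : ℕ) [Fact p.Prime]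
    (S : Sylow p G) : Cfsg.pResidual p G ⊔ (S : Subgroup G) = ⊤ := by
  rw [← Subgroup.index_eq_one]
  apply Nat.eq_one_iff_not_exists_prime_dvd.mpr
  intro q hq hdvd
  haveI : Fact q.Prime := ⟨hq⟩
  by_cases hqp : q = p
  · subst hqp
    exact S.not_dvd_index (hdvd.trans (Subgroup.index_dvd_of_le le_sup_right))
  · have Q : Sylow q G := default
    have hQ : (Q : Subgroup G) ≤ Cfsg.pResidual p G := by
      intro x hx
      apply Subgroup.subset_closure
      obtain ⟨k, hk⟩ := (IsPGroup.iff_orderOf.mp Q.isPGroup') ⟨x, hx⟩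
      rw [Subgroup.orderOf_mk] at hk
      show Nat.Coprime (orderOf x) p
      rw [hk]
      exact Nat.Coprime.pow_left k ((Nat.coprime_primes hq (Fact.out : p.Prime)).mpr hqp)
    exact Q.not_dvd_index (hdvd.trans (Subgroup.index_dvd_of_le (hQ.trans le_sup_left)))

theorem main : Res.{u} := by
  intro X _ p _ L T hfin hT
  haveI : Finite L := hfin
  obtain ⟨S, hS⟩ := hT.exists_sylow
  have h := residual_sup_sylow p S
  have h2 := congrArg (Subgroup.map L.subtype) h
  rw [Subgroup.map_sup, ← MonoidHom.range_eq_map, Subgroup.range_subtype, hS] at h2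
  exact h2.ge

end Cfsg.Agent.Lib.Helper7.AmRES
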