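import Mathlib
import Cfsg.Agent.Lib.Helper80.BTStmt

set_option autoImplicit false

/-! S0997 piece EPOW: in type II, `e` is a power of `q` and `e ≠ 1`. -/

namespace Cfsg.Agent.Lib.Helper7.BTEPOW

open Cfsg Cfsg.Agent.Lib.Helper80.BTStmt

universe u

theorem main : EPOW.{u} := by
  intro G _ _ p q b g₀ hH c hY hII hLoc hdeg
  obtain ⟨-, -, hp, hq, -, hcard, hg₀⟩ := hH
  obtain ⟨⟨θ, hθ⟩, -⟩ := hY
  have hfe : g₀ + c.e = p := by
    have := hII.2 θ hθ
    rwa [hdeg θ hθ] at this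
  have he2 : 2 ≤ c.e := by omega
  have helt : c.e < p := by
    rcases Nat.eq_zero_or_pos g₀ with h0 | h0
    · exfalso
      have hG : Nat.card G = 0 := by rw [hcard, h0, Nat.mul_zero]
      exact Nat.card_pos.ne' hG
    · omega
  have hcop_p : Nat.Coprime c.e p :=
    (Nat.Prime.coprime_iff_not_dvd hp).2 (Nat.not_dvd_of_pos_of_lt (by omega) helt) |>.symm
  have hcop : Nat.Coprime c.e g₀ := by
    have h1 : Nat.Coprime c.e (g₀ + c.e) := by rw [hfe]; exact hcop_p
    exact Nat.coprime_add_self_right.1 h1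
  have hppos : 0 < p := hp.pos
  have hmul : Nat.card (Sylow p G) * c.e = q ^ b * g₀ := by
    have h1 := hLoc.2
    rw [hcard] at h1
    have h2 : p * (Nat.card (Sylow p G) * c.e) = p * (q ^ b * g₀) := by
      calc p * (Nat.card (Sylow p G) * c.e) = Nat.card (Sylow p G) * (p * c.e) := by ring
        _ = p * q ^ b * g₀ := h1
        _ = p * (q ^ b * g₀) := by ring
    exact Nat.eq_of_mul_eq_mul_left hppos h2
  have hdvd : c.e ∣ q ^ b * g₀ := ⟨Nat.card (Sylow p G), by rw [← hmul]; ring⟩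
  have hdvd' : c.e ∣ q ^ b := hcop.dvd_of_dvd_mul_right hdvd
  obtain ⟨j, -, hj⟩ := (Nat.dvd_prime_pow hq).1 hdvd'
  refine ⟨j, ?_, hj⟩
  rcases Nat.eq_zero_or_pos j with h0 | h0
  · rw [h0, pow_zero] at hj
    omega
  · exact h0

end Cfsg.Agent.Lib.Helper7.BTEPOW
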