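import Mathlib

set_option autoImplicit false

namespace Cfsg.Agent.Lib.Helper7.F4

variable {F : Type*} [Field F]

theorem two_eq_zero [Fintype F] (hF : Fintype.card F = 4) : (2 : F) = 0 := by
  have h4 : (4 : F) = 0 := by
    have := Nat.cast_card_eq_zero F
    rw [hF] at this
    exact_mod_cast this
  have h : (2 : F) * 2 = 0 := by rw [← h4]; norm_num
  exact mul_self_eq_zero.mp h

theorem exists_omega [Fintype F] (hF : Fintype.card F = 4) : ∃ ω : F, ω * ω = ω + 1 := by
  classical
  have h2 := two_eq_zero hF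
  obtain ⟨ω, -, hω⟩ : ∃ ω ∈ (Finset.univ : Finset F), ω ∉ ({0, 1} : Finset F) := by
    apply Finset.exists_mem_notMem_of_card_lt_card
    rw [Finset.card_univ, hF]
    exact lt_of_le_of_lt (Finset.card_insert_le _ _) (by simp)
  simp only [Finset.mem_insert, Finset.mem_singleton, not_or] at hω
  have h3 : ω ^ 3 = 1 := by
    have := FiniteField.pow_card_sub_one_eq_one ω hω.1
    rwa [hF] at this
  refine ⟨ω, ?_⟩
  have h5 : (ω - 1) * (ω * ω + ω + 1) = 0 := by linear_combination h3
  rcases mul_eq_zero.mp h5 with h | h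
  · exact absurd (sub_eq_zero.mp h) hω.2
  · linear_combination h - (ω + 1) * h2

/-- The element of the field with four elements with the given code. -/
def el (ω : F) : Nat → F
  | 0 => 0
  | 1 => 1
  | 2 => ω
  | _ => ω + 1

/-- Addition of codes. -/
def gadd (a b : Nat) : Nat :=
  ([[0, 1, 2, 3], [1, 0, 3, 2], [2, 3, 0, 1], [3, 2, 1, 0]].getD a []).getD b 0

/-- Multiplication of codes. -/
def gmul (a b : Nat) : Nat :=
  ([[0, 0, 0, 0], [0, 1, 2, 3], [0, 2, 3, 1], [0, 3, 1, 2]].getD a []).getD b 0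

theorem gmul_one : ∀ a < 4, gmul 1 a = a := by decide

theorem gadd_lt : ∀ a < 4, ∀ b < 4, gadd a b < 4 := by decide

theorem gmul_lt : ∀ a < 4, ∀ b < 4, gmul a b < 4 := by decide

theorem el_add {ω : F} (h2 : (2 : F) = 0) {a b : Nat} (ha : a < 4) (hb : b < 4) :
    el ω (gadd a b) = el ω a + el ω b := by
  interval_cases a <;> interval_cases b <;> simp [el, gadd] <;> grind

theorem el_mul {ω : F} (h2 : (2 : F) = 0) (hω : ω * ω = ω + 1) {a b : Nat} (ha : a < 4)
    (hb : b < 4) : el ω (gmul a b) = el ω a * el ω b := by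
  interval_cases a <;> interval_cases b <;> simp [el, gmul] <;> grind

theorem el_eq_zero {ω : F} (hω : ω * ω = ω + 1) {a : Nat} (ha : a < 4)
    (h : el ω a = 0) : a = 0 := by
  interval_cases a
  · rfl
  · simp [el] at h
  · simp only [el] at h
    rw [h] at hω
    simp at hω
  · simp only [el] at h
    have : ω * ω = 0 := by rw [hω, h]
    have h0 : ω = 0 := mul_self_eq_zero.mp this
    rw [h0] at h
    simp at h

theorem el_inj {ω : F} (h2 : (2 : F) = 0) (hω : ω * ω = ω + 1) {a b : Nat} (ha : a < 4)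
    (hb : b < 4) (h : el ω a = el ω b) : a = b := by
  have h1 : el ω (gadd a b) = 0 := by
    rw [el_add h2 ha hb, h]
    linear_combination (el ω b) * h2
  have h3 := el_eq_zero hω (gadd_lt a ha b hb) h1
  have key : ∀ a < 4, ∀ b < 4, gadd a b = 0 → a = b := by decide
  exact key a ha b hb h3

theorem el_surj [Fintype F] (hF : Fintype.card F = 4) {ω : F} (hω : ω * ω = ω + 1) (x : F) :
    ∃ a < 4, el ω a = x := by
  classical
  have h2 := two_eq_zero hF
  let f : Fin 4 → F := fun a => el ω a.1
  have hf : Function.Injective f := fun a b h => Fin.ext (el_inj h2 hω a.2 b.2 h)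
  have hb : Function.Bijective f := by
    rw [Fintype.bijective_iff_injective_and_card]
    exact ⟨hf, by simp [hF]⟩
  obtain ⟨a, ha⟩ := hb.2 x
  exact ⟨a.1, a.2, ha⟩

end Cfsg.Agent.Lib.Helper7.F4
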