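import Cfsg.Agent.Lib.Helper7.SimpleOn

set_option autoImplicit false

namespace Cfsg.Agent.Lib.Helper7.Jordan

open Finset Cfsg.Agent.Lib.Helper7.SimpleSylow Cfsg.Agent.Lib.Helper7.SharpTrans
  Cfsg.Agent.Lib.Helper7.SimpleOn

/-- Sharp `k`-transitivity. -/
def Sharp (G : Type*) (X : Type*) [Group G] [MulAction G X] (k : ℕ) : Prop :=
  MulAction.IsMultiplyPretransitive G X k ∧ ∀ x : Fin k ↪ X, MulAction.stabilizer G x = ⊥

/-- Double counting along a relation with unique left partners. -/
theorem card_eq_sum_of_existsUnique {A B : Type*} [Fintype A] [Fintype B] (r : A → B → Prop)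
    [∀ a b, Decidable (r a b)] (hr : ∀ b, ∃! a, r a b) :
    Fintype.card B = ∑ a : A, (univ.filter (fun b => r a b)).card := by
  classical
  have h1 : ∀ b : B, (univ.filter (fun a => r a b)).card = 1 := by
    intro b
    obtain ⟨a, ha, hu⟩ := hr b
    rw [Finset.card_eq_one]
    refine ⟨a, ?_⟩
    ext a'
    simp only [mem_filter, mem_univ, true_and, mem_singleton]
    exact ⟨fun h => hu a' h, fun h => h ▸ ha⟩
  calc Fintype.card B = ∑ b : B, 1 := by simp
    _ = ∑ b : B, (univ.filter (fun a => r a b)).card :=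
        Finset.sum_congr rfl (fun b _ => (h1 b).symm)
    _ = ∑ a : A, (univ.filter (fun b => r a b)).card := by
        simp only [Finset.card_filter]
        exact Finset.sum_comm

section Four

open Classical

variable {G : Type*} {X : Type*} [Group G] [MulAction G X] [Fintype X] [Fintype G]

variable (X) in
/-- Fixed points. -/
noncomputable def fixF (t : G) : Finset X := univ.filter (fun y => t • y = y)

variable (X) in
/-- Moved points. -/
noncomputable def movF (t : G) : Finset X := univ.filter (fun y => t • y ≠ y)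

theorem mem_fixF {t : G} {y : X} : y ∈ fixF X t ↔ t • y = y := by simp [fixF]

theorem mem_movF {t : G} {y : X} : y ∈ movF X t ↔ t • y ≠ y := by simp [movF]

theorem fix_add_mov (t : G) : (fixF X t).card + (movF X t).card = Fintype.card X := by
  rw [fixF, movF, Finset.card_filter_add_card_filter_not, Finset.card_univ]

/-- A four-tuple of distinct points. -/
def mk4 (a b c d : X) (hab : a ≠ b) (hac : a ≠ c) (had : a ≠ d) (hbc : b ≠ c) (hbd : b ≠ d)
    (hcd : c ≠ d) : Fin 4 ↪ X :=
  ⟨![a, b, c, d], by intro i j h; fin_cases i <;> fin_cases j <;> simp_all⟩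

theorem ext4 {x y : Fin 4 ↪ X} (h0 : x 0 = y 0) (h1 : x 1 = y 1) (h2 : x 2 = y 2)
    (h3 : x 3 = y 3) : x = y := by
  ext i
  fin_cases i <;> assumption

theorem sharp_eq (h : Sharp G X 4) (x : Fin 4 ↪ X) {g g' : G} (h0 : g • x 0 = g' • x 0)
    (h1 : g • x 1 = g' • x 1) (h2 : g • x 2 = g' • x 2) (h3 : g • x 3 = g' • x 3) : g = g' := by
  have hmem : g'⁻¹ * g ∈ MulAction.stabilizer G x := by
    rw [MulAction.mem_stabilizer_iff]
    apply ext4 <;> simp only [Function.Embedding.smul_apply, mul_smul, inv_smul_eq_iff] <;>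
      assumption
  rw [h.2 x, Subgroup.mem_bot] at hmem
  exact (inv_mul_eq_one.mp hmem).symm

theorem sharp_fix (h : Sharp G X 4) {g : G} {a b c d : X} (hab : a ≠ b) (hac : a ≠ c)
    (had : a ≠ d) (hbc : b ≠ c) (hbd : b ≠ d) (hcd : c ≠ d) (ha : g • a = a) (hb : g • b = b)
    (hc : g • c = c) (hd : g • d = d) : g = 1 := by
  apply sharp_eq h (mk4 a b c d hab hac had hbc hbd hcd)
  · rw [one_smul]; exact ha
  · rw [one_smul]; exact hb
  · rw [one_smul]; exact hc
  · rw [one_smul]; exact hd

/-- A nonidentity element has at most three fixed points. -/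
theorem card_fix_le (h : Sharp G X 4) {t : G} (ht : t ≠ 1) : (fixF X t).card ≤ 3 := by
  by_contra hcon
  have h4 : Fintype.card (Fin 4) ≤ Fintype.card ↥(fixF X t) := by
    rw [Fintype.card_fin, Fintype.card_coe]; omega
  obtain ⟨e⟩ := Function.Embedding.nonempty_of_card_le h4
  have hmem : t ∈ MulAction.stabilizer G (e.trans (Function.Embedding.subtype _)) := by
    rw [MulAction.mem_stabilizer_iff]
    ext i
    exact mem_fixF.mp (e i).2
  rw [h.2, Subgroup.mem_bot] at hmem
  exact ht hmem

/-- The moved points of an involution come in pairs. -/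
theorem two_dvd_mov {t : G} (ht : t * t = 1) : 2 ∣ (movF X t).card := by
  have h1 : (MulAction.toPermHom G X t) ^ 2 = 1 := by
    rw [← map_pow, pow_two, ht, map_one]
  have h2 := Equiv.Perm.two_dvd_card_support h1
  have h3 : (MulAction.toPermHom G X t).support = movF X t := by
    ext y
    rw [Equiv.Perm.mem_support, mem_movF]
    rfl
  rw [h3] at h2
  exact h2

theorem mov_one : (movF X (1 : G) : Finset X).card = 0 := by
  rw [Finset.card_eq_zero]
  ext y
  simp [mem_movF]

/-- Pattern `(01)(23)`. -/
def relP (t : G) (x : Fin 4 ↪ X) : Prop :=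
  t • x 0 = x 1 ∧ t • x 1 = x 0 ∧ t • x 2 = x 3 ∧ t • x 3 = x 2

/-- Pattern `(01)`. -/
def relQ (t : G) (x : Fin 4 ↪ X) : Prop :=
  t • x 0 = x 1 ∧ t • x 1 = x 0 ∧ t • x 2 = x 2 ∧ t • x 3 = x 3

theorem ne4 (x : Fin 4 ↪ X) {i j : Fin 4} (hij : i ≠ j) : x i ≠ x j := x.injective.ne hij

theorem existsUnique_relP (h : Sharp G X 4) (x : Fin 4 ↪ X) : ∃! t : G, relP t x := by
  haveI := h.1
  obtain ⟨g, h0, h1, h2, h3⟩ := four_of_multiply (G := G) (x 0) (x 1) (x 2) (x 3)
    (x 1) (x 0) (x 3) (x 2) (ne4 x (by decide)) (ne4 x (by decide)) (ne4 x (by decide))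
    (ne4 x (by decide)) (ne4 x (by decide)) (ne4 x (by decide)) (ne4 x (by decide))
    (ne4 x (by decide)) (ne4 x (by decide)) (ne4 x (by decide)) (ne4 x (by decide))
    (ne4 x (by decide))
  refine ⟨g, ⟨h0, h1, h2, h3⟩, ?_⟩
  rintro g' ⟨h0', h1', h2', h3'⟩
  exact sharp_eq h x (h0'.trans h0.symm) (h1'.trans h1.symm) (h2'.trans h2.symm)
    (h3'.trans h3.symm)

theorem existsUnique_relQ (h : Sharp G X 4) (x : Fin 4 ↪ X) : ∃! t : G, relQ t x := by
  haveI := h.1
  obtain ⟨g, h0, h1, h2, h3⟩ := four_of_multiply (G := G) (x 0) (x 1) (x 2) (x 3)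
    (x 1) (x 0) (x 2) (x 3) (ne4 x (by decide)) (ne4 x (by decide)) (ne4 x (by decide))
    (ne4 x (by decide)) (ne4 x (by decide)) (ne4 x (by decide)) (ne4 x (by decide))
    (ne4 x (by decide)) (ne4 x (by decide)) (ne4 x (by decide)) (ne4 x (by decide))
    (ne4 x (by decide))
  refine ⟨g, ⟨h0, h1, h2, h3⟩, ?_⟩
  rintro g' ⟨h0', h1', h2', h3'⟩
  exact sharp_eq h x (h0'.trans h0.symm) (h1'.trans h1.symm) (h2'.trans h2.symm)
    (h3'.trans h3.symm)

theorem sq_of_relP (h : Sharp G X 4) {t : G} {x : Fin 4 ↪ X} (hr : relP t x) : t * t = 1 := by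
  obtain ⟨h0, h1, h2, h3⟩ := hr
  apply sharp_eq h x <;> rw [mul_smul, one_smul]
  · rw [h0, h1]
  · rw [h1, h0]
  · rw [h2, h3]
  · rw [h3, h2]

theorem sq_of_relQ (h : Sharp G X 4) {t : G} {x : Fin 4 ↪ X} (hr : relQ t x) : t * t = 1 := by
  obtain ⟨h0, h1, h2, h3⟩ := hr
  apply sharp_eq h x <;> rw [mul_smul, one_smul]
  · rw [h0, h1]
  · rw [h1, h0]
  · rw [h2, h2]
  · rw [h3, h3]

theorem sq_smul {t : G} (ht : t * t = 1) (y : X) : t • t • y = y := by
  rw [← mul_smul, ht, one_smul]

/-- The number of `(01)(23)` configurations of an involution. -/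
theorem card_relP {t : G} (ht : t * t = 1) :
    (univ.filter (fun x : Fin 4 ↪ X => relP t x)).card =
      (movF X t).card * ((movF X t).card - 2) := by
  have hsig : ((movF X t).sigma (fun a => ((movF X t).erase a).erase (t • a))).card =
      (movF X t).card * ((movF X t).card - 2) := by
    rw [Finset.card_sigma]
    apply Finset.sum_const_nat
    intro a ha
    have ha' := mem_movF.mp ha
    rw [Finset.card_erase_of_mem, Finset.card_erase_of_mem ha]
    · rfl
    · rw [Finset.mem_erase, mem_movF, sq_smul ht]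
      exact ⟨ha', fun h => ha' h.symm⟩
  rw [← hsig]
  refine Finset.card_bij (fun x _ => ⟨x 0, x 2⟩) ?_ ?_ ?_
  · intro x hx
    obtain ⟨h0, h1, h2, h3⟩ := (Finset.mem_filter.mp hx).2
    rw [Finset.mem_sigma]
    refine ⟨?_, ?_⟩
    · show x 0 ∈ movF X t
      rw [mem_movF, h0]; exact ne4 x (by decide)
    · show x 2 ∈ ((movF X t).erase (x 0)).erase (t • x 0)
      rw [Finset.mem_erase, Finset.mem_erase, mem_movF, h0, h2]
      exact ⟨ne4 x (by decide), ne4 x (by decide), ne4 x (by decide)⟩
  · intro x hx y hy hxy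
    obtain ⟨h0, h1, h2, h3⟩ := (Finset.mem_filter.mp hx).2
    obtain ⟨h0', h1', h2', h3'⟩ := (Finset.mem_filter.mp hy).2
    have e0 : x 0 = y 0 := congrArg (fun p : (_ : X) × X => p.1) hxy
    have e2 : x 2 = y 2 := by
      have := congrArg (fun p : (_ : X) × X => p.2) hxy
      exact this
    apply ext4 e0 _ e2
    · rw [← h2, ← h2', e2]
    · rw [← h0, ← h0', e0]
  · rintro ⟨a, c⟩ hac
    rw [Finset.mem_sigma] at hac
    obtain ⟨ha, hc⟩ := hac
    have hc' : c ∈ ((movF X t).erase a).erase (t • a) := hc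
    rw [Finset.mem_erase, Finset.mem_erase] at hc'
    obtain ⟨hc1, hc2, hc3⟩ := hc'
    have ha' := mem_movF.mp ha
    have hc3' := mem_movF.mp hc3
    have hinj : t • a ≠ t • c := fun h => hc2 (MulAction.injective t h).symm
    have hatc : a ≠ t • c := by
      intro h
      apply hc1
      rw [h, sq_smul ht]
    refine ⟨mk4 a (t • a) c (t • c) (Ne.symm ha') (Ne.symm hc2) hatc (Ne.symm hc1) hinj
      (Ne.symm hc3'), ?_, rfl⟩
    rw [Finset.mem_filter]
    exact ⟨Finset.mem_univ _, rfl, sq_smul ht a, rfl, sq_smul ht c⟩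

/-- The number of `(01)` configurations of an involution. -/
theorem card_relQ {t : G} (ht : t * t = 1) :
    (univ.filter (fun x : Fin 4 ↪ X => relQ t x)).card =
      (movF X t).card * ((fixF X t).card * ((fixF X t).card - 1)) := by
  have hprod : ((movF X t) ×ˢ (fixF X t).offDiag).card =
      (movF X t).card * ((fixF X t).card * ((fixF X t).card - 1)) := by
    rw [Finset.card_product, Finset.offDiag_card, Nat.mul_sub_one]
  rw [← hprod]
  refine Finset.card_bij (fun x _ => (x 0, (x 2, x 3))) ?_ ?_ ?_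
  · intro x hx
    obtain ⟨h0, h1, h2, h3⟩ := (Finset.mem_filter.mp hx).2
    rw [Finset.mem_product, Finset.mem_offDiag, mem_movF, mem_fixF, mem_fixF, h0]
    exact ⟨ne4 x (by decide), h2, h3, ne4 x (by decide)⟩
  · intro x hx y hy hxy
    obtain ⟨h0, h1, h2, h3⟩ := (Finset.mem_filter.mp hx).2
    obtain ⟨h0', h1', h2', h3'⟩ := (Finset.mem_filter.mp hy).2
    have e0 : x 0 = y 0 := congrArg (fun p : X × X × X => p.1) hxy
    have e2 : x 2 = y 2 := congrArg (fun p : X × X × X => p.2.1) hxy
    have e3 : x 3 = y 3 := congrArg (fun p : X × X × X => p.2.2) hxy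
    apply ext4 e0 _ e2 e3
    rw [← h0, ← h0', e0]
  · rintro ⟨a, c, d⟩ hacd
    rw [Finset.mem_product, Finset.mem_offDiag, mem_movF, mem_fixF, mem_fixF] at hacd
    obtain ⟨ha, hc, hd, hcd⟩ := hacd
    have hta : t • t • a ≠ t • a := fun h => ha (MulAction.injective t h)
    have h1 : a ≠ c := fun h => ha (h ▸ hc)
    have h2 : a ≠ d := fun h => ha (h ▸ hd)
    have h3 : t • a ≠ c := fun h => hta (h ▸ hc)
    have h4 : t • a ≠ d := fun h => hta (h ▸ hd)
    refine ⟨mk4 a (t • a) c d (Ne.symm ha) h1 h2 h3 h4 hcd, ?_, rfl⟩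
    rw [Finset.mem_filter]
    exact ⟨Finset.mem_univ _, rfl, sq_smul ht a, hc, hd⟩

/-- The `(01)(23)` count. -/
theorem sum_P (h : Sharp G X 4) :
    ∑ t ∈ univ.filter (fun t : G => t * t = 1), (movF X t : Finset X).card * ((movF X t : Finset X).card - 2) =
      Fintype.card (Fin 4 ↪ X) := by
  rw [card_eq_sum_of_existsUnique (fun (t : G) (x : Fin 4 ↪ X) => relP t x)
    (existsUnique_relP h), Finset.sum_filter]
  apply Finset.sum_congr rfl
  intro t _
  split_ifs with ht
  · exact (card_relP ht).symm
  · symm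
    rw [Finset.card_eq_zero, Finset.filter_eq_empty_iff]
    intro x _ hx
    exact ht (sq_of_relP h hx)

/-- The `(01)` count. -/
theorem sum_Q (h : Sharp G X 4) :
    ∑ t ∈ univ.filter (fun t : G => t * t = 1),
      (movF X t : Finset X).card * ((fixF X t : Finset X).card * ((fixF X t : Finset X).card - 1)) =
      Fintype.card (Fin 4 ↪ X) := by
  rw [card_eq_sum_of_existsUnique (fun (t : G) (x : Fin 4 ↪ X) => relQ t x)
    (existsUnique_relQ h), Finset.sum_filter]
  apply Finset.sum_congr rfl
  intro t _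
  split_ifs with ht
  · exact (card_relQ ht).symm
  · symm
    rw [Finset.card_eq_zero, Finset.filter_eq_empty_iff]
    intro x _ hx
    exact ht (sq_of_relQ h hx)

/-- Involutions with a unique fixed point: their number is a multiple of the degree. -/
theorem dvd_card_unique_fix [MulAction.IsPretransitive G X] (a₀ : X) :
    ∃ J : ℕ, ((univ.filter (fun t : G => t * t = 1)).filter
      (fun t => (fixF X t : Finset X).card = 1)).card = Fintype.card X * J := by
  let S : X → Finset G := fun a => univ.filter (fun t : G => t * t = 1 ∧ fixF X t = {a})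
  have hS : (univ.filter (fun t : G => t * t = 1)).filter
      (fun t => (fixF X t : Finset X).card = 1) = univ.biUnion S := by
    ext t
    simp only [S, mem_filter, mem_univ, true_and, mem_biUnion, Finset.card_eq_one]
    constructor
    · rintro ⟨h1, a, ha⟩; exact ⟨a, h1, ha⟩
    · rintro ⟨a, h1, ha⟩; exact ⟨h1, a, ha⟩
  have hle : ∀ (g : G) (a : X), (S a).card ≤ (S (g • a)).card := by
    intro g a
    apply Finset.card_le_card_of_injOn (fun t => g * t * g⁻¹)
    · intro t ht
      simp only [S, coe_filter, mem_univ, true_and, Set.mem_setOf_eq] at ht ⊢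
      obtain ⟨h1, h2⟩ := ht
      refine ⟨?_, ?_⟩
      · calc g * t * g⁻¹ * (g * t * g⁻¹) = g * (t * t) * g⁻¹ := by group
          _ = 1 := by rw [h1]; group
      · ext y
        rw [mem_fixF, mem_singleton, mul_smul, mul_smul, smul_eq_iff_eq_inv_smul,
          ← mem_fixF, h2, mem_singleton, inv_smul_eq_iff]
    · intro t _ t' _ htt
      simpa using htt
  have heq : ∀ a : X, (S a).card = (S a₀).card := by
    intro a
    obtain ⟨g, hg⟩ := MulAction.exists_smul_eq G a₀ a
    apply le_antisymm
    · have := hle g⁻¹ a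
      rwa [← hg, inv_smul_smul, hg] at this
    · have := hle g a₀
      rwa [hg] at this
  refine ⟨(S a₀).card, ?_⟩
  rw [hS, Finset.card_biUnion]
  · rw [Finset.sum_congr rfl (fun a _ => heq a), Finset.sum_const, Finset.card_univ, smul_eq_mul]
  · intro a _ b _ hab
    rw [Function.onFun, Finset.disjoint_left]
    intro t hta htb
    simp only [S, mem_filter, mem_univ, true_and] at hta htb
    exact hab (Finset.singleton_injective (hta.2.symm.trans htb.2))

end Four

section Main

open Classical

variable {G : Type*} {X : Type*} [Group G] [MulAction G X]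

theorem arith_even (k : ℕ) :
    (k + 4 - 4) * ((k + 4 - 2) * (2 * (2 - 1))) ≤ 2 * ((k + 4 - 2) * (k + 4 - 2 - 2)) := by
  have e1 : k + 4 - 4 = k := by omega
  have e2 : k + 4 - 2 = k + 2 := by omega
  have e3 : k + 2 - 2 = k := by omega
  rw [e1, e2, e3]
  apply le_of_eq
  ring

theorem arith_odd3 (k : ℕ) :
    6 * ((k + 5 - 3) * (k + 5 - 3 - 2)) = (k + 5 - 5) * ((k + 5 - 3) * (3 * (3 - 1))) := by
  have e1 : k + 5 - 5 = k := by omega
  have e2 : k + 5 - 3 = k + 2 := by omega
  have e3 : k + 2 - 2 = k := by omega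
  rw [e1, e2, e3]
  ring

theorem pretransitive_of_sharp [Finite X] {k : ℕ} (h : Sharp G X k) (h1 : 1 ≤ k)
    (hk : k ≤ Nat.card X) : MulAction.IsPretransitive G X := by
  haveI := h.1
  have : MulAction.IsMultiplyPretransitive G X 1 :=
    MulAction.isMultiplyPretransitive_of_le (n := k) h1 (by exact_mod_cast hk)
  exact MulAction.is_one_pretransitive_iff.mp this

theorem jordan4_fintype [Fintype X] [Fintype G] (h : Sharp G X 4) (h4 : 4 ≤ Fintype.card X) :
    Fintype.card X = 4 ∨ Fintype.card X = 5 ∨ Fintype.card X = 6 ∨ Fintype.card X = 11 := by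
  have hN : Fintype.card (Fin 4 ↪ X) = (Fintype.card X).descFactorial 4 := by
    rw [Fintype.card_embedding_eq, Fintype.card_fin]
  have hP := sum_P h
  have hQ := sum_Q h
  rw [hN] at hP hQ
  obtain ⟨a₀⟩ : Nonempty X := Fintype.card_pos_iff.mp (by omega)
  haveI : MulAction.IsPretransitive G X :=
    pretransitive_of_sharp h (by norm_num) (by rw [Nat.card_eq_fintype_card]; exact h4)
  obtain ⟨J, hJ⟩ := dvd_card_unique_fix (G := G) (X := X) a₀
  have hfm := fun t : G => fix_add_mov (X := X) t
  have hfle := fun (t : G) (ht : t ≠ 1) => card_fix_le (X := X) h ht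
  generalize Fintype.card X = n at *
  have hNpos : 0 < n.descFactorial 4 := Nat.descFactorial_pos.mpr h4
  rcases Nat.even_or_odd n with he | ho
  · have key : ∀ t ∈ univ.filter (fun t : G => t * t = 1),
        (n - 4) * ((movF X t).card * ((fixF X t).card * ((fixF X t).card - 1))) ≤
          2 * ((movF X t).card * ((movF X t).card - 2)) := by
      intro t ht
      have ht' := (Finset.mem_filter.mp ht).2
      by_cases h1 : t = 1
      · subst h1; rw [mov_one]; simp
      · have hf := hfle t h1
        have hfm' := hfm t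
        obtain ⟨j, hj⟩ := two_dvd_mov (X := X) ht'
        obtain ⟨i, hi⟩ := he
        have hcases : (fixF X t).card = 0 ∨ (fixF X t).card = 2 := by omega
        rcases hcases with hf0 | hf2
        · rw [hf0]; simp
        · have hm : (movF X t).card = n - 2 := by omega
          rw [hf2, hm]
          obtain ⟨k, rfl⟩ : ∃ k, n = k + 4 := ⟨n - 4, by omega⟩
          exact arith_even k
    have hsum := Finset.sum_le_sum key
    rw [← Finset.mul_sum, ← Finset.mul_sum, hP, hQ] at hsum
    have h2 : n - 4 ≤ 2 := Nat.le_of_mul_le_mul_right hsum hNpos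
    obtain ⟨i, hi⟩ := he
    omega
  · have hn5 : 5 ≤ n := by obtain ⟨i, hi⟩ := ho; omega
    have key : ∀ t ∈ univ.filter (fun t : G => t * t = 1),
        6 * ((movF X t).card * ((movF X t).card - 2)) =
          (n - 5) * ((movF X t).card * ((fixF X t).card * ((fixF X t).card - 1))) +
            (if (fixF X t).card = 1 then 6 * ((n - 1) * (n - 3)) else 0) := by
      intro t ht
      have ht' := (Finset.mem_filter.mp ht).2
      by_cases h1 : t = 1
      · subst h1
        have hfm' := hfm 1
        rw [mov_one] at hfm' ⊢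
        have hne : (fixF X (1 : G)).card ≠ 1 := by omega
        simp [hne]
      · have hf := hfle t h1
        have hfm' := hfm t
        obtain ⟨j, hj⟩ := two_dvd_mov (X := X) ht'
        obtain ⟨i, hi⟩ := ho
        have hcases : (fixF X t).card = 1 ∨ (fixF X t).card = 3 := by omega
        rcases hcases with hf1 | hf3
        · have hm : (movF X t).card = n - 1 := by omega
          have e : n - 1 - 2 = n - 3 := by omega
          rw [hf1, hm, e]
          simp
        · have hm : (movF X t).card = n - 3 := by omega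
          rw [hf3, hm]
          obtain ⟨k, rfl⟩ : ∃ k, n = k + 5 := ⟨n - 5, by omega⟩
          rw [arith_odd3 k]
          simp
    have hsum := Finset.sum_congr rfl key
    rw [← Finset.mul_sum, Finset.sum_add_distrib, ← Finset.mul_sum, hP, hQ, ← Finset.sum_filter,
      Finset.sum_const, smul_eq_mul, hJ] at hsum
    have hle : (n - 5) * n.descFactorial 4 ≤ 6 * n.descFactorial 4 := by
      rw [hsum]; exact Nat.le_add_right _ _
    have h6 : n - 5 ≤ 6 := Nat.le_of_mul_le_mul_right hle hNpos
    have hn11 : n ≤ 11 := by omega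
    obtain ⟨i, hi⟩ := ho
    interval_cases n <;> first | omega | (norm_num [Nat.descFactorial] at hsum; omega)

/-- **Jordan.** A sharply 4-transitive group has degree 4, 5, 6 or 11. -/
theorem jordan4 [Finite X] [Finite G] (h : Sharp G X 4) (h4 : 4 ≤ Nat.card X) :
    Nat.card X = 4 ∨ Nat.card X = 5 ∨ Nat.card X = 6 ∨ Nat.card X = 11 := by
  haveI := Fintype.ofFinite X
  haveI := Fintype.ofFinite G
  rw [Nat.card_eq_fintype_card] at h4 ⊢
  exact jordan4_fintype h h4

end Main

section Stab

variable {G : Type*} {X : Type*} [Group G] [MulAction G X]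

/-- The point stabiliser of a sharply `(k+1)`-transitive group is sharply `k`-transitive on the
remaining points. -/
theorem sharp_stab {k : ℕ} (h : Sharp G X (k + 1)) [MulAction.IsPretransitive G X] (a : X) :
    Sharp (MulAction.stabilizer G a) (SubMulAction.ofStabilizer G a) k := by
  refine ⟨SubMulAction.ofStabilizer.isMultiplyPretransitive.mp h.1, ?_⟩
  intro x
  rw [eq_bot_iff]
  intro g hg
  rw [MulAction.mem_stabilizer_iff] at hg
  rw [Subgroup.mem_bot]
  have h1 : (g : G) ∈ MulAction.stabilizer G (SubMulAction.ofStabilizer.snoc x) := by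
    rw [MulAction.mem_stabilizer_iff]
    ext i
    rcases Fin.eq_castSucc_or_eq_last i with ⟨i, rfl⟩ | rfl
    · rw [Function.Embedding.smul_apply, SubMulAction.ofStabilizer.snoc_castSucc]
      have := congrArg (fun e : Fin k ↪ SubMulAction.ofStabilizer G a =>
        ((e i : SubMulAction.ofStabilizer G a) : X)) hg
      simp at this
      exact this
    · rw [Function.Embedding.smul_apply, SubMulAction.ofStabilizer.snoc_last]
      exact g.2
  rw [h.2, Subgroup.mem_bot] at h1
  exact Subtype.ext h1

/-- **Jordan.** A sharply 5-transitive group has degree 5, 6, 7 or 12. -/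
theorem jordan5 [Finite X] [Finite G] (h : Sharp G X 5) (h5 : 5 ≤ Nat.card X) :
    Nat.card X = 5 ∨ Nat.card X = 6 ∨ Nat.card X = 7 ∨ Nat.card X = 12 := by
  obtain ⟨a⟩ : Nonempty X := by
    rw [← Finite.card_pos_iff]; omega
  haveI : MulAction.IsPretransitive G X := pretransitive_of_sharp h (by norm_num) h5
  have hs := sharp_stab h a
  have hc := SubMulAction.nat_card_ofStabilizer_add_one_eq (G := G) a
  have := jordan4 hs (by omega)
  omega

/-- A sharply 6-transitive group cannot have degree 13. -/
theorem no_sharp6_13 [Finite X] [Finite G] (h : Sharp G X 6) (hn : Nat.card X = 13) : False := by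
  classical
  haveI := Fintype.ofFinite X
  have hn' : Fintype.card X = 13 := by rw [← Nat.card_eq_fintype_card]; exact hn
  haveI := h.1
  have hfaith : ∀ g : G, (∀ x : X, g • x = x) → g = 1 := by
    intro g hg
    obtain ⟨x⟩ : Nonempty (Fin 6 ↪ X) := by
      rw [Function.Embedding.nonempty_iff_card_le, Fintype.card_fin, hn']; norm_num
    have hmem : g ∈ MulAction.stabilizer G x := by
      rw [MulAction.mem_stabilizer_iff]
      ext i
      exact hg _
    rw [h.2, Subgroup.mem_bot] at hmem
    exact hmem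
  have hcard : Nat.card G = 13 * 95040 := by
    rw [card_of_sharp (G := G) (α := X) 6 (by rw [hn']; norm_num) h.2, hn']
    decide
  haveI : Fact (Nat.Prime 13) := ⟨by norm_num⟩
  obtain ⟨P⟩ : Nonempty (Sylow 13 G) := inferInstance
  have hP := card_sylow_of_exact hcard (by norm_num) P
  have hB := normalizer_dvd_of_lt (X := X) hfaith (by rw [hn']; norm_num) P hP
  rw [hn'] at hB
  have harith : ∀ q : ℕ, ∀ j, 13 * j ∣ (13 - 13).factorial * 13 * (13 - 1) → j ∣ 95040 →
      (95040 / j) % 13 = 1 → j = q := by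
    intro q j hj _ hmod
    have h12 : j ∣ 12 := by
      have : 13 * j ∣ 13 * 12 := by simpa using hj
      exact (Nat.mul_dvd_mul_iff_left (by norm_num)).mp this
    have hle : j ≤ 12 := Nat.le_of_dvd (by norm_num) h12
    interval_cases j <;> simp_all
  have e1 := card_normalizer_eq (q := 1) hcard (by norm_num) P hB (harith 1)
  have e2 := card_normalizer_eq (q := 2) hcard (by norm_num) P hB (harith 2)
  omega

/-- For `k ≥ 6`, a sharply `k`-transitive group has degree `k`, `k + 1` or `k + 2`. -/
theorem jordan_ge6 : ∀ (k : ℕ), 6 ≤ k → ∀ {G : Type*} {X : Type*} [Group G] [MulAction G X]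
    [Finite X] [Finite G], Sharp G X k → k ≤ Nat.card X →
    Nat.card X = k ∨ Nat.card X = k + 1 ∨ Nat.card X = k + 2 := by
  intro k hk
  induction k, hk using Nat.le_induction with
  | base =>
    intro G X _ _ _ _ h h6
    obtain ⟨a⟩ : Nonempty X := by
      rw [← Finite.card_pos_iff]; omega
    haveI : MulAction.IsPretransitive G X := pretransitive_of_sharp h (by norm_num) h6
    have hs := sharp_stab h a
    have hc := SubMulAction.nat_card_ofStabilizer_add_one_eq (G := G) a
    have h5 := jordan5 hs (by omega)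
    have h13 : Nat.card X ≠ 13 := fun h13 => no_sharp6_13 h h13
    omega
  | succ k hk ih =>
    intro G X _ _ _ _ h hk1
    obtain ⟨a⟩ : Nonempty X := by
      rw [← Finite.card_pos_iff]; omega
    haveI : MulAction.IsPretransitive G X := pretransitive_of_sharp h (by omega) hk1
    have hs := sharp_stab h a
    have hc := SubMulAction.nat_card_ofStabilizer_add_one_eq (G := G) a
    have := ih hs (by omega)
    omega

end Stab

end Cfsg.Agent.Lib.Helper7.Jordan
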