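import Cfsg.Agent.Lib.Helper7.Jordan

set_option autoImplicit false

namespace Cfsg.Agent.Lib.Helper7.Jordan2

open Cfsg.Agent.Lib.Helper7.Jordan Cfsg.Agent.Lib.Helper7.SimpleOn

variable {G : Type*} {X : Type*} [Group G] [MulAction G X]

/-- In a sharply 4-transitive group an element fixing four distinct points is trivial
(no finiteness needed). -/
theorem fix4 (h : Sharp G X 4) {g : G} {a b c d : X} (hab : a ≠ b) (hac : a ≠ c)
    (had : a ≠ d) (hbc : b ≠ c) (hbd : b ≠ d) (hcd : c ≠ d) (ha : g • a = a) (hb : g • b = b)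
    (hc : g • c = c) (hd : g • d = d) : g = 1 := by
  have hmem : g ∈ MulAction.stabilizer G (mk4 a b c d hab hac had hbc hbd hcd) := by
    rw [MulAction.mem_stabilizer_iff]
    ext i
    fin_cases i
    · exact ha
    · exact hb
    · exact hc
    · exact hd
  rw [h.2, Subgroup.mem_bot] at hmem
  exact hmem

/-- Two elements agreeing on four distinct points are equal. -/
theorem eq4 (h : Sharp G X 4) {g g' : G} {a b c d : X} (hab : a ≠ b) (hac : a ≠ c)
    (had : a ≠ d) (hbc : b ≠ c) (hbd : b ≠ d) (hcd : c ≠ d) (ha : g • a = g' • a)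
    (hb : g • b = g' • b) (hc : g • c = g' • c) (hd : g • d = g' • d) : g = g' := by
  have h1 : g'⁻¹ * g = 1 := by
    apply fix4 h hab hac had hbc hbd hcd <;> rw [mul_smul, inv_smul_eq_iff] <;> assumption
  exact (inv_mul_eq_one.mp h1).symm

/-- **Tits.** The set acted on by a sharply 4-transitive group is finite. -/
theorem finite_of_sharp4 (h : Sharp G X 4) (x₀ : Fin 4 ↪ X) : Finite X := by
  haveI := h.1
  have hne : ∀ i j : Fin 4, i ≠ j → x₀ i ≠ x₀ j := fun i j hij => x₀.injective.ne hij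
  obtain ⟨a, b, c, d, hab, hac, had, hbc, hbd, hcd⟩ :
      ∃ a b c d : X, a ≠ b ∧ a ≠ c ∧ a ≠ d ∧ b ≠ c ∧ b ≠ d ∧ c ≠ d :=
    ⟨x₀ 0, x₀ 1, x₀ 2, x₀ 3, hne _ _ (by decide), hne _ _ (by decide), hne _ _ (by decide),
      hne _ _ (by decide), hne _ _ (by decide), hne _ _ (by decide)⟩
  obtain ⟨t, hta, htb, htc, htd⟩ := four_of_multiply (G := G) a b c d b a c d hab hac had hbc hbd
    hcd hab.symm hbc hbd hac had hcd
  have htt : ∀ y : X, t • t • y = y := by
    have h1 : t * t = 1 := by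
      apply fix4 h hab hac had hbc hbd hcd <;> rw [mul_smul]
      · rw [hta, htb]
      · rw [htb, hta]
      · rw [htc, htc]
      · rw [htd, htd]
    intro y
    rw [← mul_smul, h1, one_smul]
  have ht1 : t ≠ 1 := by
    rintro rfl
    rw [one_smul] at hta
    exact hab hta
  have hF : {y : X | t • y = y}.Finite := by
    by_contra hinf
    have e := Set.Infinite.natEmbedding _ hinf
    have hne' : ∀ i j : ℕ, i ≠ j → ((e i : {y : X | t • y = y}) : X) ≠ e j :=
      fun i j hij h' => hij (e.injective (Subtype.ext h'))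
    exact ht1 (fix4 h (hne' 0 1 (by norm_num)) (hne' 0 2 (by norm_num)) (hne' 0 3 (by norm_num))
      (hne' 1 2 (by norm_num)) (hne' 1 3 (by norm_num)) (hne' 2 3 (by norm_num))
      (e 0).2 (e 1).2 (e 2).2 (e 3).2)
  have hM : {v : X | t • v ≠ v ∧ v ≠ a ∧ v ≠ b}.Finite := by
    by_cases hemp : ∃ v₀, t • v₀ ≠ v₀ ∧ v₀ ≠ a ∧ v₀ ≠ b
    · obtain ⟨v₀, hv₀, hv₀a, hv₀b⟩ := hemp
      have key : ∀ v : X, t • v ≠ v → v ≠ a → v ≠ b →
          (a ≠ v ∧ a ≠ t • v ∧ b ≠ v ∧ b ≠ t • v ∧ v ≠ t • v) := by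
        intro v hv hva hvb
        refine ⟨Ne.symm hva, ?_, Ne.symm hvb, ?_, Ne.symm hv⟩
        · intro h'
          apply hvb
          rw [← htt v, ← h', hta]
        · intro h'
          apply hva
          rw [← htt v, ← h', htb]
      have hex : ∀ v : X, (t • v ≠ v ∧ v ≠ a ∧ v ≠ b) →
          ∃ g : G, g • a = a ∧ g • b = b ∧ g • v₀ = v ∧ g • (t • v₀) = t • v := by
        rintro v ⟨hv, hva, hvb⟩
        obtain ⟨k1, k2, k3, k4, k5⟩ := key v₀ hv₀ hv₀a hv₀b
        obtain ⟨l1, l2, l3, l4, l5⟩ := key v hv hva hvb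
        exact four_of_multiply (G := G) a b v₀ (t • v₀) a b v (t • v) hab k1 k2 k3 k4 k5
          hab l1 l2 l3 l4 l5
      choose! gv hgv using hex
      obtain ⟨k1, k2, k3, k4, k5⟩ := key v₀ hv₀ hv₀a hv₀b
      apply Set.Finite.of_injOn (f := fun v => (gv v • c, gv v • d))
        (t := {y : X | t • y = y} ×ˢ {y : X | t • y = y}) ?_ ?_ (hF.prod hF)
      · intro v hv
        obtain ⟨h1, h2, h3, h4⟩ := hgv v hv
        have hcomm : t * gv v = gv v * t := by
          apply eq4 h hab k1 k2 k3 k4 k5 <;> rw [mul_smul, mul_smul]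
          · rw [h1, hta, h2]
          · rw [h2, htb, h1]
          · rw [h3, h4]
          · rw [h4, htt, htt, h3]
        refine Set.mem_prod.mpr ⟨?_, ?_⟩
        · show t • gv v • c = gv v • c
          rw [← mul_smul, hcomm, mul_smul, htc]
        · show t • gv v • d = gv v • d
          rw [← mul_smul, hcomm, mul_smul, htd]
      · intro v hv w hw hvw
        simp only [Prod.mk.injEq] at hvw
        obtain ⟨h1, h2, h3, h4⟩ := hgv v hv
        obtain ⟨h1', h2', h3', h4'⟩ := hgv w hw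
        have hg : gv v = gv w :=
          eq4 h hab hac had hbc hbd hcd (h1.trans h1'.symm) (h2.trans h2'.symm) hvw.1 hvw.2
        rw [← h3, hg, h3']
    · have hempty : {v : X | t • v ≠ v ∧ v ≠ a ∧ v ≠ b} = ∅ := by
        ext v
        simp only [Set.mem_setOf_eq, Set.mem_empty_iff_false, iff_false]
        exact fun hv => hemp ⟨v, hv⟩
      rw [hempty]
      exact Set.finite_empty
  have huniv : (Set.univ : Set X) ⊆
      ({y : X | t • y = y} ∪ {a, b}) ∪ {v : X | t • v ≠ v ∧ v ≠ a ∧ v ≠ b} := by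
    intro y _
    by_cases h1 : t • y = y
    · exact Or.inl (Or.inl h1)
    · by_cases h2 : y = a
      · exact Or.inl (Or.inr (by simp [h2]))
      · by_cases h3 : y = b
        · exact Or.inl (Or.inr (by simp [h3]))
        · exact Or.inr ⟨h1, h2, h3⟩
  exact Set.finite_univ_iff.mp (((hF.union (Set.toFinite {a, b})).union hM).subset huniv)

/-- A sharply `k`-transitive group on a finite set is finite. -/
theorem finite_group_of_sharp [Finite X] {k : ℕ} (h : Sharp G X k) (x₀ : Fin k ↪ X) :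
    Finite G := by
  apply Finite.of_injective (fun g : G => g • x₀)
  intro g g' hgg
  have hgg' : g • x₀ = g' • x₀ := hgg
  have hmem : g'⁻¹ * g ∈ MulAction.stabilizer G x₀ := by
    rw [MulAction.mem_stabilizer_iff, mul_smul, hgg', inv_smul_smul]
  rw [h.2, Subgroup.mem_bot] at hmem
  exact (inv_mul_eq_one.mp hmem).symm

/-- **Tits.** A sharply 4-transitive group has finite degree 4, 5, 6 or 11. -/
theorem tits4 (h : Sharp G X 4) (x₀ : Fin 4 ↪ X) :
    Finite X ∧ (Nat.card X = 4 ∨ Nat.card X = 5 ∨ Nat.card X = 6 ∨ Nat.card X = 11) := by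
  haveI : Finite X := finite_of_sharp4 h x₀
  haveI : Finite G := finite_group_of_sharp h x₀
  have h4 : 4 ≤ Nat.card X := by
    have := Nat.card_le_card_of_injective x₀ x₀.injective
    simpa using this
  exact ⟨inferInstance, jordan4 h h4⟩

end Cfsg.Agent.Lib.Helper7.Jordan2
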