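import Cfsg.Agent.Lib.Helper7.M11Inv
import Cfsg.Agent.Lib.Helper7.L11Data
import Cfsg.Agent.Lib.Helper5.SL2Card

set_option autoImplicit false

namespace Cfsg.Agent.Lib.Helper7.L11

open Cfsg Cfsg.Agent.Lib.Helper7.GolayBase Cfsg.Agent.Lib.Helper7.GolayCode
  Cfsg.Agent.Lib.Helper7.M24Mem Cfsg.Agent.Lib.Helper7.GolayRigid
  Cfsg.Agent.Lib.Helper7.GolayPerm Cfsg.Agent.Lib.Helper7.ChainGen
  Cfsg.Agent.Lib.Helper7.M24Data Cfsg.Agent.Lib.Helper7.M24Core
  Cfsg.Agent.Lib.Helper7.M24Main Cfsg.Agent.Lib.Helper7.GolayCount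
  Cfsg.Agent.Lib.Helper7.GolayRigid2 Cfsg.Agent.Lib.Helper7.M12Core
  Cfsg.Agent.Lib.Helper7.M12Main Cfsg.Agent.Lib.Helper7.M12Thm
  Cfsg.Agent.Lib.Helper7.L11Data
open scoped Pointwise

/-! ### The projection onto the projective special linear group -/

/-- The projection. -/
def prL : Matrix.SpecialLinearGroup (Fin 2) (ZMod 11) →*
    Matrix.ProjectiveSpecialLinearGroup (Fin 2) (ZMod 11) :=
  QuotientGroup.mk' _

theorem prL_eq_iff (x y : Matrix.SpecialLinearGroup (Fin 2) (ZMod 11)) :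
    prL x = prL y ↔ ∃ r : ZMod 11, r ^ 2 = 1 ∧ ∀ i j : Fin 2, y i j = r * x i j := by
  show (QuotientGroup.mk x : Matrix.ProjectiveSpecialLinearGroup (Fin 2) (ZMod 11)) =
    QuotientGroup.mk y ↔ _
  rw [QuotientGroup.eq, Matrix.SpecialLinearGroup.mem_center_iff]
  constructor
  · rintro ⟨r, hr, hs⟩
    refine ⟨r, by simpa using hr, ?_⟩
    have h1 : y = x * (x⁻¹ * y) := by group
    have h2 : (y : Matrix (Fin 2) (Fin 2) (ZMod 11)) = (x : Matrix (Fin 2) (Fin 2) (ZMod 11)) *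
        Matrix.scalar (Fin 2) r := by
      rw [hs, ← Matrix.SpecialLinearGroup.coe_mul, ← h1]
    intro i j
    rw [h2, Matrix.scalar_apply, Matrix.mul_diagonal]
    ring
  · rintro ⟨r, hr, hy⟩
    refine ⟨r, by simpa using hr, ?_⟩
    have h2 : (y : Matrix (Fin 2) (Fin 2) (ZMod 11)) = (x : Matrix (Fin 2) (Fin 2) (ZMod 11)) *
        Matrix.scalar (Fin 2) r := by
      ext i j
      rw [hy i j, Matrix.scalar_apply, Matrix.mul_diagonal]
      ring
    rw [Matrix.SpecialLinearGroup.coe_mul, h2, ← Matrix.mul_assoc,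
      ← Matrix.SpecialLinearGroup.coe_mul, inv_mul_cancel, Matrix.SpecialLinearGroup.coe_one,
      Matrix.one_mul]

theorem card_PSL11 : Nat.card (Matrix.ProjectiveSpecialLinearGroup (Fin 2) (ZMod 11)) = 660 := by
  have hp : Fact (Nat.Prime 11) := ⟨by norm_num⟩
  have h := Cfsg.Agent.Lib.Helper5.SL2Card.card_PSL_two (F := ZMod 11) (q := 11)
    (by rw [ZMod.card])
  have h2 : Nat.gcd 2 (11 - 1) = 2 := by decide
  rw [h2] at h
  have h3 : Nat.card (Matrix.ProjectiveSpecialLinearGroup (Fin 2) (ZMod 11)) * 2 =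
      11 * (11 ^ 2 - 1) := h
  omega

/-! ### Matrices coded by natural numbers -/

/-- The identity matrix. -/
def I4 : Nat × Nat × Nat × Nat := (1, 0, 0, 1)

/-- Determinant one, modulo 11. -/
def detOK (m : Nat × Nat × Nat × Nat) : Bool :=
  Nat.beq ((m.1 * m.2.2.2) % 11) ((m.2.1 * m.2.2.1 + 1) % 11)

theorem det_cast {m : Nat × Nat × Nat × Nat} (h : detOK m = true) :
    (m.1 : ZMod 11) * (m.2.2.2 : ZMod 11) - (m.2.1 : ZMod 11) * (m.2.2.1 : ZMod 11) = 1 := by
  have h1 : (m.1 * m.2.2.2) % 11 = (m.2.1 * m.2.2.1 + 1) % 11 := Nat.eq_of_beq_eq_true h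
  have h2 := (ZMod.natCast_eq_natCast_iff' (m.1 * m.2.2.2) (m.2.1 * m.2.2.1 + 1) 11).mpr h1
  push_cast at h2
  rw [h2]
  ring

/-- The matrix of a code. -/
def toSL (m : Nat × Nat × Nat × Nat) : Matrix.SpecialLinearGroup (Fin 2) (ZMod 11) :=
  if h : detOK m = true then
    (⟨!![(m.1 : ZMod 11), (m.2.1 : ZMod 11); (m.2.2.1 : ZMod 11), (m.2.2.2 : ZMod 11)], by
      rw [Matrix.det_fin_two_of]; exact det_cast h⟩ : Matrix.SpecialLinearGroup (Fin 2) (ZMod 11))
  else 1

theorem toSL_coe {m : Nat × Nat × Nat × Nat} (h : detOK m = true) :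
    (toSL m : Matrix (Fin 2) (Fin 2) (ZMod 11)) =
      !![(m.1 : ZMod 11), (m.2.1 : ZMod 11); (m.2.2.1 : ZMod 11), (m.2.2.2 : ZMod 11)] := by
  have h1 : toSL m = (⟨!![(m.1 : ZMod 11), (m.2.1 : ZMod 11); (m.2.2.1 : ZMod 11),
      (m.2.2.2 : ZMod 11)], by rw [Matrix.det_fin_two_of]; exact det_cast h⟩ :
      Matrix.SpecialLinearGroup (Fin 2) (ZMod 11)) := dif_pos h
  rw [h1]

/-- Product of coded matrices. -/
def matmulN (x y : Nat × Nat × Nat × Nat) : Nat × Nat × Nat × Nat :=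
  ((x.1 * y.1 + x.2.1 * y.2.2.1) % 11, (x.1 * y.2.1 + x.2.1 * y.2.2.2) % 11,
   (x.2.2.1 * y.1 + x.2.2.2 * y.2.2.1) % 11, (x.2.2.1 * y.2.1 + x.2.2.2 * y.2.2.2) % 11)

/-- Equality of coded matrices up to sign. -/
def eqPM (p z : Nat × Nat × Nat × Nat) : Bool :=
  (Nat.beq p.1 z.1 && Nat.beq p.2.1 z.2.1 && Nat.beq p.2.2.1 z.2.2.1 && Nat.beq p.2.2.2 z.2.2.2) ||
  (Nat.beq ((p.1 + z.1) % 11) 0 && Nat.beq ((p.2.1 + z.2.1) % 11) 0 &&
    Nat.beq ((p.2.2.1 + z.2.2.1) % 11) 0 && Nat.beq ((p.2.2.2 + z.2.2.2) % 11) 0)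

/-- The product of two coded matrices is a third, up to sign. -/
def pmulOK (x y z : Nat × Nat × Nat × Nat) : Bool := eqPM (matmulN x y) z

theorem cast_of_mod_eq {a b : Nat} (h : a % 11 = b) : (b : ZMod 11) = (a : ZMod 11) := by
  rw [← h, ZMod.natCast_mod]

theorem cast_of_add_mod {a b : Nat} (h : (a % 11 + b) % 11 = 0) :
    (b : ZMod 11) = -(a : ZMod 11) := by
  have h1 : ((a % 11 + b : ℕ) : ZMod 11) = 0 :=
    (ZMod.natCast_eq_zero_iff _ _).mpr (Nat.dvd_of_mod_eq_zero h)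
  rw [Nat.cast_add, ZMod.natCast_mod] at h1
  exact eq_neg_of_add_eq_zero_right h1

theorem pr_mul_of_ok {x y z : Nat × Nat × Nat × Nat} (hx : detOK x = true) (hy : detOK y = true)
    (hz : detOK z = true) (h : pmulOK x y z = true) :
    prL (toSL x) * prL (toSL y) = prL (toSL z) := by
  rw [← map_mul, prL_eq_iff]
  have hmul : ((toSL x * toSL y : Matrix.SpecialLinearGroup (Fin 2) (ZMod 11)) :
      Matrix (Fin 2) (Fin 2) (ZMod 11)) =
      !![(x.1 : ZMod 11) * y.1 + x.2.1 * y.2.2.1, (x.1 : ZMod 11) * y.2.1 + x.2.1 * y.2.2.2;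
        (x.2.2.1 : ZMod 11) * y.1 + x.2.2.2 * y.2.2.1,
        (x.2.2.1 : ZMod 11) * y.2.1 + x.2.2.2 * y.2.2.2] := by
    rw [Matrix.SpecialLinearGroup.coe_mul, toSL_coe hx, toSL_coe hy, Matrix.mul_fin_two]
  simp only [pmulOK, eqPM, matmulN, Bool.or_eq_true, Bool.and_eq_true] at h
  rcases h with ⟨⟨⟨h1, h2⟩, h3⟩, h4⟩ | ⟨⟨⟨h1, h2⟩, h3⟩, h4⟩
  · have e1 := cast_of_mod_eq (Nat.eq_of_beq_eq_true h1)
    have e2 := cast_of_mod_eq (Nat.eq_of_beq_eq_true h2)
    have e3 := cast_of_mod_eq (Nat.eq_of_beq_eq_true h3)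
    have e4 := cast_of_mod_eq (Nat.eq_of_beq_eq_true h4)
    push_cast at e1 e2 e3 e4
    refine ⟨1, one_pow 2, fun i j => ?_⟩
    show (toSL z : Matrix (Fin 2) (Fin 2) (ZMod 11)) i j =
      1 * ((toSL x * toSL y : Matrix.SpecialLinearGroup (Fin 2) (ZMod 11)) :
        Matrix (Fin 2) (Fin 2) (ZMod 11)) i j
    rw [hmul, toSL_coe hz, e1, e2, e3, e4, one_mul]
  · have e1 := cast_of_add_mod (Nat.eq_of_beq_eq_true h1)
    have e2 := cast_of_add_mod (Nat.eq_of_beq_eq_true h2)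
    have e3 := cast_of_add_mod (Nat.eq_of_beq_eq_true h3)
    have e4 := cast_of_add_mod (Nat.eq_of_beq_eq_true h4)
    push_cast at e1 e2 e3 e4
    refine ⟨-1, by norm_num, fun i j => ?_⟩
    show (toSL z : Matrix (Fin 2) (Fin 2) (ZMod 11)) i j =
      -1 * ((toSL x * toSL y : Matrix.SpecialLinearGroup (Fin 2) (ZMod 11)) :
        Matrix (Fin 2) (Fin 2) (ZMod 11)) i j
    rw [hmul, toSL_coe hz, e1, e2, e3, e4]
    fin_cases i <;> fin_cases j <;> simp

theorem toSL_I4 : toSL I4 = 1 := by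
  apply Matrix.SpecialLinearGroup.ext
  intro i j
  show (toSL I4 : Matrix (Fin 2) (Fin 2) (ZMod 11)) i j = (1 : Matrix (Fin 2) (Fin 2) (ZMod 11)) i j
  rw [toSL_coe (by decide), Matrix.one_fin_two]
  simp [I4]

/-! ### The stabiliser of the base points 0 and 5 -/

/-- The stabiliser of the base dodecad, its point 0 and the outside point 5. -/
def P0 : Subgroup (Equiv.Perm GolayPt) := K12 ⊓ FixL [5, 0]

theorem card_P0 : Nat.card ↥P0 = 660 := by
  have h := card_step (K := K12) (L := [0]) (b := 5) (T := outsideM d0 [0]) (by decide)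
    (by decide) (fun g hg => hub12c hg (by decide) (by decide) (by decide)) c1
  rw [card12_1] at h
  have hl : (outsideM d0 [0]).length = 12 := by decide
  rw [hl] at h
  unfold P0
  omega

/-- The tables of the stabiliser. -/
def T660 : List (List Nat) := [idT, ta, tb] ++ L11Data.rows.map (fun r => r.2.2)

theorem rows_chk : chk [ta, tb, idT] [] L11Data.rows = true := by decide +kernel

theorem gens_sub : ∀ t ∈ [ta, tb], t ∈ L11Data.rowsG.map (fun r => r.2.2) := by decide +kernel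

theorem gens_chk : ∀ t ∈ [ta, tb], (presT d0 t && hit [0] 5 5 t) = true := by decide +kernel

theorem gens_rep0 : ∀ t ∈ [ta, tb], ∃ g ∈ P0, Rep g t := by
  intro t ht
  have hchk := gens_chk t ht
  rw [Bool.and_eq_true] at hchk
  obtain ⟨r, hr, rfl⟩ := List.mem_map.mp (gens_sub t ht)
  obtain ⟨g, hgH, hg⟩ := chk_sound H M12Data.tabs tabs12_rep L11Data.rowsG [] (by simp)
    L11Data.rowsG_chk r hr
  obtain ⟨h1, h2⟩ := hit_spec hg (F := [0]) (by decide) (by decide) hchk.2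
  refine ⟨g, ⟨⟨H_le_M24 hgH, mem_PresG.mpr (pres_of_presT hg hchk.1)⟩, ?_⟩, hg⟩
  intro f hf
  simp only [List.mem_cons, List.not_mem_nil, or_false] at hf
  rcases hf with rfl | rfl
  · exact h2
  · exact h1 0 (by simp)

theorem gens_rep (K : Subgroup (Equiv.Perm GolayPt))
    (hK : ∀ t ∈ [ta, tb], ∃ g ∈ K, Rep g t) : ∀ t ∈ [ta, tb, idT], ∃ g ∈ K, Rep g t := by
  intro t ht
  simp only [List.mem_cons, List.not_mem_nil, or_false] at ht
  rcases ht with rfl | rfl | rfl
  · exact hK _ (by simp)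
  · exact hK _ (by simp)
  · exact ⟨1, K.one_mem, rep_one⟩

theorem T660_rep_gen (K : Subgroup (Equiv.Perm GolayPt))
    (hK : ∀ t ∈ [ta, tb], ∃ g ∈ K, Rep g t) : ∀ t ∈ T660, ∃ g ∈ K, Rep g t := by
  intro t ht
  rcases List.mem_append.mp ht with h | h
  · apply gens_rep K hK
    simp only [List.mem_cons, List.not_mem_nil, or_false] at h ⊢
    tauto
  · obtain ⟨r, hr, rfl⟩ := List.mem_map.mp h
    exact chk_sound K [ta, tb, idT] (gens_rep K hK) L11Data.rows [] (by simp) rows_chk r hr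

theorem T660_rep : ∀ t ∈ T660, ∃ g ∈ P0, Rep g t := T660_rep_gen P0 gens_rep0

/-! ### Lookup of matrices -/

/-- The key of a table: the images of the points 1, 2, 3, 4. -/
def key (t : List Nat) : Nat :=
  t.getD 1 0 * 13824 + t.getD 2 0 * 576 + t.getD 3 0 * 24 + t.getD 4 0

/-- Inner lookup. -/
def lk2 : List (Nat × Nat) → Nat → Nat
  | [], _ => 0
  | e :: l, x => cond (Nat.beq e.1 x) e.2 (lk2 l x)

/-- Outer lookup. -/
def lk1 : List (Nat × List (Nat × Nat)) → Nat → Nat → Nat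
  | [], _, _ => 0
  | e :: l, q, x => cond (Nat.beq e.1 q) (lk2 e.2 x) (lk1 l q x)

/-- Position of the table with a given key. -/
def lkIdx (x : Nat) : Nat := lk1 B660 (x / 13824) x

/-- Matrix of a key. -/
def thetaK (x : Nat) : Nat × Nat × Nat × Nat := M660.getD (lkIdx x) I4

/-- Matrix of a table. -/
def thetaT (t : List Nat) : Nat × Nat × Nat × Nat := thetaK (key t)

theorem idx_chk : T660.map (fun t => lkIdx (key t)) = List.range 660 := by decide +kernel

theorem T660_nodup : T660.Nodup := by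
  have h : (T660.map (fun t => lkIdx (key t))).Nodup := by
    rw [idx_chk]; exact List.nodup_range
  exact List.Nodup.of_map _ h

theorem T660_length : T660.length = 660 := by
  have := congrArg List.length idx_chk
  simpa using this

theorem P0_eq : (P0 : Set (Equiv.Perm GolayPt)) = {g | ∃ t ∈ T660, Rep g t} := by
  symm
  apply Set.eq_of_subset_of_ncard_le
  · rintro g ⟨t, ht, hgt⟩
    obtain ⟨g', hg', hgt'⟩ := T660_rep t ht
    rw [hgt.ext hgt']
    exact hg'
  · rw [M9Struct.ncard_reps T660 T660_nodup (fun t ht => (T660_rep t ht).imp fun g hg => hg.2),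
      T660_length]
    have : (P0 : Set (Equiv.Perm GolayPt)).ncard = Nat.card ↥P0 :=
      (Nat.card_coe_set_eq _).symm
    rw [this, card_P0]
  · exact Set.toFinite _

theorem exists_tab660 {g : Equiv.Perm GolayPt} (hg : g ∈ P0) : ∃ t ∈ T660, Rep g t := by
  have : g ∈ (P0 : Set (Equiv.Perm GolayPt)) := hg
  rw [P0_eq] at this
  exact this

theorem M660_det : ∀ m ∈ M660, detOK m = true := by decide +kernel

theorem detOK_theta (x : Nat) : detOK (thetaK x) = true := by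
  unfold thetaK
  rw [List.getD_eq_getElem?_getD]
  cases h : M660[lkIdx x]? with
  | none => decide
  | some m => exact M660_det m (List.mem_of_getElem? h)

theorem chkA : ∀ t ∈ T660, pmulOK (thetaT t) (thetaT ta) (thetaT (tmul t ta)) = true := by
  decide +kernel

theorem chkB : ∀ t ∈ T660, pmulOK (thetaT t) (thetaT tb) (thetaT (tmul t tb)) = true := by
  decide +kernel

/-- Scalar coded matrices. -/
def isScalar (m : Nat × Nat × Nat × Nat) : Bool :=
  Nat.beq (m.2.1 % 11) 0 && Nat.beq (m.2.2.1 % 11) 0 && Nat.beq (m.1 % 11) (m.2.2.2 % 11)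

theorem inj_chk : ∀ t ∈ T660, isScalar (thetaT t) = true → t = idT := by decide +kernel

theorem theta_idT : thetaT idT = I4 := by decide +kernel

/-! ### The homomorphism -/

/-- The key of a permutation. -/
def keyG (g : Equiv.Perm GolayPt) : Nat :=
  idx (g (pt 1)) * 13824 + idx (g (pt 2)) * 576 + idx (g (pt 3)) * 24 + idx (g (pt 4))

theorem keyG_eq {g : Equiv.Perm GolayPt} {t : List Nat} (h : Rep g t) : keyG g = key t := by
  have h1 := h.2 (pt 1)
  have h2 := h.2 (pt 2)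
  have h3 := h.2 (pt 3)
  have h4 := h.2 (pt 4)
  rw [idx_pt (by norm_num)] at h1 h2 h3 h4
  unfold keyG key
  rw [h1, h2, h3, h4]

/-- The image of a permutation in the projective special linear group. -/
def Theta (g : Equiv.Perm GolayPt) : Matrix.ProjectiveSpecialLinearGroup (Fin 2) (ZMod 11) :=
  prL (toSL (thetaK (keyG g)))

theorem theta_rep {g : Equiv.Perm GolayPt} {t : List Nat} (h : Rep g t) :
    Theta g = prL (toSL (thetaT t)) := by
  unfold Theta thetaT
  rw [keyG_eq h]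

theorem theta_one : Theta 1 = 1 := by
  rw [theta_rep rep_one, theta_idT, toSL_I4, map_one]

theorem gen_mul {g s : Equiv.Perm GolayPt} {ts : List Nat} (hts : ts = ta ∨ ts = tb)
    (hg : g ∈ P0) (hs : Rep s ts) : Theta (g * s) = Theta g * Theta s := by
  obtain ⟨t, ht, hgt⟩ := exists_tab660 hg
  rw [theta_rep (hgt.mul hs), theta_rep hgt, theta_rep hs]
  rcases hts with rfl | rfl
  · exact (pr_mul_of_ok (detOK_theta _) (detOK_theta _) (detOK_theta _) (chkA t ht)).symm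
  · exact (pr_mul_of_ok (detOK_theta _) (detOK_theta _) (detOK_theta _) (chkB t ht)).symm

/-- The elements on which right multiplication is compatible with the map. -/
def Hgood : Subgroup (Equiv.Perm GolayPt) where
  carrier := {h | h ∈ P0 ∧ ∀ g ∈ P0, Theta (g * h) = Theta g * Theta h}
  one_mem' := ⟨P0.one_mem, fun g _ => by rw [mul_one, theta_one, mul_one]⟩
  mul_mem' := by
    rintro h1 h2 ⟨m1, r1⟩ ⟨m2, r2⟩
    refine ⟨P0.mul_mem m1 m2, fun g hg => ?_⟩
    rw [← mul_assoc, r2 _ (P0.mul_mem hg m1), r1 g hg, r2 h1 m1, mul_assoc]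
  inv_mem' := by
    rintro h ⟨m, r⟩
    have hinv : Theta h⁻¹ = (Theta h)⁻¹ := by
      have := r h⁻¹ (P0.inv_mem m)
      rw [inv_mul_cancel, theta_one] at this
      exact eq_inv_of_mul_eq_one_left this.symm
    refine ⟨P0.inv_mem m, fun g hg => ?_⟩
    have := r (g * h⁻¹) (P0.mul_mem hg (P0.inv_mem m))
    rw [inv_mul_cancel_right] at this
    rw [hinv, this, mul_inv_cancel_right]

theorem gens_good : ∀ t ∈ [ta, tb], ∃ g ∈ Hgood, Rep g t := by
  intro t ht
  obtain ⟨g, hg, hr⟩ := gens_rep0 t ht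
  refine ⟨g, ⟨hg, fun g' hg' => gen_mul ?_ hg' hr⟩, hr⟩
  simpa using ht

theorem P0_le_Hgood {g : Equiv.Perm GolayPt} (hg : g ∈ P0) : g ∈ Hgood := by
  obtain ⟨t, ht, hgt⟩ := exists_tab660 hg
  obtain ⟨g', hg', hgt'⟩ := T660_rep_gen Hgood gens_good t ht
  rw [hgt.ext hgt']
  exact hg'

/-- The homomorphism from the stabiliser to the projective special linear group. -/
def ThetaHom : ↥P0 →* Matrix.ProjectiveSpecialLinearGroup (Fin 2) (ZMod 11) where
  toFun g := Theta g.1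
  map_one' := theta_one
  map_mul' g h := (P0_le_Hgood h.2).2 g.1 g.2

theorem ThetaHom_inj : Function.Injective ThetaHom := by
  rw [← MonoidHom.ker_eq_bot_iff, eq_bot_iff]
  intro g hg
  rw [MonoidHom.mem_ker] at hg
  rw [Subgroup.mem_bot]
  obtain ⟨t, ht, hgt⟩ := exists_tab660 g.2
  have h1 : prL 1 = prL (toSL (thetaT t)) := by
    rw [map_one, ← theta_rep hgt]
    exact hg.symm
  obtain ⟨r, hr, hent⟩ := (prL_eq_iff _ _).mp h1
  have hdet := detOK_theta (key t)
  have hcoe := toSL_coe hdet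
  have e00 := hent 0 0
  have e01 := hent 0 1
  have e10 := hent 1 0
  have e11 := hent 1 1
  have c00 : (toSL (thetaT t) : Matrix (Fin 2) (Fin 2) (ZMod 11)) 0 0 = r * 1 := e00
  have c01 : (toSL (thetaT t) : Matrix (Fin 2) (Fin 2) (ZMod 11)) 0 1 = r * 0 := e01
  have c10 : (toSL (thetaT t) : Matrix (Fin 2) (Fin 2) (ZMod 11)) 1 0 = r * 0 := e10
  have c11 : (toSL (thetaT t) : Matrix (Fin 2) (Fin 2) (ZMod 11)) 1 1 = r * 1 := e11
  unfold thetaT at c00 c01 c10 c11
  rw [hcoe] at c00 c01 c10 c11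
  simp only [Matrix.of_apply, Matrix.cons_val_zero, Matrix.cons_val_one, Matrix.cons_val',
    Matrix.cons_val_fin_one, mul_one, mul_zero] at c00 c01 c10 c11
  have hs : isScalar (thetaT t) = true := by
    unfold isScalar thetaT
    rw [Bool.and_eq_true, Bool.and_eq_true]
    refine ⟨⟨?_, ?_⟩, ?_⟩
    · rw [Nat.beq_eq]
      exact Nat.mod_eq_zero_of_dvd ((ZMod.natCast_eq_zero_iff _ _).mp c01)
    · rw [Nat.beq_eq]
      exact Nat.mod_eq_zero_of_dvd ((ZMod.natCast_eq_zero_iff _ _).mp c10)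
    · rw [Nat.beq_eq]
      exact (ZMod.natCast_eq_natCast_iff' _ _ _).mp (c00.trans c11.symm)
  have := inj_chk t ht hs
  rw [this] at hgt
  exact Subtype.ext hgt.eq_one

/-- The stabiliser of the two base points is the projective special linear group. -/
theorem P0_iso : Nonempty (↥P0 ≃* Matrix.ProjectiveSpecialLinearGroup (Fin 2) (ZMod 11)) := by
  have hcard : Nat.card ↥P0 = Nat.card (Matrix.ProjectiveSpecialLinearGroup (Fin 2) (ZMod 11)) := by
    rw [card_P0, card_PSL11]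
  have hbij := (Nat.bijective_iff_injective_and_card _).mpr ⟨ThetaHom_inj, hcard⟩
  exact ⟨MulEquiv.ofBijective _ hbij⟩

/-- **The stabiliser of a point of a dodecad and a point outside it, in the dodecad
stabiliser, is `PSL(2, 11)`.** -/
theorem point_stab (d : Finset GolayPt) (hd : d ∈ dodecads) (p q : GolayPt) (hp : p ∈ d)
    (hq : q ∉ d) :
    Nonempty (↥(MulAction.stabilizer M24 d ⊓ MulAction.stabilizer M24 p ⊓
      MulAction.stabilizer M24 q) ≃* Matrix.ProjectiveSpecialLinearGroup (Fin 2) (ZMod 11)) := by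
  obtain ⟨t, ht, htd, htp, hm⟩ := exists_to_base11 hd hp [q] (by simp) (by simp [hq]) (by simp)
  simp [cbase] at hm
  have hti : t⁻¹ (pt 0) = p := by rw [← htp]; exact pinv t p
  have htq : t⁻¹ (pt 5) = q := by rw [← hm]; exact pinv t q
  have h1 : ∀ y : ↥M24, y ∈ MulAction.stabilizer M24 d ⊓ MulAction.stabilizer M24 p ⊓
      MulAction.stabilizer M24 q → t * (y : Equiv.Perm GolayPt) * t⁻¹ ∈ P0 := by
    intro y hy
    have hyd : (y : Equiv.Perm GolayPt) • d = d := hy.1.1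
    have hyp : (y : Equiv.Perm GolayPt) p = p := hy.1.2
    have hyq : (y : Equiv.Perm GolayPt) q = q := hy.2
    refine ⟨mem_K12.mpr ⟨M24.mul_mem (M24.mul_mem ht y.2) (M24.inv_mem ht), ?_⟩, ?_⟩
    · rw [mul_smul, mul_smul, ← htd, inv_smul_smul, hyd]
    · intro f hf
      simp only [List.mem_cons, List.not_mem_nil, or_false] at hf
      rcases hf with rfl | rfl
      · show t ((y : Equiv.Perm GolayPt) (t⁻¹ (pt 5))) = pt 5
        rw [htq, hyq, hm]
      · show t ((y : Equiv.Perm GolayPt) (t⁻¹ (pt 0))) = pt 0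
        rw [hti, hyp, htp]
  have h2a : ∀ w ∈ P0, t⁻¹ * w * t ∈ M24 := fun w hw =>
    M24.mul_mem (M24.mul_mem (M24.inv_mem ht) hw.1.1) ht
  have h2b : ∀ (w : Equiv.Perm GolayPt) (hw : w ∈ P0),
      (⟨t⁻¹ * w * t, h2a w hw⟩ : ↥M24) ∈
        MulAction.stabilizer M24 d ⊓ MulAction.stabilizer M24 p ⊓
          MulAction.stabilizer M24 q := by
    intro w hw
    have hwd : w • mk d0 = mk d0 := (mem_K12.mp hw.1).2
    refine ⟨⟨?_, ?_⟩, ?_⟩
    · show (t⁻¹ * w * t) • d = d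
      rw [mul_smul, mul_smul, htd, hwd, ← htd, inv_smul_smul]
    · show t⁻¹ (w (t p)) = p
      rw [htp, hw.2 0 (by simp), hti]
    · show t⁻¹ (w (t q)) = q
      rw [hm, hw.2 5 (by simp), htq]
  obtain ⟨e⟩ := P0_iso
  exact ⟨(M11Inv.conjEquiv t _ P0 h1 h2a h2b).trans e⟩

end Cfsg.Agent.Lib.Helper7.L11
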