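import Mathlib

set_option autoImplicit false

namespace Cfsg.Agent.Lib.Helper7.SylowCount

theorem card_subgroupOf_inf {G : Type*} [Group G] (H K : Subgroup G) :
    Nat.card ↥(H.subgroupOf K) = Nat.card ↥(H ⊓ K) := by
  rw [← Subgroup.inf_subgroupOf_right]
  exact Nat.card_congr (Subgroup.subgroupOfEquivOfLe inf_le_right).toEquiv

/-- Sylow counting inside a subgroup: if `P ≤ K` has prime order `p` and `p ^ 2` does not
divide the order of `K`, then the index in `K` of the normaliser of `P` is `1` modulo `p`. -/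
theorem sylow_count {G : Type*} [Group G] [Finite G] (K P : Subgroup G) (hPK : P ≤ K) (p : ℕ)
    [hp : Fact p.Prime] (hP : Nat.card ↥P = p) (hp2 : ¬ p ^ 2 ∣ Nat.card ↥K) :
    ∃ n, Nat.card ↥K = Nat.card ↥(Subgroup.normalizer (P : Set G) ⊓ K) * n ∧ n ≡ 1 [MOD p] := by
  have hK0 : Nat.card ↥K ≠ 0 := Nat.card_pos.ne'
  have hcard' : Nat.card ↥(P.subgroupOf K) = p := by
    rw [Nat.card_congr (Subgroup.subgroupOfEquivOfLe hPK).toEquiv, hP]
  have hfac : (Nat.card ↥K).factorization p = 1 := by
    have hpK : p ∣ Nat.card ↥K := by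
      have := Subgroup.card_subgroup_dvd_card (P.subgroupOf K)
      rwa [hcard'] at this
    have h1 : 1 ≤ (Nat.card ↥K).factorization p :=
      (hp.out.pow_dvd_iff_le_factorization hK0).mp (by simpa using hpK)
    have h2 : ¬ 2 ≤ (Nat.card ↥K).factorization p := fun h =>
      hp2 ((hp.out.pow_dvd_iff_le_factorization hK0).mpr h)
    omega
  let S : Sylow p ↥K := Sylow.ofCard (P.subgroupOf K) (by rw [hcard', hfac, pow_one])
  refine ⟨Nat.card (Sylow p ↥K), ?_, card_sylow_modEq_one p ↥K⟩
  rw [Sylow.card_eq_index_normalizer S]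
  show Nat.card ↥K = _ *
    (Subgroup.normalizer ((P.subgroupOf K : Subgroup ↥K) : Set ↥K)).index
  rw [← Subgroup.subgroupOf_normalizer_eq hPK, ← card_subgroupOf_inf]
  exact (Subgroup.card_mul_index _).symm

/-- Maximality inside a subgroup, stated in the ambient group. -/
theorem coatom_subgroupOf {Γ : Type*} [Group Γ] (H G : Subgroup Γ) (hHG : H ≤ G) (hne : H ≠ G)
    (hmax : ∀ K : Subgroup Γ, H ≤ K → K ≤ G → K = H ∨ K = G) : IsCoatom (H.subgroupOf G) := by
  refine ⟨?_, ?_⟩
  · intro h
    rw [Subgroup.subgroupOf_eq_top] at h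
    exact hne (le_antisymm hHG h)
  · intro K' hK'
    have h1 : H ≤ K'.map G.subtype := by
      have := Subgroup.map_mono (f := G.subtype) hK'.le
      rwa [Subgroup.map_subgroupOf_eq_of_le hHG] at this
    have h2 : K'.map G.subtype ≤ G := by
      rintro _ ⟨x, -, rfl⟩
      exact x.2
    have h3 : K' = (K'.map G.subtype).subgroupOf G := by
      ext x
      rw [Subgroup.mem_subgroupOf]
      constructor
      · intro hx
        exact ⟨x, hx, rfl⟩
      · rintro ⟨y, hy, hxy⟩
        have : y = x := Subtype.ext hxy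
        rwa [← this]
    rcases hmax _ h1 h2 with h | h
    · exfalso
      rw [h] at h3
      exact hK'.ne h3.symm
    · rw [h3, h]
      exact Subgroup.subgroupOf_self G

/-- An element of finite order conjugating a subgroup into itself normalises it. -/
theorem mem_normalizer_of_conj {G : Type*} [Group G] (T : Subgroup G) (z : G) (n : ℕ)
    (hz : z ^ (n + 1) = 1) (h : ∀ g ∈ T, z * g * z⁻¹ ∈ T) :
    z ∈ Subgroup.normalizer (T : Set G) := by
  rw [Subgroup.mem_normalizer_iff]
  intro g
  refine ⟨h g, fun hg => ?_⟩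
  have hk : ∀ k : ℕ, ∀ x ∈ T, z ^ k * x * (z ^ k)⁻¹ ∈ T := by
    intro k
    induction k with
    | zero => intro x hx; simpa using hx
    | succ k ih =>
      intro x hx
      have h1 := h _ (ih x hx)
      have h2 : z * (z ^ k * x * (z ^ k)⁻¹) * z⁻¹ = z ^ (k + 1) * x * (z ^ (k + 1))⁻¹ := by
        rw [pow_succ']; group
      rwa [h2] at h1
  have h3 := hk n _ hg
  have h4 : z ^ n * (z * g * z⁻¹) * (z ^ n)⁻¹ = g := by
    have h5 : z ^ n * z = 1 := by rw [← pow_succ, hz]
    have h6 : (z ^ n)⁻¹ = z := (eq_inv_of_mul_eq_one_right h5).symm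
    rw [h6]
    calc z ^ n * (z * g * z⁻¹) * z = (z ^ n * z) * g * (z⁻¹ * z) := by group
      _ = g := by rw [h5, inv_mul_cancel, one_mul, mul_one]
  rwa [h4] at h3

end Cfsg.Agent.Lib.Helper7.SylowCount
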