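import Cfsg.Agent.Lib.Helper7.LinM24
import Cfsg.Agent.Lib.Helper7.M9Struct
import Cfsg.Agent.Lib.Helper7.SylowCount
import Cfsg.Agent.Lib.Helper7.L23Data

set_option autoImplicit false

namespace Cfsg.Agent.Lib.Helper7.L23Base

open Cfsg Cfsg.Agent.Lib.Helper7.GolayBase Cfsg.Agent.Lib.Helper7.GolayCode
  Cfsg.Agent.Lib.Helper7.M24Mem Cfsg.Agent.Lib.Helper7.GolayRigid
  Cfsg.Agent.Lib.Helper7.GolayPerm Cfsg.Agent.Lib.Helper7.ChainGen
  Cfsg.Agent.Lib.Helper7.M24Data Cfsg.Agent.Lib.Helper7.M24Core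
  Cfsg.Agent.Lib.Helper7.M24Main Cfsg.Agent.Lib.Helper7.QuartetStab
  Cfsg.Agent.Lib.Helper7.LinM24 Cfsg.Agent.Lib.Helper7.L23Data
  Cfsg.Agent.Lib.Helper7.SylowCount
open scoped Pointwise

/-! ### Tables -/

/-- The table of a permutation. -/
def tabOf (g : Equiv.Perm GolayPt) : List Nat := (List.range 24).map (fun i => idx (g (pt i)))

theorem rep_tabOf (g : Equiv.Perm GolayPt) : Rep g (tabOf g) := by
  refine ⟨by simp [tabOf], fun p => ?_⟩
  have h := idx_lt p
  simp [tabOf, List.getD_eq_getElem?_getD, h, pt_idx]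

theorem rep_getD {g : Equiv.Perm GolayPt} {t : List Nat} (h : Rep g t) {i : Nat} (hi : i < 24) :
    t.getD i 0 = idx (g (pt i)) := by
  have := h.2 (pt i)
  rwa [idx_pt hi] at this

theorem rep_lt {g : Equiv.Perm GolayPt} {t : List Nat} (h : Rep g t) {i : Nat} (hi : i < 24) :
    t.getD i 0 < 24 := by
  rw [rep_getD h hi]
  exact idx_lt _

theorem getD_tmul (s t : List Nat) {i : Nat} (hi : i < t.length) :
    (tmul s t).getD i 0 = s.getD (t.getD i 0) 0 := by
  simp [tmul, List.getD_eq_getElem?_getD, hi]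

theorem mapMask_lt {t : List Nat} (ht : ∀ i < 24, t.getD i 0 < 24) (m : Nat) :
    mapMask t m < 2 ^ 24 := by
  unfold mapMask
  have key : ∀ (l : List Nat) (acc : Nat), (∀ i ∈ l, i < 24) → acc < 2 ^ 24 →
      l.foldl (fun acc i => if m.testBit i then acc ||| 2 ^ (t.getD i 0) else acc) acc
        < 2 ^ 24 := by
    intro l
    induction l with
    | nil => intro acc _ h; simpa using h
    | cons x l ih =>
      intro acc hl hacc
      rw [List.foldl_cons]
      apply ih _ (fun i hi => hl i (List.mem_cons_of_mem _ hi))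
      split
      · exact Nat.or_lt_two_pow hacc
          (Nat.pow_lt_pow_right (by norm_num) (ht x (hl x List.mem_cons_self)))
      · exact hacc
  exact key _ 0 (fun i hi => List.mem_range.mp hi) (by norm_num)

/-- Table test for membership in `M24`: the images of the basis masks are code words. -/
def inM24T (t : List Nat) : Bool := basisMasks.all (fun c => inCode (mapMask t c))

theorem inM24T_of_mem {g : Equiv.Perm GolayPt} (hg : g ∈ M24) {t : List Nat} (ht : Rep g t) :
    inM24T t = true := by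
  rw [inM24T, List.all_eq_true]
  intro c hc
  have hcc : c ∈ codeList := mem_spanList_of_mem hc
  have h1 : act g c = mapMask t c := by
    rw [act, smul_mk ht, maskOf_mk (mapMask_lt (fun i hi => rep_lt ht hi) c)]
  rw [inCode_iff, ← h1]
  exact act_mem_codeList hg hcc

/-- Iterated images of a list of indices under a table. -/
def steps (s : List Nat) : Nat → List Nat → List Nat
  | 0, l => l
  | n + 1, l => l ++ steps s n (l.map (fun i => s.getD i 0))

/-- Two tables satisfying the same twisted commutation relation and agreeing on seeds which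
reach every index are equal. -/
theorem table_unique (s r : List Nat) (hs : s.length = 24) (hs24 : ∀ i < 24, s.getD i 0 < 24)
    (seeds : List Nat) (hseeds : ∀ i ∈ seeds, i < 24) (n : Nat)
    (hreach : ∀ i < 24, i ∈ steps s n seeds)
    {t t' : List Nat} (ht : t.length = 24) (ht' : t'.length = 24)
    (hrel : tmul t s = tmul r t) (hrel' : tmul t' s = tmul r t')
    (hseed : ∀ i ∈ seeds, t.getD i 0 = t'.getD i 0) : t = t' := by
  have hstep : ∀ i, i < 24 → t.getD i 0 = t'.getD i 0 →
      t.getD (s.getD i 0) 0 = t'.getD (s.getD i 0) 0 := by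
    intro i hi h
    have h1 : (tmul t s).getD i 0 = (tmul r t).getD i 0 := by rw [hrel]
    have h2 : (tmul t' s).getD i 0 = (tmul r t').getD i 0 := by rw [hrel']
    rw [getD_tmul _ _ (by rw [hs]; exact hi), getD_tmul _ _ (by rw [ht]; exact hi)] at h1
    rw [getD_tmul _ _ (by rw [hs]; exact hi), getD_tmul _ _ (by rw [ht']; exact hi)] at h2
    rw [h1, h2, h]
  have key : ∀ (n : Nat) (l : List Nat), (∀ i ∈ l, i < 24 ∧ t.getD i 0 = t'.getD i 0) →
      ∀ i ∈ steps s n l, i < 24 ∧ t.getD i 0 = t'.getD i 0 := by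
    intro n
    induction n with
    | zero => intro l hl i hi; exact hl i hi
    | succ n ih =>
      intro l hl i hi
      simp only [steps, List.mem_append] at hi
      rcases hi with hi | hi
      · exact hl i hi
      · refine ih (l.map (fun i => s.getD i 0)) ?_ i hi
        intro j hj
        obtain ⟨k, hk, rfl⟩ := List.mem_map.mp hj
        exact ⟨hs24 k (hl k hk).1, hstep k (hl k hk).1 (hl k hk).2⟩
  have hall := key n seeds (fun i hi => ⟨hseeds i hi, hseed i hi⟩)
  apply List.ext_getElem (by rw [ht, ht'])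
  intro i h1 h2
  have hi : i < 24 := by rw [ht] at h1; exact h1
  have e := (hall i (hreach i hi)).2
  rw [List.getD_eq_getElem _ _ h1, List.getD_eq_getElem _ _ h2] at e
  exact e

/-- Commutation relations between permutations give relations between their tables. -/
theorem rel_of_conj {g x y : Equiv.Perm GolayPt} {t s r : List Nat} (hg : Rep g t)
    (hx : Rep x s) (hy : Rep y r) (h : g * x * g⁻¹ = y) : tmul t s = tmul r t := by
  have h1 : g * x = y * g := by rw [← h]; group
  have h2 := hg.mul hx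
  rw [h1] at h2
  exact M9Struct.rep_unique h2 (hy.mul hg)

theorem ncard_reps_le (L : List (List Nat)) :
    {g : Equiv.Perm GolayPt | ∃ t ∈ L, Rep g t}.ncard ≤ L.length := by
  classical
  let f : List Nat → Equiv.Perm GolayPt := fun t =>
    if h : ∃ g : Equiv.Perm GolayPt, Rep g t then h.choose else 1
  have hsub : {g : Equiv.Perm GolayPt | ∃ t ∈ L, Rep g t} ⊆
      f '' (↑L.toFinset : Set (List Nat)) := by
    rintro g ⟨t, ht, hg⟩
    refine ⟨t, by simpa using ht, ?_⟩
    have hex : ∃ g : Equiv.Perm GolayPt, Rep g t := ⟨g, hg⟩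
    simp only [f, dif_pos hex]
    exact hex.choose_spec.ext hg
  calc {g : Equiv.Perm GolayPt | ∃ t ∈ L, Rep g t}.ncard
      ≤ (f '' (↑L.toFinset : Set (List Nat))).ncard :=
        Set.ncard_le_ncard hsub (Set.toFinite _)
    _ ≤ (↑L.toFinset : Set (List Nat)).ncard := Set.ncard_image_le (Set.toFinite _)
    _ = L.toFinset.card := Set.ncard_coe_finset _
    _ ≤ L.length := List.toFinset_card_le L

/-- A subgroup all of whose elements have a table in a list has at most as many elements as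
the list. -/
theorem card_le_of_tabs (N : Subgroup (Equiv.Perm GolayPt)) (L : List (List Nat))
    (h : ∀ g ∈ N, ∃ t ∈ L, Rep g t) : Nat.card ↥N ≤ L.length := by
  have h1 : (N : Set (Equiv.Perm GolayPt)) ⊆ {g : Equiv.Perm GolayPt | ∃ t ∈ L, Rep g t} :=
    fun g hg => h g hg
  have h2 := Set.ncard_le_ncard h1 (Set.toFinite _)
  have h3 : (N : Set (Equiv.Perm GolayPt)).ncard = Nat.card ↥N := (Nat.card_coe_set_eq _).symm
  rw [h3] at h2
  exact h2.trans (ncard_reps_le L)

/-! ### Affine tables and the generators -/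

/-- The table of `t ↦ k t + a`. -/
def affT (k a : Nat) : List Nat := (List.range 23).map (fun t => (k * t + a) % 23) ++ [23]

theorem affT_length (k a : Nat) : (affT k a).length = 24 := by simp [affT]

theorem affT_getD_lt (k a : Nat) {i : Nat} (hi : i < 23) :
    (affT k a).getD i 0 = (k * i + a) % 23 := by
  simp [affT, List.getD_eq_getElem?_getD, List.getElem?_append_left, hi]

theorem affT_getD_23 (k a : Nat) : (affT k a).getD 23 0 = 23 := by
  simp [affT, List.getD_eq_getElem?_getD]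

/-- Multiplication by a unit. -/
abbrev mu (u : (ZMod 23)ˣ) : Equiv.Perm GolayPt := Equiv.optionCongr (Units.mulLeft u)

/-- The unit `2`. -/
def u2 : (ZMod 23)ˣ := ⟨2, 12, by decide, by decide⟩

/-- Multiplication by `2`. -/
abbrev m2 : Equiv.Perm GolayPt := mu u2

theorem rep_mu (u : (ZMod 23)ˣ) : Rep (mu u) (affT (u : ZMod 23).val 0) := by
  refine ⟨affT_length _ _, fun p => ?_⟩
  cases p with
  | none => exact affT_getD_23 _ _
  | some x =>
    show (affT (u : ZMod 23).val 0).getD (ZMod.val x) 0 = ZMod.val ((u : ZMod 23) * x)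
    rw [affT_getD_lt _ _ (ZMod.val_lt x), ZMod.val_mul, Nat.add_zero]

theorem sq_val : ∀ x : ZMod 23, x ≠ 0 → (x * x).val ∈ sqL := by decide

theorem sq_pow : ∀ k ∈ sqL, ∃ e < 11, k = 2 ^ e % 23 := by decide

theorem val_mem_sqL {u : (ZMod 23)ˣ} (hu : IsSquare u) : (u : ZMod 23).val ∈ sqL := by
  obtain ⟨r, rfl⟩ := hu
  rw [Units.val_mul]
  apply sq_val
  intro h
  have h1 := r.mul_inv
  rw [h, zero_mul] at h1
  exact absurd h1 (by decide)

theorem isSquare_u2 : IsSquare u2 :=
  ⟨⟨5, 14, by decide, by decide⟩, by apply Units.ext; decide⟩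

theorem affT_m2 : affT 2 0 = m2T := by decide

theorem rep_m2 : Rep m2 m2T := by
  have := rep_mu u2
  rwa [show (u2 : ZMod 23).val = 2 from rfl, affT_m2] at this

theorem rep_m2Inv : Rep m2⁻¹ m2InvT := rep_m2.inv (by decide) (by decide +kernel)

theorem rep_projInv' : Rep projInv⁻¹ projT := rep_proj.inv (by decide) (by decide +kernel)

theorem affT_one_zero : affT 1 0 = idT := by decide

theorem m2_step : ∀ k < 23, tmul m2T (affT k 0) = affT (2 * k % 23) 0 := by decide +kernel

theorem sh_step : ∀ j < 23, tmul shiftT (affT 1 j) = affT 1 ((j + 1) % 23) := by decide +kernel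

theorem rep_m2_pow (e : Nat) : Rep (m2 ^ e) (affT (2 ^ e % 23) 0) := by
  induction e with
  | zero =>
    rw [pow_zero, show 2 ^ 0 % 23 = 1 from rfl, affT_one_zero]
    exact rep_one
  | succ e ih =>
    have h := rep_m2.mul ih
    rw [m2_step _ (Nat.mod_lt _ (by norm_num))] at h
    rw [pow_succ' m2 e]
    have h2 : 2 * (2 ^ e % 23) % 23 = 2 ^ (e + 1) % 23 := by
      rw [pow_succ, Nat.mul_comm, Nat.mul_mod, Nat.mod_mod, ← Nat.mul_mod]
    rwa [h2] at h

theorem rep_sh_pow (a : Nat) : Rep (sh ^ a) (affT 1 (a % 23)) := by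
  induction a with
  | zero =>
    rw [pow_zero, Nat.zero_mod, affT_one_zero]
    exact rep_one
  | succ a ih =>
    have h := rep_sh.mul ih
    rw [sh_step _ (Nat.mod_lt _ (by norm_num))] at h
    rw [pow_succ' sh a]
    have h2 : (a % 23 + 1) % 23 = (a + 1) % 23 := by omega
    rwa [h2] at h

theorem mu_eq_pow {u : (ZMod 23)ˣ} (hu : IsSquare u) : ∃ e < 11, mu u = m2 ^ e := by
  obtain ⟨e, he, hk⟩ := sq_pow _ (val_mem_sqL hu)
  refine ⟨e, he, ?_⟩
  have h := rep_mu u
  rw [hk] at h
  exact h.ext (rep_m2_pow e)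

theorem sh_pow_23 : sh ^ 23 = 1 := by
  have h := rep_sh_pow 23
  rw [show 23 % 23 = 0 from rfl, affT_one_zero] at h
  exact h.eq_one

theorem m2_pow_11 : m2 ^ 11 = 1 := by
  have h := rep_m2_pow 11
  rw [show 2 ^ 11 % 23 = 1 from rfl, affT_one_zero] at h
  exact h.eq_one

theorem sh_ne_one : sh ≠ 1 := by
  intro h
  have h1 := rep_sh
  rw [h] at h1
  have := M9Struct.rep_unique h1 rep_one
  revert this
  decide

theorem m2_ne_one : m2 ≠ 1 := by
  intro h
  have h1 := rep_m2
  rw [h] at h1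
  have := M9Struct.rep_unique h1 rep_one
  revert this
  decide

theorem orderOf_sh : orderOf sh = 23 := by
  haveI : Fact (Nat.Prime 23) := ⟨by norm_num⟩
  exact orderOf_eq_prime sh_pow_23 sh_ne_one

theorem orderOf_m2 : orderOf m2 = 11 := by
  haveI : Fact (Nat.Prime 11) := ⟨by norm_num⟩
  exact orderOf_eq_prime m2_pow_11 m2_ne_one

/-! ### The groups `F` and `L` -/

/-- The generators of the group of order 253. -/
def SF : Set (Equiv.Perm GolayPt) :=
  {Equiv.optionCongr (Equiv.addRight (1 : ZMod 23))} ∪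
    {g : Equiv.Perm GolayPt | ∃ u : (ZMod 23)ˣ, IsSquare u ∧ g = Equiv.optionCongr (Units.mulLeft u)}

/-- The generators of the group of order 6072. -/
def SLs : Set (Equiv.Perm GolayPt) :=
  {Equiv.optionCongr (Equiv.addRight (1 : ZMod 23)), Cfsg.projInv} ∪
    {g : Equiv.Perm GolayPt | ∃ u : (ZMod 23)ˣ, IsSquare u ∧ g = Equiv.optionCongr (Units.mulLeft u)}

/-- The group of order 253. -/
def F : Subgroup (Equiv.Perm GolayPt) := Subgroup.closure SF

/-- The group of order 6072. -/
def L : Subgroup (Equiv.Perm GolayPt) := Subgroup.closure SLs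

theorem sh_mem_F : sh ∈ F := Subgroup.subset_closure (Or.inl rfl)

theorem m2_mem_F : m2 ∈ F := Subgroup.subset_closure (Or.inr ⟨u2, isSquare_u2, rfl⟩)

theorem F_le_L : F ≤ L := by
  apply Subgroup.closure_mono
  rintro g (hg | hg)
  · exact Or.inl (Or.inl hg)
  · exact Or.inr hg

theorem proj_mem_L : projInv ∈ L := Subgroup.subset_closure (Or.inl (Or.inr rfl))

/-- A set containing `1` and stable under left multiplication by elements of finite order, of
which the generators are powers, contains the subgroup generated. -/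
theorem closure_sub {G : Type*} [Group G] (S Y X : Set G) (h1 : 1 ∈ X)
    (hY : ∀ y ∈ Y, ∀ z ∈ X, y * z ∈ X)
    (hinv : ∀ y ∈ Y, ∃ n : ℕ, y ^ (n + 1) = 1)
    (hgen : ∀ x ∈ S, ∃ y ∈ Y, ∃ e : ℕ, x = y ^ e) :
    ∀ g ∈ Subgroup.closure S, g ∈ X := by
  have hpow : ∀ y ∈ Y, ∀ (e : ℕ), ∀ z ∈ X, y ^ e * z ∈ X := by
    intro y hy e
    induction e with
    | zero => intro z hz; simpa using hz
    | succ e ih =>
      intro z hz
      rw [pow_succ', mul_assoc]
      exact hY y hy _ (ih z hz)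
  intro g hg
  refine Subgroup.closure_induction_left (p := fun g _ => g ∈ X) h1 ?_ ?_ hg
  · intro x hx z _ hz
    obtain ⟨y, hy, e, rfl⟩ := hgen x hx
    exact hpow y hy e z hz
  · intro x hx z _ hz
    obtain ⟨y, hy, e, rfl⟩ := hgen x hx
    obtain ⟨n, hn⟩ := hinv y hy
    have h2 : y ^ n = y⁻¹ := by
      rw [eq_inv_iff_mul_eq_one, ← pow_succ, hn]
    have h3 : (y ^ e)⁻¹ = y ^ (n * e) := by
      rw [pow_mul, h2, inv_pow]
    rw [h3]
    exact hpow y hy _ z hz

/-- A subgroup contained in the range of a map from a finite type is at most as large as that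
type. -/
theorem card_le_of_range {G : Type*} [Group G] (N : Subgroup G) {ι : Type*} [Finite ι]
    (φ : ι → G) (h : ∀ g ∈ N, ∃ i, φ i = g) : Nat.card ↥N ≤ Nat.card ι := by
  have hsub : (N : Set G) ⊆ φ '' Set.univ := by
    intro g hg
    obtain ⟨i, hi⟩ := h g hg
    exact ⟨i, Set.mem_univ _, hi⟩
  have hfin : (φ '' Set.univ).Finite := Set.Finite.image _ (Set.toFinite _)
  have h2 := Set.ncard_le_ncard hsub hfin
  have h3 : (N : Set G).ncard = Nat.card ↥N := (Nat.card_coe_set_eq _).symm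
  have h4 : (φ '' Set.univ).ncard ≤ (Set.univ : Set ι).ncard :=
    Set.ncard_image_le (Set.toFinite _)
  rw [Set.ncard_univ] at h4
  omega

theorem m2_sh : m2 * sh = sh ^ 2 * m2 := by
  have h1 := rep_m2.mul rep_sh
  have h2 := (rep_sh_pow 2).mul rep_m2
  have e : tmul m2T shiftT = tmul (affT 1 (2 % 23)) m2T := by decide +kernel
  rw [e] at h1
  exact h1.ext h2

theorem m2_sh_pow (a : ℕ) : m2 * sh ^ a = sh ^ (2 * a) * m2 := by
  induction a with
  | zero => simp
  | succ a ih =>
    have e : 2 * (a + 1) = 2 * a + 2 := by ring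
    rw [pow_succ, ← mul_assoc, ih, mul_assoc, m2_sh, ← mul_assoc, ← pow_add, e]

theorem sh_pow_mod (a : ℕ) : sh ^ a = sh ^ (a % 23) := by
  have h := pow_mod_orderOf sh a
  rw [orderOf_sh] at h
  exact h.symm

theorem m2_pow_mod (e : ℕ) : m2 ^ e = m2 ^ (e % 11) := by
  have h := pow_mod_orderOf m2 e
  rw [orderOf_m2] at h
  exact h.symm

/-- The elements of the group of order 253. -/
theorem F_form : ∀ g ∈ F, ∃ a < 23, ∃ e < 11, g = sh ^ a * m2 ^ e := by
  have key : ∀ g ∈ F, g ∈ {g : Equiv.Perm GolayPt | ∃ a e : ℕ, g = sh ^ a * m2 ^ e} := by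
    refine closure_sub SF {sh, m2} _ ⟨0, 0, by simp⟩ ?_ ?_ ?_
    · rintro y (rfl | rfl) z ⟨a, e, rfl⟩
      · exact ⟨a + 1, e, by rw [pow_succ', mul_assoc]⟩
      · exact ⟨2 * a, e + 1, by rw [← mul_assoc, m2_sh_pow, mul_assoc, ← pow_succ']⟩
    · rintro y (rfl | rfl)
      · exact ⟨22, sh_pow_23⟩
      · exact ⟨10, m2_pow_11⟩
    · rintro x (hx | ⟨u, hu, rfl⟩)
      · rw [Set.mem_singleton_iff] at hx
        subst hx
        exact ⟨sh, Or.inl rfl, 1, (pow_one _).symm⟩
      · obtain ⟨e, -, he⟩ := mu_eq_pow hu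
        exact ⟨m2, Or.inr rfl, e, he⟩
  intro g hg
  obtain ⟨a, e, rfl⟩ := key g hg
  refine ⟨a % 23, Nat.mod_lt _ (by norm_num), e % 11, Nat.mod_lt _ (by norm_num), ?_⟩
  rw [← sh_pow_mod, ← m2_pow_mod]

theorem card_F : Nat.card ↥F = 253 := by
  have hle : Nat.card ↥F ≤ Nat.card (Fin 23 × Fin 11) := by
    refine card_le_of_range F (fun p : Fin 23 × Fin 11 => sh ^ (p.1 : ℕ) * m2 ^ (p.2 : ℕ)) ?_
    intro g hg
    obtain ⟨a, ha, e, he, rfl⟩ := F_form g hg
    exact ⟨(⟨a, ha⟩, ⟨e, he⟩), rfl⟩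
  have h5 : Nat.card (Fin 23 × Fin 11) = 253 := by simp
  have h23 : 23 ∣ Nat.card ↥F := by
    have h := orderOf_dvd_natCard (⟨sh, sh_mem_F⟩ : ↥F)
    rwa [Subgroup.orderOf_mk, orderOf_sh] at h
  have h11 : 11 ∣ Nat.card ↥F := by
    have h := orderOf_dvd_natCard (⟨m2, m2_mem_F⟩ : ↥F)
    rwa [Subgroup.orderOf_mk, orderOf_m2] at h
  have hpos : 0 < Nat.card ↥F := Nat.card_pos
  omega

theorem affT_decomp : ∀ k < 23, ∀ a < 23, affT k a = tmul (affT 1 a) (affT k 0) := by
  decide +kernel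

/-- Every affine table with square multiplier is the table of an element of the group of
order 253. -/
theorem aff_rep {k a : ℕ} (hk : k ∈ sqL) (ha : a < 23) : ∃ f ∈ F, Rep f (affT k a) := by
  obtain ⟨e, -, rfl⟩ := sq_pow k hk
  refine ⟨sh ^ a * m2 ^ e, F.mul_mem (F.pow_mem sh_mem_F a) (F.pow_mem m2_mem_F e), ?_⟩
  rw [affT_decomp _ (Nat.mod_lt _ (by norm_num)) a ha]
  have h := (rep_sh_pow a).mul (rep_m2_pow e)
  rwa [Nat.mod_eq_of_lt ha] at h

theorem m2T_sub : m2T ∈ L23Data.rows.map (fun r => r.2.2) := by decide +kernel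

theorem m2_mem_M24 : m2 ∈ M24 := by
  obtain ⟨r, hr, hrt⟩ := List.mem_map.mp m2T_sub
  obtain ⟨g, hgH, hg⟩ := chk_sound H M24Data.tabs tabs_rep L23Data.rows [] (by simp)
    L23Data.rows_chk r hr
  rw [hrt] at hg
  rw [rep_m2.ext hg]
  exact H_le_M24 hgH

theorem mu_mem_M24 {u : (ZMod 23)ˣ} (hu : IsSquare u) : mu u ∈ M24 := by
  obtain ⟨e, -, he⟩ := mu_eq_pow hu
  rw [he]
  exact M24.pow_mem m2_mem_M24 e

theorem F_le_M24 : F ≤ M24 := by
  rw [F, Subgroup.closure_le]
  rintro x (hx | ⟨u, hu, rfl⟩)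
  · rw [Set.mem_singleton_iff] at hx
    subst hx
    exact H_le_M24 sh_mem
  · exact mu_mem_M24 hu

theorem L_le_M24 : L ≤ M24 := by
  rw [L, Subgroup.closure_le]
  rintro x ((hx | hx) | ⟨u, hu, rfl⟩)
  · subst hx
    exact H_le_M24 sh_mem
  · rw [Set.mem_singleton_iff] at hx
    subst hx
    exact H_le_M24 proj_mem
  · exact mu_mem_M24 hu

theorem F_le_stab : F ≤ MulAction.stabilizer (Equiv.Perm GolayPt) (none : GolayPt) := by
  rw [F, Subgroup.closure_le]
  rintro x (hx | ⟨u, hu, rfl⟩)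
  · rw [Set.mem_singleton_iff] at hx
    subst hx
    rfl
  · rfl

theorem pt23 : pt 23 = (none : GolayPt) := rfl

theorem stab_none : MulAction.stabilizer (Equiv.Perm GolayPt) (none : GolayPt) = FixL [23] := by
  ext g
  rw [MulAction.mem_stabilizer_iff, mem_FixL]
  constructor
  · intro h f hf
    rw [List.mem_singleton] at hf
    subst hf
    exact h
  · intro h
    exact h 23 (List.mem_singleton.mpr rfl)

theorem F_le_Fix : F ≤ FixL [23] := by
  rw [← stab_none]
  exact F_le_stab

end Cfsg.Agent.Lib.Helper7.L23Base
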