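import Cfsg.Agent.Lib.Helper7.L23Norm

set_option autoImplicit false

namespace Cfsg.Agent.Lib.Helper7.L23Main

open Cfsg Cfsg.Agent.Lib.Helper7.GolayBase Cfsg.Agent.Lib.Helper7.GolayCode
  Cfsg.Agent.Lib.Helper7.M24Mem Cfsg.Agent.Lib.Helper7.GolayRigid
  Cfsg.Agent.Lib.Helper7.GolayPerm Cfsg.Agent.Lib.Helper7.ChainGen
  Cfsg.Agent.Lib.Helper7.M24Data Cfsg.Agent.Lib.Helper7.M24Core
  Cfsg.Agent.Lib.Helper7.M24Main Cfsg.Agent.Lib.Helper7.QuartetStab
  Cfsg.Agent.Lib.Helper7.LinM24 Cfsg.Agent.Lib.Helper7.L23Data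
  Cfsg.Agent.Lib.Helper7.SylowCount Cfsg.Agent.Lib.Helper7.L23Base
  Cfsg.Agent.Lib.Helper7.L23Norm
open scoped Pointwise

/-! ### The group of order 253 is maximal in the point stabiliser -/

theorem m2_mem_normP : m2 ∈ Subgroup.normalizer
    ((Subgroup.zpowers sh : Subgroup (Equiv.Perm GolayPt)) : Set (Equiv.Perm GolayPt)) := by
  refine mem_normalizer_of_conj _ m2 10 m2_pow_11 ?_
  intro g hg
  obtain ⟨k, rfl⟩ := Subgroup.mem_zpowers_iff.mp hg
  have h : m2 * sh * m2⁻¹ = sh ^ 2 := by rw [m2_sh, mul_inv_cancel_right]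
  rw [← conj_zpow, h]
  exact Subgroup.zpow_mem _ (Subgroup.pow_mem _ (Subgroup.mem_zpowers sh) 2) k

theorem F_le_normP : F ≤ Subgroup.normalizer
    ((Subgroup.zpowers sh : Subgroup (Equiv.Perm GolayPt)) : Set (Equiv.Perm GolayPt)) := by
  rw [F, Subgroup.closure_le]
  rintro x (hx | ⟨u, hu, rfl⟩)
  · rw [Set.mem_singleton_iff] at hx
    subst hx
    exact Subgroup.le_normalizer (Subgroup.mem_zpowers sh)
  · obtain ⟨e, -, he⟩ := mu_eq_pow hu
    show mu u ∈ _
    rw [he]
    exact Subgroup.pow_mem _ m2_mem_normP e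

theorem div_lemma : ∀ m < 1754, 40320 % (23 * m + 1) = 0 →
    (23 * m + 1) ∈ [1, 24, 70, 576, 1680, 40320] := by decide +kernel

theorem outside23_lt : ∀ q ∈ outside [23], q < 23 := by decide

theorem outside_nil_lt : ∀ q ∈ outside [], q < 24 := by decide

theorem m2_fix0 : m2 (pt 0) = pt 0 := rep_m2.apply_eq (by norm_num) (by decide)

theorem m2_fix23 : m2 (pt 23) = pt 23 := rep_m2.apply_eq (by norm_num) (by decide)

theorem norm_Q_tabs (K : Subgroup (Equiv.Perm GolayPt)) (hK : K ≤ M24 ⊓ FixL [23]) :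
    ∀ g ∈ Subgroup.normalizer ((Subgroup.zpowers m2 : Subgroup (Equiv.Perm GolayPt)) :
      Set (Equiv.Perm GolayPt)) ⊓ (K ⊓ FixL [0, 23]), ∃ t ∈ N55L, Rep g t := by
  intro g hg
  exact norm_Q (hK hg.2.1).1 (hg.2.2 0 (by simp)) (hg.2.2 23 (by simp)) hg.1

/-- Maximality of the group of order 253 among the subgroups of the point stabiliser. -/
theorem max_F (K : Subgroup (Equiv.Perm GolayPt)) (hFK : F ≤ K) (hK : K ≤ M24 ⊓ FixL [23]) :
    K = F ∨ K = M24 ⊓ FixL [23] := by
  haveI : Fact (Nat.Prime 23) := ⟨by norm_num⟩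
  haveI : Fact (Nat.Prime 11) := ⟨by norm_num⟩
  haveI : Fact (Nat.Prime 2) := ⟨by norm_num⟩
  have hKdvd : Nat.card ↥K ∣ 10200960 := by
    rw [← card1]
    exact Subgroup.card_dvd_of_le hK
  -- the Sylow 23-subgroups
  have hP : Nat.card ↥(Subgroup.zpowers sh) = 23 := by rw [Nat.card_zpowers, orderOf_sh]
  have hPK : Subgroup.zpowers sh ≤ K := by
    rw [Subgroup.zpowers_le]
    exact hFK sh_mem_F
  have hp2 : ¬ 23 ^ 2 ∣ Nat.card ↥K := fun h => absurd (h.trans hKdvd) (by norm_num)
  obtain ⟨n, hn, hn1⟩ := sylow_count K (Subgroup.zpowers sh) hPK 23 hP hp2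
  have hNF : Subgroup.normalizer ((Subgroup.zpowers sh : Subgroup (Equiv.Perm GolayPt)) :
      Set (Equiv.Perm GolayPt)) ⊓ K = F := by
    apply le_antisymm
    · rintro g ⟨hgN, hgK⟩
      have h := hK hgK
      exact norm_P h.1 (h.2 23 (by simp)) hgN
    · exact le_inf F_le_normP hFK
  rw [hNF, card_F] at hn
  have hn2 : n ∣ 40320 := by
    rw [hn] at hKdvd
    exact Nat.dvd_of_mul_dvd_mul_left (by norm_num : 0 < 253) hKdvd
  have hnL : n ∈ [1, 24, 70, 576, 1680, 40320] := by
    have h1 : n % 23 = 1 := hn1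
    have h2 : n ≤ 40320 := Nat.le_of_dvd (by norm_num) hn2
    have h3 := div_lemma (n / 23) (by omega)
    have h4 : 23 * (n / 23) + 1 = n := by omega
    rw [h4] at h3
    exact h3 (Nat.mod_eq_zero_of_dvd hn2)
  -- transitivity on the 23 points
  have hKfix : K ⊓ FixL [23] = K := inf_eq_left.mpr (hK.trans inf_le_right)
  have hstep := card_step (K := K) (L := [23]) (b := 0) (T := outside [23]) (by decide)
    (by decide) (fun g hg => hub_gen hg.2 (by decide) (by decide)) (by
      intro q hq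
      have hq23 := outside23_lt q hq
      refine ⟨sh ^ q, ⟨hFK (F.pow_mem sh_mem_F q), F_le_Fix (F.pow_mem sh_mem_F q)⟩, ?_⟩
      rw [sh_pow_apply _ (by norm_num)]
      congr 1
      omega)
  rw [hKfix, show (outside [23]).length = 23 by decide] at hstep
  -- the Sylow 11-subgroups of the two point stabiliser
  have hK0dvd : Nat.card ↥(K ⊓ FixL [0, 23]) ∣ 443520 := by
    rw [← card2]
    exact Subgroup.card_dvd_of_le (inf_le_inf_right _ (hK.trans inf_le_left))
  have hQ : Nat.card ↥(Subgroup.zpowers m2) = 11 := by rw [Nat.card_zpowers, orderOf_m2]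
  have hQK : Subgroup.zpowers m2 ≤ K ⊓ FixL [0, 23] := by
    rw [Subgroup.zpowers_le]
    refine ⟨hFK m2_mem_F, ?_⟩
    intro f hf
    simp only [List.mem_cons, List.not_mem_nil, or_false] at hf
    rcases hf with rfl | rfl
    · exact m2_fix0
    · exact m2_fix23
  have hq2 : ¬ 11 ^ 2 ∣ Nat.card ↥(K ⊓ FixL [0, 23]) :=
    fun h => absurd (h.trans hK0dvd) (by norm_num)
  obtain ⟨n', hn', hn'1⟩ := sylow_count (K ⊓ FixL [0, 23]) (Subgroup.zpowers m2) hQK 11 hQ hq2
  obtain ⟨c, hc⟩ : ∃ c, c = Nat.card ↥(Subgroup.normalizer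
      ((Subgroup.zpowers m2 : Subgroup (Equiv.Perm GolayPt)) : Set (Equiv.Perm GolayPt)) ⊓
      (K ⊓ FixL [0, 23])) := ⟨_, rfl⟩
  rw [← hc] at hn'
  have hc55 : c ≤ 55 := by
    rw [hc, ← N55L_length]
    exact card_le_of_tabs _ N55L (norm_Q_tabs K hK)
  have hc11 : 11 ∣ c := by
    rw [hc, ← hQ]
    exact Subgroup.card_dvd_of_le (le_inf Subgroup.le_normalizer hQK)
  have hcodd : ¬ 2 ∣ c := by
    intro h2
    rw [hc] at h2
    obtain ⟨x, hx⟩ := exists_prime_orderOf_dvd_card' 2 h2
    obtain ⟨t, ht, hr⟩ := norm_Q_tabs K hK x.1 x.2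
    have hxx : (x : Equiv.Perm GolayPt) * (x : Equiv.Perm GolayPt) = 1 := by
      have h := pow_orderOf_eq_one x
      rw [hx, pow_two] at h
      exact congrArg Subtype.val h
    have h1 := hr.mul hr
    rw [hxx] at h1
    have h2 := N55L_odd t ht (M9Struct.rep_unique h1 rep_one)
    rw [h2] at hr
    have h3 : x = 1 := Subtype.ext hr.eq_one
    rw [h3, orderOf_one] at hx
    exact absurd hx (by norm_num)
  have hcpos : 0 < c := hc ▸ Nat.card_pos
  have hcL : c = 11 ∨ c = 33 ∨ c = 55 := by omega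
  have hn'm : n' % 11 = 1 := hn'1
  rw [hn, hn'] at hstep
  have hfin : n = 1 ∨ n = 40320 := by
    simp only [List.mem_cons, List.not_mem_nil, or_false] at hnL
    rcases hcL with rfl | rfl | rfl <;> rcases hnL with rfl | rfl | rfl | rfl | rfl | rfl <;>
      omega
  rcases hfin with rfl | rfl
  · left
    exact (Subgroup.eq_of_le_of_card_ge hFK (by rw [card_F, hn])).symm
  · right
    exact Subgroup.eq_of_le_of_card_ge hK (by rw [card1, hn])

/-! ### The group of order 6072 -/

theorem proj_sq : projInv * projInv = 1 := by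
  have h := rep_proj.mul rep_proj
  have e : tmul projT projT = idT := by decide +kernel
  rw [e] at h
  exact h.eq_one

theorem m2_proj : m2 * projInv = projInv * m2⁻¹ := by
  have h1 := rep_m2.mul rep_proj
  have h2 := rep_proj.mul rep_m2Inv
  have e : tmul m2T projT = tmul projT m2InvT := by decide +kernel
  rw [e] at h1
  exact h1.ext h2

/-- The check of the relation `w u(a) w = u(-1/a) w h` with `h` in the group of order 253. -/
def chkC (a : Nat) : Bool :=
  a == 0 || (tmul projT (tmul (affT 1 a) projT) ==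
      tmul (affT 1 (inv23.getD (23 - a) 0)) (tmul projT (affT (a * a % 23) (23 - a))) &&
    sqL.contains (a * a % 23) && decide (inv23.getD (23 - a) 0 < 23))

theorem chkC_all : ∀ a < 23, chkC a = true := by decide +kernel

theorem proj_sh_proj {a : ℕ} (ha : a < 23) (ha0 : a ≠ 0) :
    ∃ c < 23, ∃ f ∈ F, projInv * sh ^ a * projInv = sh ^ c * projInv * f := by
  have h := chkC_all a ha
  simp only [chkC, Bool.or_eq_true, beq_iff_eq, Bool.and_eq_true, List.contains_iff_mem,
    decide_eq_true_eq] at h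
  rcases h with h | ⟨⟨h1, h2⟩, h3⟩
  · exact absurd h ha0
  obtain ⟨f, hf, hfr⟩ := aff_rep h2 (by omega : 23 - a < 23)
  refine ⟨_, h3, f, hf, ?_⟩
  have r1 := rep_proj.mul ((rep_sh_pow a).mul rep_proj)
  rw [Nat.mod_eq_of_lt ha, h1] at r1
  have r2 := (rep_sh_pow (inv23.getD (23 - a) 0)).mul (rep_proj.mul hfr)
  rw [Nat.mod_eq_of_lt h3] at r2
  rw [mul_assoc, mul_assoc]
  exact r1.ext r2

/-- The elements of the group of order 6072. -/
theorem L_form : ∀ g ∈ L, g ∈ F ∨ ∃ a < 23, ∃ f ∈ F, g = sh ^ a * projInv * f := by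
  refine closure_sub SLs {sh, m2, projInv}
    {g | g ∈ F ∨ ∃ a < 23, ∃ f ∈ F, g = sh ^ a * projInv * f} (Or.inl F.one_mem) ?_ ?_ ?_
  · rintro y (rfl | rfl | rfl) z (hz | ⟨a, ha, f, hf, rfl⟩)
    · exact Or.inl (F.mul_mem sh_mem_F hz)
    · right
      refine ⟨(a + 1) % 23, Nat.mod_lt _ (by norm_num), f, hf, ?_⟩
      rw [← sh_pow_mod, pow_succ', mul_assoc, mul_assoc, mul_assoc]
    · exact Or.inl (F.mul_mem m2_mem_F hz)
    · right
      refine ⟨(2 * a) % 23, Nat.mod_lt _ (by norm_num), m2⁻¹ * f,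
        F.mul_mem (F.inv_mem m2_mem_F) hf, ?_⟩
      rw [← sh_pow_mod]
      calc m2 * (sh ^ a * projInv * f) = (m2 * sh ^ a) * projInv * f := by
            simp only [mul_assoc]
        _ = sh ^ (2 * a) * (m2 * projInv) * f := by rw [m2_sh_pow]; simp only [mul_assoc]
        _ = sh ^ (2 * a) * projInv * (m2⁻¹ * f) := by rw [m2_proj]; simp only [mul_assoc]
    · right
      exact ⟨0, by norm_num, z, hz, by rw [pow_zero, one_mul]⟩
    · by_cases ha0 : a = 0
      · subst ha0
        left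
        have e : projInv * (sh ^ 0 * projInv * f) = f := by
          rw [pow_zero, one_mul, ← mul_assoc, proj_sq, one_mul]
        show projInv * (sh ^ 0 * projInv * f) ∈ F
        rw [e]
        exact hf
      · right
        obtain ⟨c, hc, f', hf', he⟩ := proj_sh_proj ha ha0
        refine ⟨c, hc, f' * f, F.mul_mem hf' hf, ?_⟩
        calc projInv * (sh ^ a * projInv * f) = (projInv * sh ^ a * projInv) * f := by
              simp only [mul_assoc]
          _ = sh ^ c * projInv * (f' * f) := by rw [he]; simp only [mul_assoc]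
  · rintro y (rfl | rfl | rfl)
    · exact ⟨22, sh_pow_23⟩
    · exact ⟨10, m2_pow_11⟩
    · exact ⟨1, by rw [pow_succ, pow_one]; exact proj_sq⟩
  · rintro x ((hx | hx) | ⟨u, hu, rfl⟩)
    · subst hx
      exact ⟨sh, by simp, 1, (pow_one _).symm⟩
    · rw [Set.mem_singleton_iff] at hx
      subst hx
      exact ⟨projInv, by simp, 1, (pow_one _).symm⟩
    · obtain ⟨e, -, he⟩ := mu_eq_pow hu
      exact ⟨m2, by simp, e, he⟩

theorem card_L_le : Nat.card ↥L ≤ 6072 := by
  have h := card_le_of_range L (fun p : Option (Fin 23) × ↥F => match p.1 with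
      | none => (p.2 : Equiv.Perm GolayPt)
      | some a => sh ^ (a : ℕ) * projInv * (p.2 : Equiv.Perm GolayPt)) (by
    intro g hg
    rcases L_form g hg with hF | ⟨a, ha, f, hf, rfl⟩
    · exact ⟨(none, ⟨g, hF⟩), rfl⟩
    · exact ⟨(some ⟨a, ha⟩, ⟨f, hf⟩), rfl⟩)
  have h2 : Nat.card (Option (Fin 23) × ↥F) = 6072 := by
    rw [Nat.card_prod, card_F, Nat.card_eq_fintype_card, Fintype.card_option, Fintype.card_fin]
  rwa [h2] at h

/-- A group containing the group of order 6072 is transitive on the 24 points. -/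
theorem trans_step (K : Subgroup (Equiv.Perm GolayPt)) (hLK : L ≤ K) :
    Nat.card ↥K = Nat.card ↥(K ⊓ FixL [23]) * 24 := by
  have hstep := card_step (K := K) (L := []) (b := 23) (T := outside []) (by decide) (by decide)
    (fun g hg => hub_gen hg.2 (by decide) (by decide)) (by
      intro q hq
      have hq24 := outside_nil_lt q hq
      by_cases h23 : q = 23
      · subst h23
        exact ⟨1, ⟨K.one_mem, (FixL []).one_mem⟩, rfl⟩
      · refine ⟨sh ^ q * projInv,
          ⟨hLK (L.mul_mem (L.pow_mem (F_le_L sh_mem_F) q) proj_mem_L), ?_⟩, ?_⟩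
        · rw [FixL_nil]
          trivial
        · show (sh ^ q) (projInv (pt 23)) = pt q
          rw [rep_proj.apply_eq (by norm_num) (by decide : projT.getD 23 0 = 0),
            sh_pow_apply _ (by norm_num)]
          congr 1
          omega)
  rw [FixL_nil, inf_top_eq, show (outside []).length = 24 by decide] at hstep
  exact hstep

theorem card_L : Nat.card ↥L = 6072 := by
  apply le_antisymm card_L_le
  rw [trans_step L le_rfl]
  have h : Nat.card ↥F ≤ Nat.card ↥(L ⊓ FixL [23]) :=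
    Subgroup.card_le_of_le (le_inf F_le_L F_le_Fix)
  rw [card_F] at h
  omega

/-- Maximality of the group of order 6072. -/
theorem max_L (K : Subgroup (Equiv.Perm GolayPt)) (hLK : L ≤ K) (hK : K ≤ M24) :
    K = L ∨ K = M24 := by
  have h1 := trans_step K hLK
  rcases max_F (K ⊓ FixL [23]) (le_inf (F_le_L.trans hLK) F_le_Fix) (inf_le_inf_right _ hK)
    with h | h
  · left
    rw [h, card_F] at h1
    exact (Subgroup.eq_of_le_of_card_ge hLK (by rw [card_L, h1])).symm
  · right
    rw [h, card1] at h1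
    exact Subgroup.eq_of_le_of_card_ge hK (by rw [card_M24, h1])

/-! ### The statement -/

theorem stab_eq : MulAction.stabilizer ↥M24 (none : GolayPt) =
    (M24 ⊓ FixL [23]).subgroupOf M24 := by
  ext x
  rw [MulAction.mem_stabilizer_iff, Subgroup.mem_subgroupOf, Subgroup.mem_inf, mem_FixL]
  constructor
  · intro h
    refine ⟨x.2, fun f hf => ?_⟩
    rw [List.mem_singleton] at hf
    subst hf
    exact h
  · intro h
    exact h.2 23 (List.mem_singleton.mpr rfl)

theorem main : (L ≤ M24 ∧ Nat.card ↥L = 6072 ∧ IsCoatom (L.subgroupOf M24)) ∧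
    (F ≤ M24 ⊓ MulAction.stabilizer (Equiv.Perm GolayPt) (none : GolayPt) ∧
      Nat.card ↥F = 253 ∧
      IsCoatom ((F.subgroupOf M24).subgroupOf (MulAction.stabilizer M24 (none : GolayPt)))) := by
  refine ⟨⟨L_le_M24, card_L, ?_⟩, ⟨le_inf F_le_M24 F_le_stab, card_F, ?_⟩⟩
  · refine coatom_subgroupOf L M24 L_le_M24 ?_ max_L
    intro h
    have h1 := card_L
    rw [h, card_M24] at h1
    exact absurd h1 (by norm_num)
  · rw [stab_eq]
    refine coatom_subgroupOf (F.subgroupOf M24) ((M24 ⊓ FixL [23]).subgroupOf M24) ?_ ?_ ?_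
    · intro x hx
      rw [Subgroup.mem_subgroupOf] at hx ⊢
      exact ⟨x.2, F_le_Fix hx⟩
    · intro h
      have h1 : Nat.card ↥(F.subgroupOf M24) = 253 := by
        rw [card_subgroupOf_inf, inf_eq_left.mpr F_le_M24, card_F]
      have h2 : Nat.card ↥((M24 ⊓ FixL [23]).subgroupOf M24) = 10200960 := by
        rw [card_subgroupOf_inf, inf_eq_left.mpr inf_le_left, card1]
      rw [h, h2] at h1
      exact absurd h1 (by norm_num)
    · intro K' h1 h2
      have hFK : F ≤ K'.map M24.subtype := by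
        intro g hg
        exact ⟨⟨g, F_le_M24 hg⟩, h1 (Subgroup.mem_subgroupOf.mpr hg), rfl⟩
      have hKle : K'.map M24.subtype ≤ M24 ⊓ FixL [23] := by
        rintro _ ⟨x, hx, rfl⟩
        exact Subgroup.mem_subgroupOf.mp (h2 hx)
      have hK' : K' = (K'.map M24.subtype).subgroupOf M24 :=
        (Subgroup.comap_map_eq_self_of_injective (Subgroup.subtype_injective M24) K').symm
      rcases max_F _ hFK hKle with h | h
      · left
        rw [hK', h]
      · right
        rw [hK', h]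

end Cfsg.Agent.Lib.Helper7.L23Main
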