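import Cfsg.Agent.Lib.Helper7.L23Base

set_option autoImplicit false

namespace Cfsg.Agent.Lib.Helper7.L23Norm

open Cfsg Cfsg.Agent.Lib.Helper7.GolayBase Cfsg.Agent.Lib.Helper7.GolayCode
  Cfsg.Agent.Lib.Helper7.M24Mem Cfsg.Agent.Lib.Helper7.GolayRigid
  Cfsg.Agent.Lib.Helper7.GolayPerm Cfsg.Agent.Lib.Helper7.ChainGen
  Cfsg.Agent.Lib.Helper7.M24Data Cfsg.Agent.Lib.Helper7.M24Core
  Cfsg.Agent.Lib.Helper7.M24Main Cfsg.Agent.Lib.Helper7.QuartetStab
  Cfsg.Agent.Lib.Helper7.LinM24 Cfsg.Agent.Lib.Helper7.L23Data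
  Cfsg.Agent.Lib.Helper7.SylowCount Cfsg.Agent.Lib.Helper7.L23Base
open scoped Pointwise

/-! ### Forcing evaluation -/

/-- Evaluate a number before passing it on. -/
def forceNat {α : Type} (n : Nat) (k : Nat → α) : α :=
  match n with
  | 0 => k 0
  | Nat.succ m => k (Nat.succ m)

theorem forceNat_eq {α : Type} (n : Nat) (k : Nat → α) : forceNat n k = k n := by
  cases n <;> rfl

/-- Evaluate a list of numbers before passing it on. -/
def forceList {α : Type} : List Nat → (List Nat → α) → α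
  | [], k => k []
  | x :: xs, k => forceNat x (fun x' => forceList xs (fun xs' => k (x' :: xs')))

theorem forceList_eq {α : Type} (l : List Nat) (k : List Nat → α) : forceList l k = k l := by
  induction l generalizing k with
  | nil => rfl
  | cons x xs ih => simp [forceList, forceNat_eq, ih]

/-! ### Normalisers of the Sylow subgroups -/

theorem exists_nat_pow {G : Type*} [Group G] {x y : G} (n : ℕ) (hn : 0 < n) (hx : x ^ n = 1)
    (hy : y ∈ Subgroup.zpowers x) : ∃ j < n, x ^ j = y := by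
  obtain ⟨k, rfl⟩ := Subgroup.mem_zpowers_iff.mp hy
  have hn' : (n : ℤ) ≠ 0 := by exact_mod_cast hn.ne'
  have h0 : 0 ≤ k % (n : ℤ) := Int.emod_nonneg k hn'
  have h1 : x ^ (k % (n : ℤ)) = x ^ k := by
    conv_rhs => rw [← Int.emod_add_mul_ediv k n]
    rw [zpow_add, zpow_mul, zpow_natCast, hx, one_zpow, mul_one]
  refine ⟨(k % (n : ℤ)).toNat, ?_, ?_⟩
  · have := Int.emod_lt_of_pos k (by exact_mod_cast hn : (0 : ℤ) < n)
    omega
  · rw [← h1, ← zpow_natCast, Int.toNat_of_nonneg h0]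

theorem conj_pow_left {G : Type*} [Group G] {x g : G} {j : ℕ} (e : ℕ)
    (h : g * x * g⁻¹ = x ^ j) : (x ^ e * g) * x * (x ^ e * g)⁻¹ = x ^ j := by
  calc (x ^ e * g) * x * (x ^ e * g)⁻¹ = x ^ e * (g * x * g⁻¹) * (x ^ e)⁻¹ := by group
    _ = x ^ e * x ^ j * (x ^ e)⁻¹ := by rw [h]
    _ = x ^ j := by rw [← pow_add, add_comm, pow_add, mul_inv_cancel_right]

theorem idx_ne_of_fix {g : Equiv.Perm GolayPt} {i j : Nat} (hi : i < 24) (hj : j < 24)
    (hij : i ≠ j) (hg : g (pt j) = pt j) : idx (g (pt i)) ≠ j := by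
  intro h
  have h1 : g (pt i) = pt j := by rw [← pt_idx (g (pt i)), h]
  rw [← hg] at h1
  have h2 := congrArg idx (g.injective h1)
  rw [idx_pt hi, idx_pt hj] at h2
  exact hij h2

theorem sh_pow_fix (k : ℕ) : (sh ^ k) (pt 23) = pt 23 :=
  (rep_sh_pow k).apply_eq (by norm_num) (affT_getD_23 _ _)

theorem sh_pow_apply (k : ℕ) {i : ℕ} (hi : i < 23) : (sh ^ k) (pt i) = pt ((i + k) % 23) := by
  refine (rep_sh_pow k).apply_eq (by omega) ?_
  rw [affT_getD_lt _ _ hi]
  omega

theorem m2_pow_fix (e : ℕ) : (m2 ^ e) (pt 23) = pt 23 :=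
  (rep_m2_pow e).apply_eq (by norm_num) (affT_getD_23 _ _)

theorem m2_pow_apply (e : ℕ) {i : ℕ} (hi : i < 23) :
    (m2 ^ e) (pt i) = pt ((2 ^ e % 23 * i) % 23) := by
  refine (rep_m2_pow e).apply_eq (by omega) ?_
  rw [affT_getD_lt _ _ hi, Nat.add_zero]

theorem sh_mem_M24 : sh ∈ M24 := H_le_M24 sh_mem

/-- The check for the normaliser of the group of order 23. -/
def chkA (j : Nat) : Bool :=
  j == 0 || (tmul (affT j 0) shiftT == tmul (affT 1 j) (affT j 0) &&
    (!inM24T (affT j 0) || sqL.contains j))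

theorem chkA_all : ∀ j < 23, chkA j = true := by decide +kernel

theorem shift_lt : ∀ i < 24, shiftT.getD i 0 < 24 := by decide

theorem shift_reach : ∀ i < 24, i ∈ steps shiftT 23 [0, 23] := by decide +kernel

/-- The normaliser of the group of order 23 in the point stabiliser is the group of order 253. -/
theorem norm_P {g : Equiv.Perm GolayPt} (hg : g ∈ M24) (hfix : g (pt 23) = pt 23)
    (hN : g ∈ Subgroup.normalizer ((Subgroup.zpowers sh : Subgroup (Equiv.Perm GolayPt)) :
      Set (Equiv.Perm GolayPt))) : g ∈ F := by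
  have hconj : g * sh * g⁻¹ ∈ Subgroup.zpowers sh :=
    (Subgroup.mem_normalizer_iff.mp hN sh).mp (Subgroup.mem_zpowers sh)
  obtain ⟨j, hj, hjc⟩ := exists_nat_pow 23 (by norm_num) sh_pow_23 hconj
  have hj0 : j ≠ 0 := by
    rintro rfl
    rw [pow_zero] at hjc
    apply sh_ne_one
    have : sh = g⁻¹ * (g * sh * g⁻¹) * g := by group
    rw [this, ← hjc]
    group
  obtain ⟨a, ha⟩ : ∃ a, a = idx (g (pt 0)) := ⟨_, rfl⟩
  have ha24 : a < 24 := ha ▸ idx_lt _
  have ha23 : a ≠ 23 := by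
    rw [ha]
    exact idx_ne_of_fix (by norm_num) (by norm_num) (by norm_num) hfix
  have ha' : a < 23 := by omega
  have hga : g (pt 0) = pt a := by rw [ha, pt_idx]
  -- reduce to the case where `0` is fixed
  obtain ⟨g', hg'⟩ : ∃ g', g' = sh ^ (23 - a) * g := ⟨_, rfl⟩
  have hg'M : g' ∈ M24 := hg' ▸ M24.mul_mem (M24.pow_mem sh_mem_M24 _) hg
  have hfix' : g' (pt 23) = pt 23 := by
    rw [hg']
    show (sh ^ (23 - a)) (g (pt 23)) = pt 23
    rw [hfix, sh_pow_fix]
  have hfix0 : g' (pt 0) = pt 0 := by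
    rw [hg']
    show (sh ^ (23 - a)) (g (pt 0)) = pt 0
    rw [hga, sh_pow_apply _ ha']
    congr 1
    omega
  have hjc' : g' * sh * g'⁻¹ = sh ^ j := by
    rw [hg']
    exact conj_pow_left _ hjc.symm
  have hrj := rep_sh_pow j
  rw [Nat.mod_eq_of_lt hj] at hrj
  have ht := rep_tabOf g'
  have hrel := rel_of_conj ht rep_sh hrj hjc'
  have hchk := chkA_all j hj
  simp only [chkA, Bool.or_eq_true, beq_iff_eq, Bool.and_eq_true, Bool.not_eq_true',
    List.contains_iff_mem] at hchk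
  rcases hchk with h | ⟨hrel', hmem⟩
  · exact absurd h hj0
  have heq : tabOf g' = affT j 0 := by
    refine table_unique shiftT (affT 1 j) (by decide) shift_lt [0, 23] (by decide) 23
      shift_reach ht.1 (affT_length j 0) hrel hrel' ?_
    intro i hi
    simp only [List.mem_cons, List.not_mem_nil, or_false] at hi
    rcases hi with rfl | rfl
    · rw [rep_getD ht (by norm_num), hfix0, idx_pt (by norm_num),
        affT_getD_lt _ _ (by norm_num), Nat.mul_zero]
    · rw [rep_getD ht (by norm_num), hfix', idx_pt (by norm_num), affT_getD_23]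
  have hin := inM24T_of_mem hg'M ht
  rw [heq] at hin
  have hjs : j ∈ sqL := by
    rcases hmem with h | h
    · rw [hin] at h; exact absurd h (by simp)
    · exact h
  obtain ⟨e, -, rfl⟩ := sq_pow j hjs
  rw [heq] at ht
  have hg'e : g' = m2 ^ e := ht.ext (rep_m2_pow e)
  have hgF : g = (sh ^ (23 - a))⁻¹ * g' := by rw [hg']; group
  rw [hgF, hg'e]
  exact F.mul_mem (F.inv_mem (F.pow_mem sh_mem_F _)) (F.pow_mem m2_mem_F _)

/-- The candidate tables for the normaliser of the group of order 11. -/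
def candQ (j a b : Nat) : List Nat :=
  (List.range 24).map (fun i =>
    if kindL.getD i 0 = 0 then i
    else if kindL.getD i 0 = 1 then (2 ^ (j * expL.getD i 0) * a) % 23
    else (2 ^ (j * expL.getD i 0) * b) % 23)

/-- The check of one candidate table. -/
def chkB' (j a b : Nat) (t : List Nat) : Bool :=
  tmul t m2T == tmul (affT (2 ^ j % 23) 0) t &&
    t.getD 0 0 == 0 && t.getD 23 0 == 23 && t.getD 1 0 == a && t.getD 22 0 == b &&
    (!inM24T t || N5L.contains t)

/-- The check for the normaliser of the group of order 11. -/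
def chkB (j a b : Nat) : Bool :=
  j == 0 || b == 0 || forceList (candQ j a b) (chkB' j a b)

theorem chkB_all : ∀ j < 11, ∀ a ∈ [1, 22], ∀ b < 23, chkB j a b = true := by decide +kernel

theorem m2_lt : ∀ i < 24, m2T.getD i 0 < 24 := by decide

theorem m2_reach : ∀ i < 24, i ∈ steps m2T 11 [0, 23, 1, 22] := by decide +kernel

theorem N55L_length : N55L.length = 55 := by decide

theorem N55L_odd : ∀ t ∈ N55L, tmul t t = idT → t = idT := by decide +kernel

theorem N5_spread : ∀ e < 12, ∀ t ∈ N5L, tmul (affT (2 ^ e % 23) 0) t ∈ N55L := by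
  decide +kernel

theorem wlog_one : ∀ a < 23, a ≠ 0 →
    ∃ e < 11, (2 ^ e % 23 * a) % 23 = 1 ∨ (2 ^ e % 23 * a) % 23 = 22 := by decide

/-- The elements of `M24` fixing two points and normalising the group of order 11 have their
tables in the list. -/
theorem norm_Q {g : Equiv.Perm GolayPt} (hg : g ∈ M24) (hfix0 : g (pt 0) = pt 0)
    (hfix : g (pt 23) = pt 23)
    (hN : g ∈ Subgroup.normalizer ((Subgroup.zpowers m2 : Subgroup (Equiv.Perm GolayPt)) :
      Set (Equiv.Perm GolayPt))) : ∃ t ∈ N55L, Rep g t := by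
  have hconj : g * m2 * g⁻¹ ∈ Subgroup.zpowers m2 :=
    (Subgroup.mem_normalizer_iff.mp hN m2).mp (Subgroup.mem_zpowers m2)
  obtain ⟨j, hj, hjc⟩ := exists_nat_pow 11 (by norm_num) m2_pow_11 hconj
  have hj0 : j ≠ 0 := by
    rintro rfl
    rw [pow_zero] at hjc
    apply m2_ne_one
    have : m2 = g⁻¹ * (g * m2 * g⁻¹) * g := by group
    rw [this, ← hjc]
    group
  obtain ⟨a0, ha0⟩ : ∃ a, a = idx (g (pt 1)) := ⟨_, rfl⟩
  have ha024 : a0 < 24 := ha0 ▸ idx_lt _
  have ha023 : a0 ≠ 23 := by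
    rw [ha0]
    exact idx_ne_of_fix (by norm_num) (by norm_num) (by norm_num) hfix
  have ha00 : a0 ≠ 0 := by
    rw [ha0]
    exact idx_ne_of_fix (by norm_num) (by norm_num) (by norm_num) hfix0
  have hga : g (pt 1) = pt a0 := by rw [ha0, pt_idx]
  obtain ⟨e, he, hea⟩ := wlog_one a0 (by omega) ha00
  -- reduce to the case where `1` goes to `1` or `22`
  obtain ⟨g', hg'⟩ : ∃ g', g' = m2 ^ e * g := ⟨_, rfl⟩
  have hg'M : g' ∈ M24 := hg' ▸ M24.mul_mem (M24.pow_mem m2_mem_M24 _) hg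
  have hfix' : g' (pt 23) = pt 23 := by
    rw [hg']
    show (m2 ^ e) (g (pt 23)) = pt 23
    rw [hfix, m2_pow_fix]
  have hfix0' : g' (pt 0) = pt 0 := by
    rw [hg']
    show (m2 ^ e) (g (pt 0)) = pt 0
    rw [hfix0, m2_pow_apply _ (by norm_num), Nat.mul_zero]
  obtain ⟨a, ha⟩ : ∃ a, a = (2 ^ e % 23 * a0) % 23 := ⟨_, rfl⟩
  have hga' : g' (pt 1) = pt a := by
    rw [hg']
    show (m2 ^ e) (g (pt 1)) = pt a
    rw [hga, m2_pow_apply _ (by omega), ha]
  rw [← ha] at hea
  have haL : a ∈ [1, 22] := by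
    rcases hea with h | h <;> simp [h]
  have hjc' : g' * m2 * g'⁻¹ = m2 ^ j := by
    rw [hg']
    exact conj_pow_left _ hjc.symm
  have hrj := rep_m2_pow j
  have ht := rep_tabOf g'
  have hrel := rel_of_conj ht rep_m2 hrj hjc'
  obtain ⟨b, hb⟩ : ∃ b, b = (tabOf g').getD 22 0 := ⟨_, rfl⟩
  have hb24 : b < 24 := hb ▸ rep_lt ht (by norm_num)
  have hb23 : b ≠ 23 := by
    rw [hb, rep_getD ht (by norm_num)]
    exact idx_ne_of_fix (by norm_num) (by norm_num) (by norm_num) hfix'
  have hb0 : b ≠ 0 := by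
    rw [hb, rep_getD ht (by norm_num)]
    exact idx_ne_of_fix (by norm_num) (by norm_num) (by norm_num) hfix0'
  have hchk := chkB_all j hj a haL b (by omega)
  rw [chkB, forceList_eq] at hchk
  simp only [chkB', Bool.or_eq_true, beq_iff_eq, Bool.and_eq_true, Bool.not_eq_true',
    List.contains_iff_mem] at hchk
  rcases hchk with (h | h) | ⟨⟨⟨⟨⟨hrel', h0⟩, h23⟩, h1⟩, h22⟩, hmem⟩
  · exact absurd h hj0
  · exact absurd h hb0
  have heq : tabOf g' = candQ j a b := by
    refine table_unique m2T (affT (2 ^ j % 23) 0) (by decide) m2_lt [0, 23, 1, 22] (by decide) 11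
      m2_reach ht.1 (by simp [candQ]) hrel hrel' ?_
    intro i hi
    simp only [List.mem_cons, List.not_mem_nil, or_false] at hi
    rcases hi with rfl | rfl | rfl | rfl
    · rw [rep_getD ht (by norm_num), hfix0', idx_pt (by norm_num), h0]
    · rw [rep_getD ht (by norm_num), hfix', idx_pt (by norm_num), h23]
    · rw [rep_getD ht (by norm_num), hga', idx_pt (by omega), h1]
    · rw [← hb, h22]
  have hin := inM24T_of_mem hg'M ht
  rw [heq] at hin
  have h5 : candQ j a b ∈ N5L := by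
    rcases hmem with h | h
    · rw [hin] at h; exact absurd h (by simp)
    · exact h
  rw [heq] at ht
  have hgF : g = m2 ^ (11 - e) * g' := by
    rw [hg', ← mul_assoc, ← pow_add, show 11 - e + e = 11 by omega, m2_pow_11, one_mul]
  refine ⟨_, N5_spread (11 - e) (by omega) _ h5, ?_⟩
  rw [hgF]
  exact (rep_m2_pow (11 - e)).mul ht

end Cfsg.Agent.Lib.Helper7.L23Norm
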