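import Cfsg.Agent.Lib.Helper7.QuartetStab
import Cfsg.Agent.Lib.Helper7.M24Octad
import Cfsg.Agent.Lib.Helper7.LinM24Data

set_option autoImplicit false

namespace Cfsg.Agent.Lib.Helper7.LinM24

open Cfsg Cfsg.Agent.Lib.Helper7.GolayBase Cfsg.Agent.Lib.Helper7.GolayCode
  Cfsg.Agent.Lib.Helper7.M24Mem Cfsg.Agent.Lib.Helper7.GolayRigid
  Cfsg.Agent.Lib.Helper7.GolayPerm Cfsg.Agent.Lib.Helper7.M24Data
  Cfsg.Agent.Lib.Helper7.M24Core Cfsg.Agent.Lib.Helper7.M24Main
  Cfsg.Agent.Lib.Helper7.M24Octad Cfsg.Agent.Lib.Helper7.QuartetStab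
  Cfsg.Agent.Lib.Helper7.LinM24Data
open scoped Pointwise

/-! ### The action of permutations on masks -/

/-- The image of a mask under a permutation. -/
noncomputable def act (g : Equiv.Perm GolayPt) (c : Nat) : Nat := maskOf (g • mk c)

theorem mk_act (g : Equiv.Perm GolayPt) (c : Nat) : mk (act g c) = g • mk c := mk_maskOf _

theorem act_lt (g : Equiv.Perm GolayPt) (c : Nat) : act g c < 2 ^ 24 := maskOf_lt _

theorem act_of_smul {g : Equiv.Perm GolayPt} {a c : Nat} (hc : c < 2 ^ 24)
    (h : g • mk a = mk c) : act g a = c := by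
  rw [act, h, maskOf_mk hc]

theorem act_mul (g h : Equiv.Perm GolayPt) (c : Nat) : act (g * h) c = act g (act h c) := by
  unfold act
  rw [mk_maskOf, mul_smul]

theorem act_one {c : Nat} (hc : c < 2 ^ 24) : act 1 c = c := by
  rw [act, one_smul, maskOf_mk hc]

theorem act_xor (g : Equiv.Perm GolayPt) (a b : Nat) :
    act g (a ^^^ b) = act g a ^^^ act g b := by
  apply mk_injOn (act_lt _ _) (Nat.xor_lt_two_pow (act_lt _ _) (act_lt _ _))
  rw [mk_act, mk_xor, mk_xor, mk_act, mk_act, Finset.smul_finset_symmDiff]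

theorem act_full (g : Equiv.Perm GolayPt) : act g full = full := by
  apply mk_injOn (act_lt _ _) (by decide)
  rw [mk_act, mk_full, Finset.smul_finset_univ]

theorem act_zero (g : Equiv.Perm GolayPt) : act g 0 = 0 := by
  apply mk_injOn (act_lt _ _) (by decide)
  rw [mk_act, mk_zero, Finset.smul_finset_empty]

theorem popc_act (g : Equiv.Perm GolayPt) (c : Nat) : popc (act g c) = popc c := by
  rw [← card_mk, ← card_mk, mk_act, Finset.card_smul_finset]

theorem act_mem_codeList {g : Equiv.Perm GolayPt} (hg : g ∈ M24) {c : Nat} (hc : c ∈ codeList) :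
    act g c ∈ codeList := by
  obtain ⟨c', hc', h⟩ := (mem_supports_iff _).mp (smul_mem_supports hg (mk_mem_supports hc))
  have : act g c = c' := act_of_smul (codeList_lt c' hc') h.symm
  rw [this]
  exact hc'

/-! ### Normal forms modulo the all-ones word -/

/-- The representative, modulo the all-ones word, avoiding the point at infinity. -/
def nrm (a : Nat) : Nat := if a.testBit 23 then a ^^^ full else a

theorem full_testBit23 : full.testBit 23 = true := by decide

theorem nrm_xor (a b : Nat) : nrm (a ^^^ b) = nrm a ^^^ nrm b := by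
  unfold nrm
  rw [Nat.testBit_xor]
  by_cases ha : a.testBit 23 = true <;> by_cases hb : b.testBit 23 = true
  · simp only [ha, hb, Bool.xor_self, if_true]
    rw [Nat.xor_assoc a full, ← Nat.xor_assoc full b full, Nat.xor_comm full b, Nat.xor_assoc b,
      Nat.xor_self, Nat.xor_zero]
    simp
  · simp only [Bool.not_eq_true] at hb
    simp only [ha, hb, Bool.xor_false, if_true]
    rw [Nat.xor_assoc, Nat.xor_comm b full, ← Nat.xor_assoc]
    simp
  · simp only [Bool.not_eq_true] at ha
    simp only [ha, hb, Bool.false_xor, if_true]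
    rw [Nat.xor_assoc]
    simp
  · simp only [Bool.not_eq_true] at ha hb
    simp [ha, hb]

theorem nrm_full : nrm full = 0 := by decide

theorem nrm_xor_full (a : Nat) : nrm (a ^^^ full) = nrm a := by
  rw [nrm_xor, nrm_full, Nat.xor_zero]

theorem nrm_eq {a b : Nat} (h : nrm a = nrm b) : a = b ∨ a = b ^^^ full := by
  unfold nrm at h
  by_cases ha : a.testBit 23 = true <;> by_cases hb : b.testBit 23 = true
  · rw [if_pos ha, if_pos hb] at h
    exact Or.inl (Nat.xor_left_inj.mp h)
  · rw [if_pos ha, if_neg hb] at h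
    right
    rw [← h, Nat.xor_assoc, Nat.xor_self, Nat.xor_zero]
  · rw [if_neg ha, if_pos hb] at h
    exact Or.inr h
  · rw [if_neg ha, if_neg hb] at h
    exact Or.inl h

theorem nrm_act_congr (g : Equiv.Perm GolayPt) {a b : Nat} (h : nrm a = nrm b) :
    nrm (act g a) = nrm (act g b) := by
  rcases nrm_eq h with rfl | rfl
  · rfl
  · rw [act_xor, act_full, nrm_xor_full]

/-- The weight of a word, up to adding the all-ones word. -/
def typ (a : Nat) : Nat := min (popc a) (24 - popc a)

theorem popc_le (a : Nat) : popc a ≤ 24 := by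
  rw [← card_mk]
  have := Finset.card_le_univ (mk a)
  rw [Fintype.card_option, ZMod.card] at this
  exact this

theorem popc_xor_full (a : Nat) : popc (a ^^^ full) = 24 - popc a := by
  rw [← card_mk, ← card_mk, mk_xor, mk_full]
  have h1 : symmDiff (mk a) Finset.univ = (mk a)ᶜ := by
    ext p
    simp [Finset.mem_symmDiff]
  rw [h1, Finset.card_compl, Fintype.card_option, ZMod.card]

theorem typ_xor_full (a : Nat) : typ (a ^^^ full) = typ a := by
  unfold typ
  rw [popc_xor_full]
  have := popc_le a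
  omega

theorem typ_eq_of_nrm {a b : Nat} (h : nrm a = nrm b) : typ a = typ b := by
  rcases nrm_eq h with rfl | rfl
  · rfl
  · exact typ_xor_full b

theorem typ_act (g : Equiv.Perm GolayPt) (a : Nat) : typ (act g a) = typ a := by
  unfold typ
  rw [popc_act]

/-! ### Weight-type preserving additive maps of the code -/

/-- An additive map of the code preserving weights up to complements. -/
structure Good (f : Nat → Nat) : Prop where
  code : ∀ c ∈ codeList, f c ∈ codeList
  add : ∀ a ∈ codeList, ∀ b ∈ codeList, f (a ^^^ b) = f a ^^^ f b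
  typ : ∀ c ∈ codeList, typ (f c) = typ c

theorem span_agree {f : Nat → Nat} (hf : Good f) {σ : Equiv.Perm GolayPt} {Bs : List Nat}
    (hB : ∀ a ∈ Bs, a ∈ codeList) (hS : ∀ a ∈ Bs, nrm (act σ a) = nrm (f a)) :
    ∀ v ∈ spanList Bs, v ∈ codeList ∧ nrm (act σ v) = nrm (f v) := by
  apply spanList_induction
  · refine ⟨zero_mem_codeList, ?_⟩
    have h0 : f 0 = 0 := by
      have := hf.add 0 zero_mem_codeList 0 zero_mem_codeList
      simpa using this
    rw [h0, act_zero]
  · rintro a b ⟨ha, ha'⟩ ⟨hb, hb'⟩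
    exact ⟨xor_mem_codeList ha hb, by rw [act_xor, nrm_xor, ha', hb', ← nrm_xor, ← hf.add a ha b hb]⟩
  · intro b hb
    exact ⟨hB b hb, hS b hb⟩

/-- The profile test: the types of the sums with the test vectors. -/
def profOK (V : List (Nat × Nat)) (c : Nat) : Bool := V.all (fun vt => typ (c ^^^ vt.1) == vt.2)

/-- One step of the chain. -/
theorem step {f : Nat → Nat} (hf : Good f) (Bs : List Nat) (b : Nat) (V : List (Nat × Nat))
    (hB : ∀ a ∈ Bs, a ∈ codeList) (hb : b ∈ octadList)
    (hV : ∀ vt ∈ V, vt.1 ∈ spanList Bs ∧ typ (b ^^^ vt.1) = vt.2)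
    (cert : ∀ c ∈ octadList, profOK V c = true →
      ∃ τ ∈ M24, (∀ a ∈ Bs, τ • mk a = mk a) ∧ τ • mk b = mk c)
    {σ : Equiv.Perm GolayPt} (hσ : σ ∈ M24) (hS : ∀ a ∈ Bs, nrm (act σ a) = nrm (f a)) :
    ∃ σ' ∈ M24, ∀ a ∈ b :: Bs, nrm (act σ' a) = nrm (f a) := by
  have hbc : b ∈ codeList := (mem_octadList.mp hb).1
  have hb8 : popc b = 8 := (mem_octadList.mp hb).2
  have hspan := span_agree hf hB hS
  obtain ⟨c', hc'⟩ : ∃ c', c' = act σ⁻¹ (f b) := ⟨_, rfl⟩
  have hc'code : c' ∈ codeList := by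
    rw [hc']
    exact act_mem_codeList (M24.inv_mem hσ) (hf.code b hbc)
  have hσc' : act σ c' = f b := by
    rw [hc', ← act_mul, mul_inv_cancel, act_one (codeList_lt _ (hf.code b hbc))]
  have htyp : typ c' = 8 := by
    rw [hc', typ_act, hf.typ b hbc]
    simp [typ, hb8]
  obtain ⟨c, hc, hcn⟩ : ∃ c ∈ octadList, nrm c = nrm c' := by
    have hw := weights c' hc'code
    unfold typ at htyp
    rcases hw with h | h | h | h | h
    · rw [h] at htyp; simp at htyp
    · exact ⟨c', mem_octadList.mpr ⟨hc'code, h⟩, rfl⟩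
    · rw [h] at htyp; simp at htyp
    · refine ⟨c' ^^^ full, mem_octadList.mpr ⟨xor_mem_codeList hc'code full_mem_codeList, ?_⟩,
        nrm_xor_full c'⟩
      rw [popc_xor_full, h]
    · rw [h] at htyp; simp at htyp
  have hprof : profOK V c = true := by
    rw [profOK, List.all_eq_true]
    intro vt hvt
    obtain ⟨hv, hvt2⟩ := hV vt hvt
    obtain ⟨hvc, hvn⟩ := hspan vt.1 hv
    rw [beq_iff_eq, ← hvt2]
    calc typ (c ^^^ vt.1) = typ (c' ^^^ vt.1) := typ_eq_of_nrm (by rw [nrm_xor, nrm_xor, hcn])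
      _ = typ (act σ (c' ^^^ vt.1)) := (typ_act _ _).symm
      _ = typ (f b ^^^ act σ vt.1) := by rw [act_xor, hσc']
      _ = typ (f b ^^^ f vt.1) := typ_eq_of_nrm (by rw [nrm_xor, nrm_xor, hvn])
      _ = typ (f (b ^^^ vt.1)) := by rw [hf.add b hbc _ hvc]
      _ = typ (b ^^^ vt.1) := hf.typ _ (xor_mem_codeList hbc hvc)
  obtain ⟨τ, hτ, hτB, hτb⟩ := cert c hc hprof
  refine ⟨σ * τ, M24.mul_mem hσ hτ, ?_⟩
  intro a ha
  rcases List.mem_cons.mp ha with rfl | ha
  · rw [act_mul, act_of_smul (codeList_lt c (mem_octadList.mp hc).1) hτb, ← hσc']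
    exact nrm_act_congr σ hcn
  · rw [act_mul, act_of_smul (codeList_lt a (hB a ha)) (hτB a ha)]
    exact hS a ha

/-! ### Orbit trees -/

/-- The permutations fixing the sets with the listed masks. -/
def StabL (Bs : List Nat) : Subgroup (Equiv.Perm GolayPt) where
  carrier := {g | ∀ a ∈ Bs, g • mk a = mk a}
  one_mem' := fun a _ => one_smul _ _
  mul_mem' := by
    intro g h hg hh a ha
    rw [mul_smul, hh a ha, hg a ha]
  inv_mem' := by
    intro g hg a ha
    rw [inv_smul_eq_iff, hg a ha]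

/-- Checking an orbit tree: each entry `(c, p, s)` claims that the generator number `s` maps
the earlier mask `p` to `c`. -/
def treeOK (gens : List (List Nat)) : List Nat → List (Nat × Nat × Nat) → Bool
  | _, [] => true
  | acc, (c, p, s) :: rest =>
    acc.contains p && mapMask (gens.getD s idT) p == c && treeOK gens (c :: acc) rest

theorem tree_sound (K : Subgroup (Equiv.Perm GolayPt)) (gens : List (List Nat))
    (hg : ∀ t ∈ gens, ∃ g ∈ K, Rep g t) (root : Nat) :
    ∀ (tree : List (Nat × Nat × Nat)) (acc : List Nat),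
      (∀ m ∈ acc, ∃ g ∈ K, g • mk root = mk m) → treeOK gens acc tree = true →
      ∀ e ∈ tree, ∃ g ∈ K, g • mk root = mk e.1 := by
  intro tree
  induction tree with
  | nil => intro acc _ _ e he; simp at he
  | cons row rest ih =>
    intro acc hacc hchk e he
    obtain ⟨c, p, s⟩ := row
    simp only [treeOK, Bool.and_eq_true, beq_iff_eq, List.contains_iff_mem] at hchk
    obtain ⟨⟨hp, hc⟩, hrest⟩ := hchk
    have hrow : ∃ g ∈ K, g • mk root = mk c := by
      obtain ⟨g1, hg1, hr1⟩ := hacc p hp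
      obtain ⟨g2, hg2, hr2⟩ := getD_rep K gens hg s
      refine ⟨g2 * g1, K.mul_mem hg2 hg1, ?_⟩
      rw [mul_smul, hr1, smul_mk hr2, hc]
    rcases List.mem_cons.mp he with rfl | he
    · exact hrow
    · refine ih (c :: acc) ?_ hrest e he
      intro m hm
      rcases List.mem_cons.mp hm with rfl | h
      · exact hrow
      · exact hacc m h

theorem gens_mem (Bs : List Nat) (gens : List (List Nat))
    (hsub : ∀ t ∈ gens, t ∈ LinM24Data.rows.map (fun r => r.2.2))
    (hfix : ∀ t ∈ gens, ∀ a ∈ Bs, mapMask t a = a) :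
    ∀ t ∈ gens, ∃ g ∈ M24 ⊓ StabL Bs, Rep g t := by
  intro t ht
  obtain ⟨r, hr, hrt⟩ := List.mem_map.mp (hsub t ht)
  obtain ⟨g, hgH, hg⟩ := chk_sound H M24Data.tabs tabs_rep LinM24Data.rows [] (by simp)
    LinM24Data.rows_chk r hr
  rw [hrt] at hg
  refine ⟨g, ⟨H_le_M24 hgH, ?_⟩, hg⟩
  intro a ha
  rw [smul_mk hg, hfix t ht a ha]

theorem cert_of_tree (Bs : List Nat) (b : Nat) (V : List (Nat × Nat)) (gens : List (List Nat))
    (tree : List (Nat × Nat × Nat))
    (hgens : ∀ t ∈ gens, ∃ g ∈ M24 ⊓ StabL Bs, Rep g t)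
    (htree : treeOK gens [b] tree = true)
    (hcomp : ∀ c ∈ octadList, profOK V c = true → c ∈ b :: tree.map (fun e => e.1)) :
    ∀ c ∈ octadList, profOK V c = true →
      ∃ τ ∈ M24, (∀ a ∈ Bs, τ • mk a = mk a) ∧ τ • mk b = mk c := by
  intro c hc hp
  rcases List.mem_cons.mp (hcomp c hc hp) with rfl | h
  · exact ⟨1, M24.one_mem, fun a _ => one_smul _ _, one_smul _ _⟩
  · obtain ⟨e, he, rfl⟩ := List.mem_map.mp h
    obtain ⟨g, hg, hge⟩ := tree_sound (M24 ⊓ StabL Bs) gens hgens b tree [b]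
      (by
        intro m hm
        rw [List.mem_singleton] at hm
        subst hm
        exact ⟨1, Subgroup.one_mem _, one_smul _ _⟩) htree e he
    exact ⟨g, hg.1, hg.2, hge⟩

theorem cert_of_unique (Bs : List Nat) (b : Nat) (V : List (Nat × Nat))
    (h : ∀ c ∈ octadList, profOK V c = true → c = b) :
    ∀ c ∈ octadList, profOK V c = true →
      ∃ τ ∈ M24, (∀ a ∈ Bs, τ • mk a = mk a) ∧ τ • mk b = mk c :=
  fun c hc hp => ⟨1, M24.one_mem, fun a _ => one_smul _ _, by rw [h c hc hp, one_smul]⟩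

end Cfsg.Agent.Lib.Helper7.LinM24
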