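import Cfsg.Agent.Lib.Helper7.LinM24

set_option autoImplicit false

namespace Cfsg.Agent.Lib.Helper7.LinM24Chain

open Cfsg Cfsg.Agent.Lib.Helper7.GolayBase Cfsg.Agent.Lib.Helper7.GolayCode
  Cfsg.Agent.Lib.Helper7.M24Mem Cfsg.Agent.Lib.Helper7.GolayRigid
  Cfsg.Agent.Lib.Helper7.GolayPerm Cfsg.Agent.Lib.Helper7.M24Data
  Cfsg.Agent.Lib.Helper7.M24Core Cfsg.Agent.Lib.Helper7.M24Main
  Cfsg.Agent.Lib.Helper7.M24Octad Cfsg.Agent.Lib.Helper7.QuartetStab
  Cfsg.Agent.Lib.Helper7.LinM24Data Cfsg.Agent.Lib.Helper7.LinM24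
  Cfsg.Agent.Lib.Helper7.GolayCount
open scoped Pointwise

/-- The first 1 octads of the chain, latest first. -/
def L1 : List Nat := b1 :: []

theorem hb1 : b1 ∈ octadList :=
  mem_octadList.mpr ⟨inCode_sound (by decide +kernel), by decide +kernel⟩

theorem hL1 : ∀ a ∈ L1, a ∈ codeList := by
  intro a ha
  rw [L1, List.mem_singleton] at ha
  subst ha
  exact (mem_octadList.mp hb1).1

/-- The first 2 octads of the chain, latest first. -/
def L2 : List Nat := b2 :: L1

theorem hb2 : b2 ∈ octadList :=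
  mem_octadList.mpr ⟨inCode_sound (by decide +kernel), by decide +kernel⟩

theorem hL2 : ∀ a ∈ L2, a ∈ codeList := by
  intro a ha
  rcases List.mem_cons.mp ha with rfl | ha
  · exact (mem_octadList.mp hb2).1
  · exact hL1 a ha

/-- The first 3 octads of the chain, latest first. -/
def L3 : List Nat := b3 :: L2

theorem hb3 : b3 ∈ octadList :=
  mem_octadList.mpr ⟨inCode_sound (by decide +kernel), by decide +kernel⟩

theorem hL3 : ∀ a ∈ L3, a ∈ codeList := by
  intro a ha
  rcases List.mem_cons.mp ha with rfl | ha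
  · exact (mem_octadList.mp hb3).1
  · exact hL2 a ha

/-- The first 4 octads of the chain, latest first. -/
def L4 : List Nat := b4 :: L3

theorem hb4 : b4 ∈ octadList :=
  mem_octadList.mpr ⟨inCode_sound (by decide +kernel), by decide +kernel⟩

theorem hL4 : ∀ a ∈ L4, a ∈ codeList := by
  intro a ha
  rcases List.mem_cons.mp ha with rfl | ha
  · exact (mem_octadList.mp hb4).1
  · exact hL3 a ha

/-- The first 5 octads of the chain, latest first. -/
def L5 : List Nat := b5 :: L4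

theorem hb5 : b5 ∈ octadList :=
  mem_octadList.mpr ⟨inCode_sound (by decide +kernel), by decide +kernel⟩

theorem hL5 : ∀ a ∈ L5, a ∈ codeList := by
  intro a ha
  rcases List.mem_cons.mp ha with rfl | ha
  · exact (mem_octadList.mp hb5).1
  · exact hL4 a ha

/-- The first 6 octads of the chain, latest first. -/
def L6 : List Nat := b6 :: L5

theorem hb6 : b6 ∈ octadList :=
  mem_octadList.mpr ⟨inCode_sound (by decide +kernel), by decide +kernel⟩

theorem hL6 : ∀ a ∈ L6, a ∈ codeList := by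
  intro a ha
  rcases List.mem_cons.mp ha with rfl | ha
  · exact (mem_octadList.mp hb6).1
  · exact hL5 a ha

/-- The first 7 octads of the chain, latest first. -/
def L7 : List Nat := b7 :: L6

theorem hb7 : b7 ∈ octadList :=
  mem_octadList.mpr ⟨inCode_sound (by decide +kernel), by decide +kernel⟩

theorem hL7 : ∀ a ∈ L7, a ∈ codeList := by
  intro a ha
  rcases List.mem_cons.mp ha with rfl | ha
  · exact (mem_octadList.mp hb7).1
  · exact hL6 a ha

/-- The first 8 octads of the chain, latest first. -/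
def L8 : List Nat := b8 :: L7

theorem hb8 : b8 ∈ octadList :=
  mem_octadList.mpr ⟨inCode_sound (by decide +kernel), by decide +kernel⟩

theorem hL8 : ∀ a ∈ L8, a ∈ codeList := by
  intro a ha
  rcases List.mem_cons.mp ha with rfl | ha
  · exact (mem_octadList.mp hb8).1
  · exact hL7 a ha

/-- The first 9 octads of the chain, latest first. -/
def L9 : List Nat := b9 :: L8

theorem hb9 : b9 ∈ octadList :=
  mem_octadList.mpr ⟨inCode_sound (by decide +kernel), by decide +kernel⟩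

theorem hL9 : ∀ a ∈ L9, a ∈ codeList := by
  intro a ha
  rcases List.mem_cons.mp ha with rfl | ha
  · exact (mem_octadList.mp hb9).1
  · exact hL8 a ha

/-- The first 10 octads of the chain, latest first. -/
def L10 : List Nat := b10 :: L9

theorem hb10 : b10 ∈ octadList :=
  mem_octadList.mpr ⟨inCode_sound (by decide +kernel), by decide +kernel⟩

theorem hL10 : ∀ a ∈ L10, a ∈ codeList := by
  intro a ha
  rcases List.mem_cons.mp ha with rfl | ha
  · exact (mem_octadList.mp hb10).1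
  · exact hL9 a ha

/-- The first 11 octads of the chain, latest first. -/
def L11 : List Nat := b11 :: L10

theorem hb11 : b11 ∈ octadList :=
  mem_octadList.mpr ⟨inCode_sound (by decide +kernel), by decide +kernel⟩

theorem hL11 : ∀ a ∈ L11, a ∈ codeList := by
  intro a ha
  rcases List.mem_cons.mp ha with rfl | ha
  · exact (mem_octadList.mp hb11).1
  · exact hL10 a ha

theorem stage1 {f : Nat → Nat} (hf : Good f) :
    ∃ σ ∈ M24, ∀ a ∈ L1, nrm (act σ a) = nrm (f a) := by
  refine step hf [] b1 [] (by simp) hb1 (by simp) ?_ M24.one_mem (by simp)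
  intro c hc _
  obtain ⟨g, hg, h⟩ := octad_transitive ((mem_octads_iff _).mpr ⟨b1, hb1, rfl⟩)
    ((mem_octads_iff _).mpr ⟨c, hc, rfl⟩)
  exact ⟨g, hg, by simp, h⟩

theorem hV2 : ∀ vt ∈ V2, vt.1 ∈ spanList L1 ∧ typ (b2 ^^^ vt.1) = vt.2 := by
  decide +kernel

theorem gens2_sub : ∀ t ∈ gens2, t ∈ LinM24Data.rows.map (fun r => r.2.2) := by
  decide +kernel

theorem gens2_fix : ∀ t ∈ gens2, ∀ a ∈ L1, mapMask t a = a := by decide +kernel

theorem tree2_ok : treeOK gens2 [b2] tree2 = true := by decide +kernel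

theorem comp2 : ∀ c ∈ octadList, profOK V2 c = true →
    c ∈ b2 :: tree2.map (fun e => e.1) := by decide +kernel

theorem stage2 {f : Nat → Nat} (hf : Good f) :
    ∃ σ ∈ M24, ∀ a ∈ L2, nrm (act σ a) = nrm (f a) := by
  obtain ⟨σ, hσ, h⟩ := stage1 hf
  exact step hf L1 b2 V2 hL1 hb2 hV2
    (cert_of_tree L1 b2 V2 gens2 tree2
      (gens_mem L1 gens2 gens2_sub gens2_fix) tree2_ok comp2) hσ h

theorem hV3 : ∀ vt ∈ V3, vt.1 ∈ spanList L2 ∧ typ (b3 ^^^ vt.1) = vt.2 := by
  decide +kernel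

theorem gens3_sub : ∀ t ∈ gens3, t ∈ LinM24Data.rows.map (fun r => r.2.2) := by
  decide +kernel

theorem gens3_fix : ∀ t ∈ gens3, ∀ a ∈ L2, mapMask t a = a := by decide +kernel

theorem tree3_ok : treeOK gens3 [b3] tree3 = true := by decide +kernel

theorem comp3 : ∀ c ∈ octadList, profOK V3 c = true →
    c ∈ b3 :: tree3.map (fun e => e.1) := by decide +kernel

theorem stage3 {f : Nat → Nat} (hf : Good f) :
    ∃ σ ∈ M24, ∀ a ∈ L3, nrm (act σ a) = nrm (f a) := by
  obtain ⟨σ, hσ, h⟩ := stage2 hf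
  exact step hf L2 b3 V3 hL2 hb3 hV3
    (cert_of_tree L2 b3 V3 gens3 tree3
      (gens_mem L2 gens3 gens3_sub gens3_fix) tree3_ok comp3) hσ h

theorem hV4 : ∀ vt ∈ V4, vt.1 ∈ spanList L3 ∧ typ (b4 ^^^ vt.1) = vt.2 := by
  decide +kernel

theorem gens4_sub : ∀ t ∈ gens4, t ∈ LinM24Data.rows.map (fun r => r.2.2) := by
  decide +kernel

theorem gens4_fix : ∀ t ∈ gens4, ∀ a ∈ L3, mapMask t a = a := by decide +kernel

theorem tree4_ok : treeOK gens4 [b4] tree4 = true := by decide +kernel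

theorem comp4 : ∀ c ∈ octadList, profOK V4 c = true →
    c ∈ b4 :: tree4.map (fun e => e.1) := by decide +kernel

theorem stage4 {f : Nat → Nat} (hf : Good f) :
    ∃ σ ∈ M24, ∀ a ∈ L4, nrm (act σ a) = nrm (f a) := by
  obtain ⟨σ, hσ, h⟩ := stage3 hf
  exact step hf L3 b4 V4 hL3 hb4 hV4
    (cert_of_tree L3 b4 V4 gens4 tree4
      (gens_mem L3 gens4 gens4_sub gens4_fix) tree4_ok comp4) hσ h

theorem hV5 : ∀ vt ∈ V5, vt.1 ∈ spanList L4 ∧ typ (b5 ^^^ vt.1) = vt.2 := by
  decide +kernel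

theorem uniq5 : ∀ c ∈ octadList, profOK V5 c = true → c = b5 := by decide +kernel

theorem stage5 {f : Nat → Nat} (hf : Good f) :
    ∃ σ ∈ M24, ∀ a ∈ L5, nrm (act σ a) = nrm (f a) := by
  obtain ⟨σ, hσ, h⟩ := stage4 hf
  exact step hf L4 b5 V5 hL4 hb5 hV5
    (cert_of_unique L4 b5 V5 uniq5) hσ h

theorem hV6 : ∀ vt ∈ V6, vt.1 ∈ spanList L5 ∧ typ (b6 ^^^ vt.1) = vt.2 := by
  decide +kernel

theorem uniq6 : ∀ c ∈ octadList, profOK V6 c = true → c = b6 := by decide +kernel

theorem stage6 {f : Nat → Nat} (hf : Good f) :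
    ∃ σ ∈ M24, ∀ a ∈ L6, nrm (act σ a) = nrm (f a) := by
  obtain ⟨σ, hσ, h⟩ := stage5 hf
  exact step hf L5 b6 V6 hL5 hb6 hV6
    (cert_of_unique L5 b6 V6 uniq6) hσ h

theorem hV7 : ∀ vt ∈ V7, vt.1 ∈ spanList L6 ∧ typ (b7 ^^^ vt.1) = vt.2 := by
  decide +kernel

theorem uniq7 : ∀ c ∈ octadList, profOK V7 c = true → c = b7 := by decide +kernel

theorem stage7 {f : Nat → Nat} (hf : Good f) :
    ∃ σ ∈ M24, ∀ a ∈ L7, nrm (act σ a) = nrm (f a) := by
  obtain ⟨σ, hσ, h⟩ := stage6 hf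
  exact step hf L6 b7 V7 hL6 hb7 hV7
    (cert_of_unique L6 b7 V7 uniq7) hσ h

theorem hV8 : ∀ vt ∈ V8, vt.1 ∈ spanList L7 ∧ typ (b8 ^^^ vt.1) = vt.2 := by
  decide +kernel

theorem uniq8 : ∀ c ∈ octadList, profOK V8 c = true → c = b8 := by decide +kernel

theorem stage8 {f : Nat → Nat} (hf : Good f) :
    ∃ σ ∈ M24, ∀ a ∈ L8, nrm (act σ a) = nrm (f a) := by
  obtain ⟨σ, hσ, h⟩ := stage7 hf
  exact step hf L7 b8 V8 hL7 hb8 hV8
    (cert_of_unique L7 b8 V8 uniq8) hσ h

theorem hV9 : ∀ vt ∈ V9, vt.1 ∈ spanList L8 ∧ typ (b9 ^^^ vt.1) = vt.2 := by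
  decide +kernel

theorem uniq9 : ∀ c ∈ octadList, profOK V9 c = true → c = b9 := by decide +kernel

theorem stage9 {f : Nat → Nat} (hf : Good f) :
    ∃ σ ∈ M24, ∀ a ∈ L9, nrm (act σ a) = nrm (f a) := by
  obtain ⟨σ, hσ, h⟩ := stage8 hf
  exact step hf L8 b9 V9 hL8 hb9 hV9
    (cert_of_unique L8 b9 V9 uniq9) hσ h

theorem hV10 : ∀ vt ∈ V10, vt.1 ∈ spanList L9 ∧ typ (b10 ^^^ vt.1) = vt.2 := by
  decide +kernel

theorem uniq10 : ∀ c ∈ octadList, profOK V10 c = true → c = b10 := by decide +kernel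

theorem stage10 {f : Nat → Nat} (hf : Good f) :
    ∃ σ ∈ M24, ∀ a ∈ L10, nrm (act σ a) = nrm (f a) := by
  obtain ⟨σ, hσ, h⟩ := stage9 hf
  exact step hf L9 b10 V10 hL9 hb10 hV10
    (cert_of_unique L9 b10 V10 uniq10) hσ h

theorem hV11 : ∀ vt ∈ V11, vt.1 ∈ spanList L10 ∧ typ (b11 ^^^ vt.1) = vt.2 := by
  decide +kernel

theorem uniq11 : ∀ c ∈ octadList, profOK V11 c = true → c = b11 := by decide +kernel

theorem stage11 {f : Nat → Nat} (hf : Good f) :
    ∃ σ ∈ M24, ∀ a ∈ L11, nrm (act σ a) = nrm (f a) := by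
  obtain ⟨σ, hσ, h⟩ := stage10 hf
  exact step hf L10 b11 V11 hL10 hb11 hV11
    (cert_of_unique L10 b11 V11 uniq11) hσ h

theorem code_sub : ∀ c ∈ codeList, c ∈ spanList (full :: L11) :=
  spanList_subset (by decide +kernel : ∀ b ∈ basisMasks, b ∈ spanList (full :: L11))

/-- A weight-type preserving additive map of the code fixing the all-ones word agrees with an
element of `M24` modulo the all-ones word. -/
theorem main {f : Nat → Nat} (hf : Good f) (hfull : f full = full) :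
    ∃ σ ∈ M24, ∀ c ∈ codeList, nrm (act σ c) = nrm (f c) := by
  obtain ⟨σ, hσ, h⟩ := stage11 hf
  refine ⟨σ, hσ, fun c hc => ?_⟩
  have hspan := span_agree hf (σ := σ) (Bs := full :: L11)
    (by
      intro a ha
      rcases List.mem_cons.mp ha with rfl | ha
      · exact full_mem_codeList
      · exact hL11 a ha)
    (by
      intro a ha
      rcases List.mem_cons.mp ha with rfl | ha
      · rw [act_full, hfull]
      · exact h a ha)
  exact (hspan c (code_sub c hc)).2

theorem wd_act (σ : Equiv.Perm GolayPt) (c : Nat) :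
    (fun p => wd c (σ.symm p)) = wd (act σ c) := by
  funext p
  have h1 : p ∈ mk (act σ c) ↔ σ.symm p ∈ mk c := by
    rw [mk_act, ← Finset.inv_smul_mem_iff]
    rfl
  unfold wd
  rw [mem_mk, mem_mk] at h1
  by_cases h : c.testBit (idx (σ.symm p)) = true
  · rw [if_pos h, if_pos (h1.mpr h)]
  · rw [if_neg h, if_neg (fun h' => h (h1.mp h'))]

/-- A linear automorphism of the Golay code fixing the all-ones word and mapping every word
into its orbit under `M24` modulo the all-ones word is induced by an element of `M24`,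
modulo the all-ones word. -/
theorem lin_main (x : ↥golayCode ≃ₗ[ZMod 2] ↥golayCode)
    (h1 : ∀ e : ↥golayCode, (e : GolayPt → ZMod 2) = (fun _ => (1 : ZMod 2)) → x e = e)
    (horb : ∀ c : ↥golayCode, ∃ σ ∈ M24,
      ((x c : ↥golayCode) : GolayPt → ZMod 2) = (fun p => (c : GolayPt → ZMod 2) (σ.symm p)) ∨
      ((x c : ↥golayCode) : GolayPt → ZMod 2) =
        (fun p => (c : GolayPt → ZMod 2) (σ.symm p)) + fun _ => (1 : ZMod 2)) :
    ∃ σ ∈ M24, ∀ c : ↥golayCode,
      ((x c : ↥golayCode) : GolayPt → ZMod 2) = (fun p => (c : GolayPt → ZMod 2) (σ.symm p)) ∨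
      ((x c : ↥golayCode) : GolayPt → ZMod 2) =
        (fun p => (c : GolayPt → ZMod 2) (σ.symm p)) + fun _ => (1 : ZMod 2) := by
  classical
  have hone : (fun _ : GolayPt => (1 : ZMod 2)) = wd full := wd_full.symm
  have hex : ∀ c ∈ codeList, ∃ c' ∈ codeList,
      ∀ hc : wd c ∈ golayCode, wd c' = ((x ⟨wd c, hc⟩ : ↥golayCode) : GolayPt → ZMod 2) := by
    intro c hc
    obtain ⟨c', hc', h⟩ := (mem_golayCode_iff _).mp (x ⟨wd c, wd_mem_golayCode c hc⟩).2
    exact ⟨c', hc', fun _ => h⟩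
  let f : Nat → Nat := fun c => if hc : c ∈ codeList then (hex c hc).choose else 0
  have hf1 : ∀ c ∈ codeList, f c ∈ codeList := by
    intro c hc
    simp only [f, dif_pos hc]
    exact (hex c hc).choose_spec.1
  have hf2 : ∀ c (hc : c ∈ codeList),
      wd (f c) = ((x ⟨wd c, wd_mem_golayCode c hc⟩ : ↥golayCode) : GolayPt → ZMod 2) := by
    intro c hc
    simp only [f, dif_pos hc]
    exact (hex c hc).choose_spec.2 _
  have hcases : ∀ c ∈ codeList, ∃ σ ∈ M24, f c = act σ c ∨ f c = act σ c ^^^ full := by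
    intro c hc
    obtain ⟨σ, hσ, h⟩ := horb ⟨wd c, wd_mem_golayCode c hc⟩
    refine ⟨σ, hσ, ?_⟩
    rw [← hf2 c hc] at h
    simp only [wd_act] at h
    rcases h with h | h
    · exact Or.inl (wd_injOn (codeList_lt _ (hf1 c hc)) (act_lt _ _) h)
    · right
      rw [hone, ← wd_xor] at h
      exact wd_injOn (codeList_lt _ (hf1 c hc))
        (Nat.xor_lt_two_pow (act_lt _ _) (by decide)) h
  have hgood : Good f := by
    refine ⟨hf1, ?_, ?_⟩
    · intro a ha b hb
      have hab := xor_mem_codeList ha hb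
      apply wd_injOn (codeList_lt _ (hf1 _ hab))
        (Nat.xor_lt_two_pow (codeList_lt _ (hf1 a ha)) (codeList_lt _ (hf1 b hb)))
      rw [hf2 _ hab, wd_xor (f a) (f b), hf2 a ha, hf2 b hb]
      have h3 : (⟨wd (a ^^^ b), wd_mem_golayCode _ hab⟩ : ↥golayCode) =
          ⟨wd a, wd_mem_golayCode a ha⟩ + ⟨wd b, wd_mem_golayCode b hb⟩ :=
        Subtype.ext (wd_xor a b)
      rw [h3, map_add]
      rfl
    · intro c hc
      obtain ⟨σ, -, h | h⟩ := hcases c hc
      · rw [h, typ_act]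
      · rw [h, typ_xor_full, typ_act]
  have hfull : f full = full := by
    apply wd_injOn (codeList_lt _ (hf1 _ full_mem_codeList)) (by decide)
    rw [hf2 _ full_mem_codeList, h1 _ hone.symm]
  obtain ⟨σ, hσ, h⟩ := main hgood hfull
  refine ⟨σ, hσ, ?_⟩
  intro c
  obtain ⟨m, hm, hmc⟩ := (mem_golayCode_iff _).mp c.2
  have hc : c = ⟨wd m, wd_mem_golayCode m hm⟩ := Subtype.ext hmc.symm
  rw [hc, ← hf2 m hm]
  simp only [wd_act]
  rcases nrm_eq (h m hm) with h' | h'
  · left
    rw [h']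
  · right
    have h'' : f m = act σ m ^^^ full := by
      rw [h', Nat.xor_assoc, Nat.xor_self, Nat.xor_zero]
    rw [h'', wd_xor, hone]

end Cfsg.Agent.Lib.Helper7.LinM24Chain
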