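import Cfsg.Agent.Lib.Helper7.M11Inv
import Cfsg.Agent.Lib.Helper7.M11PairData
import Cfsg.Agent.Lib.Helper7.M12Hexad2

set_option autoImplicit false

namespace Cfsg.Agent.Lib.Helper7.M11Pair

open Cfsg Cfsg.Agent.Lib.Helper7.GolayBase Cfsg.Agent.Lib.Helper7.GolayCode
  Cfsg.Agent.Lib.Helper7.M24Mem Cfsg.Agent.Lib.Helper7.GolayRigid
  Cfsg.Agent.Lib.Helper7.GolayPerm Cfsg.Agent.Lib.Helper7.ChainGen
  Cfsg.Agent.Lib.Helper7.M24Data Cfsg.Agent.Lib.Helper7.M24Core
  Cfsg.Agent.Lib.Helper7.M24Main Cfsg.Agent.Lib.Helper7.GolayCount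
  Cfsg.Agent.Lib.Helper7.GolayRigid2 Cfsg.Agent.Lib.Helper7.M12Core
  Cfsg.Agent.Lib.Helper7.M12Main Cfsg.Agent.Lib.Helper7.M12Thm
  Cfsg.Agent.Lib.Helper7.M9Struct Cfsg.Agent.Lib.Helper7.M24Octad
  Cfsg.Agent.Lib.Helper7.M11Inv Cfsg.Agent.Lib.Helper7.M11PairData
  Cfsg.Agent.Lib.Helper7.M12Hexad Cfsg.Agent.Lib.Helper7.M12Hexad2
  Cfsg.Agent.Lib.Helper7.SimpleOn
open scoped Pointwise

/-- The base pair outside the base dodecad. -/
def pair0 : Finset GolayPt := {pt 5, pt 7}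

/-- The stabiliser of the base pair in the point stabiliser. -/
def L0 : Subgroup (Equiv.Perm GolayPt) :=
  K11 ⊓ MulAction.stabilizer (Equiv.Perm GolayPt) pair0

/-- Table test for the pair. -/
def pairT (t : List Nat) : Bool :=
  (t.getD 5 0 == 5 && t.getD 7 0 == 7) || (t.getD 5 0 == 7 && t.getD 7 0 == 5)

theorem t120_sub : ∀ t ∈ t120, t ∈ M12Data.tabs ++ M11PairData.rows.map (fun r => r.2.2) := by
  decide +kernel

theorem t120_chk : ∀ t ∈ t120, (presT d0 t && hit [0] 0 0 t && pairT t) = true := by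
  decide +kernel

theorem t120_nodup : t120.Nodup := by decide +kernel

theorem t120_length : t120.length = 120 := by decide +kernel

theorem t120_rep : ∀ t ∈ t120, ∃ g ∈ L0, Rep g t := by
  intro t ht
  have hchk := t120_chk t ht
  rw [Bool.and_eq_true, Bool.and_eq_true] at hchk
  obtain ⟨⟨hc1, hc2⟩, hc3⟩ := hchk
  have hex : ∃ g ∈ H, Rep g t := by
    rcases List.mem_append.mp (t120_sub t ht) with h | h
    · exact tabs12_rep t h
    · obtain ⟨r, hr, rfl⟩ := List.mem_map.mp h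
      exact chk_sound H M12Data.tabs tabs12_rep M11PairData.rows [] (by simp)
        M11PairData.rows_chk r hr
  obtain ⟨g, hgH, hg⟩ := hex
  obtain ⟨h1, -⟩ := hit_spec hg (F := [0]) (by decide) (by decide) hc2
  refine ⟨g, ⟨⟨⟨H_le_M24 hgH, mem_PresG.mpr (pres_of_presT hg hc1)⟩, h1⟩, ?_⟩, hg⟩
  show g • pair0 = pair0
  rw [pair0, Finset.smul_finset_insert, Finset.smul_finset_singleton]
  simp only [pairT, Bool.or_eq_true, Bool.and_eq_true, beq_iff_eq] at hc3
  rcases hc3 with ⟨h5, h7⟩ | ⟨h5, h7⟩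
  · rw [Equiv.Perm.smul_def, Equiv.Perm.smul_def, hg.apply_eq (by norm_num) h5,
      hg.apply_eq (by norm_num) h7]
  · rw [Equiv.Perm.smul_def, Equiv.Perm.smul_def, hg.apply_eq (by norm_num) h5,
      hg.apply_eq (by norm_num) h7, Finset.pair_comm]

theorem card_L0_ge : 120 ≤ Nat.card ↥L0 := by
  have h := ncard_reps t120 t120_nodup (fun t ht => (t120_rep t ht).imp fun g hg => hg.2)
  rw [t120_length] at h
  have hsub : {g : Equiv.Perm GolayPt | ∃ t ∈ t120, Rep g t} ⊆
      (L0 : Set (Equiv.Perm GolayPt)) := by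
    rintro g ⟨t, ht, hgt⟩
    obtain ⟨g', hg', hgt'⟩ := t120_rep t ht
    rw [hgt.ext hgt']
    exact hg'
  have := Set.ncard_le_ncard hsub (Set.toFinite _)
  rw [h, ← Nat.card_coe_set_eq] at this
  exact this

theorem m0_mem : m0 ∈ octadList :=
  mem_octadList.mpr ⟨inCode_sound (by decide +kernel), by decide +kernel⟩

theorem m0_uniq : ∀ c ∈ octadList, c.testBit 5 = true → c.testBit 7 = true →
    c.testBit 0 = true → popc (c &&& d0) = 6 → c = m0 := by decide +kernel

theorem pair0_sub : pair0 ⊆ mk m0 := by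
  intro x hx
  simp only [pair0, Finset.mem_insert, Finset.mem_singleton] at hx
  rcases hx with rfl | rfl <;> rw [mem_mk, idx_pt (by norm_num)] <;> decide

theorem smul_m0 {g : Equiv.Perm GolayPt} (hg : g ∈ L0) : g • mk m0 = mk m0 := by
  obtain ⟨⟨hgK, hg0⟩, hgp⟩ := hg
  have hgM : g ∈ M24 := hgK.1
  have ho : g • mk m0 ∈ octads :=
    smul_mem_octads hgM ((mem_octads_iff _).mpr ⟨m0, m0_mem, rfl⟩)
  obtain ⟨c, hc, hceq⟩ := (mem_octads_iff _).mp ho
  have hpair : pair0 ⊆ g • mk m0 := by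
    have h1 : g • pair0 ⊆ g • mk m0 := Finset.smul_finset_subset_smul_finset pair0_sub
    rwa [MulAction.mem_stabilizer_iff.mp hgp] at h1
  have h5 : c.testBit 5 = true := by
    have : pt 5 ∈ mk c := by rw [hceq]; exact hpair (by simp [pair0])
    rwa [mem_mk, idx_pt (by norm_num)] at this
  have h7 : c.testBit 7 = true := by
    have : pt 7 ∈ mk c := by rw [hceq]; exact hpair (by simp [pair0])
    rwa [mem_mk, idx_pt (by norm_num)] at this
  have h0 : c.testBit 0 = true := by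
    have h1 : pt 0 ∈ mk m0 := by rw [mem_mk, idx_pt (by norm_num)]; decide
    have h2 : g • pt 0 ∈ g • mk m0 := Finset.smul_mem_smul_finset h1
    have h3 : g • pt 0 = pt 0 := hg0 0 (by simp)
    rw [h3, ← hceq, mem_mk, idx_pt (by norm_num)] at h2
    exact h2
  have h6 : popc (c &&& d0) = 6 := by
    rw [← card_inter_mk, hceq]
    have hd : g • mk d0 = mk d0 := (mem_K12.mp hgK).2
    rw [← hd, ← Finset.smul_finset_inter, Finset.card_smul_finset, card_inter_mk]
    decide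
  rw [← hceq, m0_uniq c hc h5 h7 h0 h6]

theorem mem_delta : ∀ p : GolayPt,
    (delta.testBit (idx p) = true ↔
      (m0.testBit (idx p) = true ∧ d0.testBit (idx p) = true ∧ p ≠ pt 0)) := by
  decide +kernel

theorem delta_sub : mk delta ⊆ mk d0 := by
  intro p hp
  rw [mem_mk] at hp ⊢
  exact ((mem_delta p).mp hp).2.1

theorem delta_card : (mk delta).card = 5 := by
  rw [card_mk]; decide

theorem smul_delta (g : ↥L0) (x : GolayPt) (hx : x ∈ mk delta) : g • x ∈ mk delta := by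
  rw [mem_mk] at hx ⊢
  obtain ⟨h1, h2, h3⟩ := (mem_delta x).mp hx
  show delta.testBit (idx ((g : Equiv.Perm GolayPt) x)) = true
  refine (mem_delta _).mpr ⟨?_, ?_, ?_⟩
  · have hmem : (g : Equiv.Perm GolayPt) • x ∈ (g : Equiv.Perm GolayPt) • mk m0 :=
      Finset.smul_mem_smul_finset (mem_mk.mpr h1)
    rw [smul_m0 g.2] at hmem
    exact mem_mk.mp hmem
  · exact mem_mk.mp ((K12_maps g.2.1.1 x).mpr (mem_mk.mpr h2))
  · intro h
    have h0 : (g : Equiv.Perm GolayPt) (pt 0) = pt 0 := g.2.1.2 0 (by simp)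
    rw [← h0] at h
    exact h3 ((g : Equiv.Perm GolayPt).injective h)

/-- The base pair stabiliser is the symmetric group of degree five. -/
theorem L0_iso : Nonempty (↥L0 ≃* Equiv.Perm (Fin 5)) := by
  letI : MulAction ↥L0 ↥(mk delta) := subAction (mk delta) smul_delta
  have hinj : Function.Injective (MulAction.toPermHom ↥L0 ↥(mk delta)) := by
    rw [← MonoidHom.ker_eq_bot_iff, eq_bot_iff]
    intro g hg
    rw [MonoidHom.mem_ker] at hg
    rw [Subgroup.mem_bot]
    apply Subtype.ext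
    refine eq_one_of_fix_five mk_d0_mem g.2.1.1.1 (mem_K12.mp g.2.1.1).2 (mk delta) delta_sub
      (by rw [delta_card]) ?_
    intro p hp
    exact congrArg (fun e : Equiv.Perm ↥(mk delta) => ((e ⟨p, hp⟩ : ↥(mk delta)) : GolayPt)) hg
  have hperm : Nat.card (Equiv.Perm ↥(mk delta)) = 120 := by
    rw [Nat.card_eq_fintype_card, Fintype.card_perm, Fintype.card_coe, delta_card]
    rfl
  have hle : Nat.card ↥L0 ≤ 120 := by
    have := Nat.card_le_card_of_injective _ hinj
    rwa [hperm] at this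
  have hcard : Nat.card ↥L0 = Nat.card (Equiv.Perm ↥(mk delta)) := by
    rw [hperm]
    exact le_antisymm hle card_L0_ge
  have hbij := (Nat.bijective_iff_injective_and_card _).mpr ⟨hinj, hcard⟩
  exact ⟨(MulEquiv.ofBijective _ hbij).trans
    (Equiv.permCongrHom (Finset.equivFinOfCardEq delta_card))⟩

/-- **The pair stabiliser in the twelve-point action of the point stabiliser of a dodecad
stabiliser is the symmetric group of degree five.** -/
theorem pair_stab (d : Finset GolayPt) (hd : d ∈ dodecads) (p q q' : GolayPt) (hp : p ∈ d)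
    (hq : q ∉ d) (hq' : q' ∉ d) (hqq' : q ≠ q') :
    Nonempty (↥(MulAction.stabilizer M24 d ⊓ MulAction.stabilizer M24 p ⊓
      MulAction.stabilizer M24 ({q, q'} : Finset GolayPt)) ≃* Equiv.Perm (Fin 5)) := by
  obtain ⟨t, ht, htd, htp, hm⟩ := exists_to_base11 hd hp [q, q'] (by simp [hqq'])
    (by simp [hq, hq']) (by simp)
  simp [cbase] at hm
  obtain ⟨htq, htq'⟩ := hm
  have hpair : t • ({q, q'} : Finset GolayPt) = pair0 := by
    rw [Finset.smul_finset_insert, Finset.smul_finset_singleton, Equiv.Perm.smul_def,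
      Equiv.Perm.smul_def, htq, htq', pair0]
  have hti : t⁻¹ (pt 0) = p := by rw [← htp]; exact pinv t p
  have h1 : ∀ y : ↥M24, y ∈ MulAction.stabilizer M24 d ⊓ MulAction.stabilizer M24 p ⊓
      MulAction.stabilizer M24 ({q, q'} : Finset GolayPt) →
      t * (y : Equiv.Perm GolayPt) * t⁻¹ ∈ L0 := by
    intro y hy
    have hyd : (y : Equiv.Perm GolayPt) • d = d := hy.1.1
    have hyp : (y : Equiv.Perm GolayPt) p = p := hy.1.2
    have hyq : (y : Equiv.Perm GolayPt) • ({q, q'} : Finset GolayPt) = {q, q'} := hy.2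
    refine ⟨⟨mem_K12.mpr ⟨M24.mul_mem (M24.mul_mem ht y.2) (M24.inv_mem ht), ?_⟩, ?_⟩, ?_⟩
    · rw [mul_smul, mul_smul, ← htd, inv_smul_smul, hyd]
    · intro f hf
      simp only [List.mem_cons, List.not_mem_nil, or_false] at hf
      subst hf
      show t ((y : Equiv.Perm GolayPt) (t⁻¹ (pt 0))) = pt 0
      rw [hti, hyp, htp]
    · show (t * (y : Equiv.Perm GolayPt) * t⁻¹) • pair0 = pair0
      rw [mul_smul, mul_smul, ← hpair, inv_smul_smul, hyq]
  have h2a : ∀ w ∈ L0, t⁻¹ * w * t ∈ M24 := fun w hw =>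
    M24.mul_mem (M24.mul_mem (M24.inv_mem ht) hw.1.1.1) ht
  have h2b : ∀ (w : Equiv.Perm GolayPt) (hw : w ∈ L0),
      (⟨t⁻¹ * w * t, h2a w hw⟩ : ↥M24) ∈
        MulAction.stabilizer M24 d ⊓ MulAction.stabilizer M24 p ⊓
          MulAction.stabilizer M24 ({q, q'} : Finset GolayPt) := by
    intro w hw
    have hwd : w • mk d0 = mk d0 := (mem_K12.mp hw.1.1).2
    have hwp : w • pair0 = pair0 := MulAction.mem_stabilizer_iff.mp hw.2
    refine ⟨⟨?_, ?_⟩, ?_⟩
    · show (t⁻¹ * w * t) • d = d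
      rw [mul_smul, mul_smul, htd, hwd, ← htd, inv_smul_smul]
    · show t⁻¹ (w (t p)) = p
      rw [htp, hw.1.2 0 (by simp), hti]
    · show (t⁻¹ * w * t) • ({q, q'} : Finset GolayPt) = {q, q'}
      rw [mul_smul, mul_smul, hpair, hwp, ← hpair, inv_smul_smul]
  obtain ⟨e⟩ := L0_iso
  exact ⟨(conjEquiv t _ L0 h1 h2a h2b).trans e⟩

end Cfsg.Agent.Lib.Helper7.M11Pair
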