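import Cfsg.Agent.Lib.Helper7.M21Data
import Cfsg.Agent.Lib.Helper7.F4
import Cfsg.Agent.Lib.Helper5.SLGen
import Cfsg.Agent.Lib.Helper43.SLCard

set_option autoImplicit false

namespace Cfsg.Agent.Lib.Helper7.M21

open Cfsg Cfsg.Agent.Lib.Helper7.GolayBase Cfsg.Agent.Lib.Helper7.GolayPerm
  Cfsg.Agent.Lib.Helper7.ChainGen Cfsg.Agent.Lib.Helper7.M24Data Cfsg.Agent.Lib.Helper7.M24Core
  Cfsg.Agent.Lib.Helper7.M24Main Cfsg.Agent.Lib.Helper7.M21Data Cfsg.Agent.Lib.Helper7.F4
open scoped LinearAlgebra.Projectivization Matrix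

/-- Code of the coordinate `k` of the point with index `x`. -/
def cv (x k : Nat) : Nat := (cvL.getD x []).getD k 0

/-- Table of the transvection `1 + c E_ij`. -/
def gt (i j c : Nat) : List Nat := gtL.getD (12 * i + 4 * j + c) []

/-- The effect of a transvection on codes. -/
def tvC (i j c : Nat) (u : Nat → Nat) (k : Nat) : Nat :=
  if k = i then gadd (u i) (gmul c (u j)) else u k

/-- The base triple. -/
abbrev B3 : List Nat := [1, 0, 23]

theorem cv_lt : ∀ x < 24, ∀ k < 3, cv x k < 4 := by decide +kernel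

theorem cv_ne : ∀ x < 24, ∃ k < 3, cv x k ≠ 0 := by decide +kernel

set_option synthInstance.maxSize 2048 in
theorem cv_inj : ∀ x < 24, x ∉ B3 → ∀ y < 24, y ∉ B3 → ∀ s < 4, s ≠ 0 →
    (∀ k < 3, gmul s (cv y k) = cv x k) → x = y := by decide +kernel

set_option synthInstance.maxSize 2048 in
theorem gt_sub : ∀ i < 3, ∀ j < 3, i ≠ j → ∀ c < 4, c ≠ 0 →
    gt i j c ∈ M21Data.rows.map (fun r => r.2.2) := by decide +kernel

/-- The check for one transvection and one point. -/
def actOK (i j c x : Nat) : Bool :=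
  if B3.contains x then (gt i j c).getD x 0 == x
  else !B3.contains ((gt i j c).getD x 0) && [1, 2, 3].any (fun s =>
    (List.range 3).all (fun k => gmul s (cv ((gt i j c).getD x 0) k) == tvC i j c (cv x) k))

set_option synthInstance.maxSize 2048 in
theorem gt_actOK : ∀ i < 3, ∀ j < 3, i ≠ j → ∀ c < 4, c ≠ 0 → ∀ x < 24,
    actOK i j c x = true := by
  decide +kernel

theorem actOK_spec {i j c x : Nat} (h : actOK i j c x = true) :
    (x ∈ B3 → (gt i j c).getD x 0 = x) ∧ (x ∉ B3 → (gt i j c).getD x 0 ∉ B3 ∧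
      ∃ s < 4, s ≠ 0 ∧ ∀ k < 3, gmul s (cv ((gt i j c).getD x 0) k) = tvC i j c (cv x) k) := by
  unfold actOK at h
  by_cases hx : x ∈ B3
  · have hc : B3.contains x = true := by simpa using hx
    rw [if_pos hc] at h
    exact ⟨fun _ => by simpa using h, fun h' => absurd hx h'⟩
  · have hc : ¬ (B3.contains x = true) := by simpa using hx
    rw [if_neg hc] at h
    refine ⟨fun h' => absurd h' hx, fun _ => ?_⟩
    rw [Bool.and_eq_true, List.any_eq_true] at h
    obtain ⟨h1, s, hs, h2⟩ := h
    refine ⟨by simpa using h1, s, ?_, ?_, ?_⟩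
    · simp only [List.mem_cons, List.not_mem_nil, or_false] at hs; omega
    · simp only [List.mem_cons, List.not_mem_nil, or_false] at hs; omega
    · intro k hk
      rw [List.all_eq_true] at h2
      simpa using h2 k (List.mem_range.mpr hk)

theorem gt_act {i j : Nat} (hi : i < 3) (hj : j < 3) (hij : i ≠ j) {c : Nat} (hc : c < 4)
    (hc0 : c ≠ 0) {x : Nat} (hx : x < 24) :
    (x ∈ B3 → (gt i j c).getD x 0 = x) ∧ (x ∉ B3 → (gt i j c).getD x 0 ∉ B3 ∧
      ∃ s < 4, s ≠ 0 ∧ ∀ k < 3, gmul s (cv ((gt i j c).getD x 0) k) = tvC i j c (cv x) k) :=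
  actOK_spec (gt_actOK i hi j hj hij c hc hc0 x hx)

section
variable {F : Type*} [Field F]

/-- The vector with the given codes. -/
def vec (ω : F) (u : Nat → Nat) : Fin 3 → F := fun k => el ω (u k.1)

theorem vec_ne_zero {ω : F} (hω : ω * ω = ω + 1) {x : Nat} (hx : x < 24) :
    vec ω (cv x) ≠ 0 := by
  obtain ⟨k, hk, hne⟩ := cv_ne x hx
  intro h
  apply hne
  have := congrFun h ⟨k, hk⟩
  exact el_eq_zero hω (cv_lt x hx k hk) this

/-- The projective point attached to a point of the Golay set. -/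
def gam (ω : F) (hω : ω * ω = ω + 1) (x : GolayPt) : ℙ F (Fin 3 → F) :=
  Projectivization.mk F (vec ω (cv (idx x))) (vec_ne_zero hω (idx_lt x))

/-- The points outside the base triple. -/
abbrev Out (x : GolayPt) : Prop := idx x ∉ B3

theorem gam_inj [Fintype F] (hF : Fintype.card F = 4) {ω : F} (hω : ω * ω = ω + 1)
    {x y : GolayPt} (hx : Out x) (hy : Out y) (h : gam ω hω x = gam ω hω y) : x = y := by
  have h2 := two_eq_zero hF
  rw [gam, gam, Projectivization.mk_eq_mk_iff] at h
  obtain ⟨a, ha⟩ := h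
  obtain ⟨s, hs, hsa⟩ := el_surj hF hω (a : F)
  have hs0 : s ≠ 0 := by
    rintro rfl
    exact a.ne_zero hsa.symm
  apply idx_injective
  apply cv_inj (idx x) (idx_lt x) hx (idx y) (idx_lt y) hy s hs hs0
  intro k hk
  have h1 := congrFun ha ⟨k, hk⟩
  apply el_inj h2 hω (gmul_lt _ hs _ (cv_lt _ (idx_lt y) k hk)) (cv_lt _ (idx_lt x) k hk)
  rw [el_mul h2 hω hs (cv_lt _ (idx_lt y) k hk), hsa]
  simpa [vec, Units.smul_def] using h1

theorem card_out : Nat.card {x : GolayPt // Out x} = 21 := by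
  rw [Nat.card_eq_fintype_card, Fintype.card_subtype]
  decide +kernel

theorem card_proj [Fintype F] (hF : Fintype.card F = 4) : Nat.card (ℙ F (Fin 3 → F)) = 21 := by
  rw [Projectivization.card'']
  simp [Nat.card_eq_fintype_card, hF]

/-- The coordinatisation of the 21 points by the projective plane. -/
noncomputable def gamE [Fintype F] (hF : Fintype.card F = 4) (ω : F) (hω : ω * ω = ω + 1) :
    {x : GolayPt // Out x} ≃ ℙ F (Fin 3 → F) :=
  Equiv.ofBijective (fun x => gam ω hω x.1) (by
    have : Finite (ℙ F (Fin 3 → F)) := Projectivization.finite_of_finite F (Fin 3 → F)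
    rw [Nat.bijective_iff_injective_and_card]
    exact ⟨fun x y h => Subtype.ext (gam_inj hF hω x.2 y.2 h), by rw [card_out, card_proj hF]⟩)

theorem gamE_apply [Fintype F] (hF : Fintype.card F = 4) (ω : F) (hω : ω * ω = ω + 1)
    (x : {x : GolayPt // Out x}) : gamE hF ω hω x = gam ω hω x.1 := rfl

/-- The action of `PSL(3, F)` on the 24 points. -/
noncomputable def Phi [Fintype F] (hF : Fintype.card F = 4) (ω : F) (hω : ω * ω = ω + 1) :
    Matrix.ProjectiveSpecialLinearGroup (Fin 3) F →* Equiv.Perm GolayPt :=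
  (Equiv.Perm.ofSubtype (p := Out)).comp
    ((Equiv.permCongrHom (gamE hF ω hω).symm).toMonoidHom.comp
      Projectivization.PSLAction.toPermHom)

theorem Phi_injective [Fintype F] (hF : Fintype.card F = 4) (ω : F) (hω : ω * ω = ω + 1) :
    Function.Injective (Phi hF ω hω) :=
  Equiv.Perm.ofSubtype_injective.comp ((Equiv.permCongrHom _).injective.comp
    Matrix.ProjectiveSpecialLinearGroup.toPermHom_injective)

theorem Phi_out [Fintype F] (hF : Fintype.card F = 4) (ω : F) (hω : ω * ω = ω + 1)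
    (A : Matrix.SpecialLinearGroup (Fin 3) F) {x : GolayPt} (hx : Out x) :
    Phi hF ω hω (QuotientGroup.mk A) x =
      ((gamE hF ω hω).symm (A • gam ω hω x) : {x : GolayPt // Out x}).1 := by
  show Equiv.Perm.ofSubtype _ x = _
  rw [Equiv.Perm.ofSubtype_apply_of_mem _ hx]
  rfl

theorem Phi_not_out [Fintype F] (hF : Fintype.card F = 4) (ω : F) (hω : ω * ω = ω + 1)
    (g : Matrix.ProjectiveSpecialLinearGroup (Fin 3) F) {x : GolayPt} (hx : ¬ Out x) :
    Phi hF ω hω g x = x := by
  show Equiv.Perm.ofSubtype _ x = _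
  rw [Equiv.Perm.ofSubtype_apply_of_not_mem _ hx]

theorem transv_apply (i j : Fin 3) (a : F) (v : Fin 3 → F) (k : Fin 3) :
    (Matrix.transvection i j a *ᵥ v) k = if k = i then v i + a * v j else v k := by
  rw [Matrix.transvection, Matrix.add_mulVec, Matrix.one_mulVec, Matrix.single_mulVec]
  by_cases h : k = i
  · subst h; simp
  · simp [h]

theorem transv_vec {ω : F} (h2 : (2 : F) = 0) (hω : ω * ω = ω + 1) (i j : Fin 3) (c : Nat)
    (hc : c < 4) (u : Nat → Nat) (hu : ∀ k < 3, u k < 4) :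
    Matrix.transvection i j (el ω c) *ᵥ vec ω u = vec ω (tvC i.1 j.1 c u) := by
  funext k
  rw [transv_apply]
  simp only [vec, tvC]
  by_cases h : k = i
  · subst h
    simp only [if_true]
    rw [el_add h2 (hu _ k.2) (gmul_lt _ hc _ (hu _ j.2)), el_mul h2 hω hc (hu _ j.2)]
  · have : k.1 ≠ i.1 := fun h' => h (Fin.ext h')
    simp [h, this]

theorem Phi_transv [Fintype F] (hF : Fintype.card F = 4) (ω : F) (hω : ω * ω = ω + 1)
    (i j : Fin 3) (hij : i ≠ j) (c : Nat) (hc : c < 4) (hc0 : c ≠ 0) :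
    Phi hF ω hω (QuotientGroup.mk (Matrix.SpecialLinearGroup.transvection hij (el ω c))) ∈
      M24 := by
  have h2 := two_eq_zero hF
  have hij' : i.1 ≠ j.1 := fun h => hij (Fin.ext h)
  obtain ⟨r, hr, hrt⟩ := List.mem_map.mp (gt_sub i.1 i.2 j.1 j.2 hij' c hc hc0)
  obtain ⟨g, hgH, hg⟩ := chk_sound H M24Data.tabs tabs_rep M21Data.rows [] (by simp)
    M21Data.rows_chk r hr
  rw [hrt] at hg
  have key : Phi hF ω hω (QuotientGroup.mk (Matrix.SpecialLinearGroup.transvection hij (el ω c)))
      = g := by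
    apply Equiv.ext
    intro x
    have hact := gt_act i.2 j.2 hij' hc hc0 (idx_lt x)
    have hgx : (gt i.1 j.1 c).getD (idx x) 0 = idx (g x) := hg.2 x
    by_cases hx : Out x
    · obtain ⟨hout, s, hs, hs0, hk⟩ := hact.2 hx
      rw [hgx] at hout hk
      rw [Phi_out hF ω hω _ hx]
      have h3 : (gamE hF ω hω).symm
          (Matrix.SpecialLinearGroup.transvection hij (el ω c) • gam ω hω x) = ⟨g x, hout⟩ := by
        rw [Equiv.symm_apply_eq, gamE_apply]
        show _ = gam ω hω (g x)
        rw [gam, gam, Projectivization.smul_mk, Projectivization.mk_eq_mk_iff]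
        refine ⟨Units.mk0 (el ω s) (fun h => hs0 (el_eq_zero hω hs h)), ?_⟩
        have hT : Matrix.SpecialLinearGroup.transvection hij (el ω c) • vec ω (cv (idx x)) =
            Matrix.transvection i j (el ω c) *ᵥ vec ω (cv (idx x)) := rfl
        rw [hT, transv_vec h2 hω i j c hc _ (cv_lt _ (idx_lt x))]
        funext k
        simp only [Units.smul_def, Pi.smul_apply, smul_eq_mul, vec, Units.val_mk0]
        rw [← el_mul h2 hω hs (cv_lt _ (idx_lt (g x)) k.1 k.2), hk k.1 k.2]
      rw [h3]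
    · rw [Phi_not_out hF ω hω _ hx]
      apply idx_injective
      rw [← hgx]
      exact (hact.1 (not_not.mp hx)).symm
  rw [key]
  exact H_le_M24 hgH

theorem Phi_mem [Fintype F] (hF : Fintype.card F = 4) (ω : F) (hω : ω * ω = ω + 1)
    (g : Matrix.ProjectiveSpecialLinearGroup (Fin 3) F) :
    Phi hF ω hω g ∈ M24 ⊓ FixL [1, 0, 23] := by
  refine ⟨?_, ?_⟩
  · obtain ⟨A, rfl⟩ := QuotientGroup.mk_surjective g
    refine Cfsg.Agent.Lib.Helper5.SLGen.transvection_induction
      (P := fun A => Phi hF ω hω (QuotientGroup.mk A) ∈ M24) ?_ ?_ A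
    · intro i j h c
      obtain ⟨s, hs, rfl⟩ := el_surj hF hω c
      by_cases hs0 : s = 0
      · subst hs0
        have h1 : Matrix.SpecialLinearGroup.transvection h (el ω 0) = 1 := by
          apply Subtype.ext
          simp [el, Matrix.SpecialLinearGroup.transvection]
        have h3 : (QuotientGroup.mk (1 : Matrix.SpecialLinearGroup (Fin 3) F) :
            Matrix.ProjectiveSpecialLinearGroup (Fin 3) F) = 1 := QuotientGroup.mk_one _
        show Phi hF ω hω (QuotientGroup.mk _) ∈ M24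
        rw [h1, h3, map_one]
        exact M24.one_mem
      · exact Phi_transv hF ω hω i j h s hs hs0
    · intro A B hA hB
      have h3 : (QuotientGroup.mk (A * B) : Matrix.ProjectiveSpecialLinearGroup (Fin 3) F) =
          QuotientGroup.mk A * QuotientGroup.mk B := QuotientGroup.mk_mul _ A B
      show Phi hF ω hω (QuotientGroup.mk (A * B)) ∈ M24
      rw [h3, map_mul]
      exact M24.mul_mem hA hB
  · intro f hf
    apply Phi_not_out
    have hf24 : f < 24 := by
      simp only [List.mem_cons, List.not_mem_nil, or_false] at hf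
      omega
    rw [Out, idx_pt hf24]
    exact not_not.mpr hf

/-- The pointwise stabiliser of the base triple is `PSL(3, 4)`. -/
theorem base_iso [Fintype F] (hF : Fintype.card F = 4) :
    Nonempty (↥(M24 ⊓ FixL [1, 0, 23]) ≃* Matrix.ProjectiveSpecialLinearGroup (Fin 3) F) := by
  obtain ⟨ω, hω⟩ := exists_omega hF
  let φ : Matrix.ProjectiveSpecialLinearGroup (Fin 3) F →* ↥(M24 ⊓ FixL [1, 0, 23]) :=
    (Phi hF ω hω).codRestrict _ (Phi_mem hF ω hω)
  have hinj : Function.Injective φ := by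
    intro a b hab
    apply Phi_injective hF ω hω
    exact congrArg Subtype.val hab
  have hbij : Function.Bijective φ := by
    rw [Nat.bijective_iff_injective_and_card]
    exact ⟨hinj, by rw [Cfsg.Agent.Lib.Helper43.SLCard.card_PSL3 hF, card3]⟩
  exact ⟨(MulEquiv.ofBijective φ hbij).symm⟩

end

end Cfsg.Agent.Lib.Helper7.M21
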