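import Cfsg.Agent.Lib.Helper7.M22Fn2

set_option autoImplicit false

namespace Cfsg.Agent.Lib.Helper7.M22Cert1

open Cfsg Cfsg.Agent.Lib.Helper7.M22Fn2

set_option maxRecDepth 100000 in
theorem cert : [20, 21, 22, 23, 24, 25, 26, 27, 28, 29, 30, 31, 32, 33, 34, 35, 36, 37, 38, 39].all certRow = true := by decide +kernel

end Cfsg.Agent.Lib.Helper7.M22Cert1
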