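import Cfsg.Agent.Lib.Helper7.M22Fn2

set_option autoImplicit false

namespace Cfsg.Agent.Lib.Helper7.M22Cert2

open Cfsg Cfsg.Agent.Lib.Helper7.M22Fn2

set_option maxRecDepth 100000 in
theorem cert : [40, 41, 42, 43, 44, 45, 46, 47, 48, 49, 50, 51, 52, 53, 54, 55, 56, 57, 58, 59].all certRow = true := by decide +kernel

end Cfsg.Agent.Lib.Helper7.M22Cert2
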