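import Cfsg.Agent.Lib.Helper7.M22Fn

set_option autoImplicit false

namespace Cfsg.Agent.Lib.Helper7.M22Chk

open Cfsg Cfsg.Agent.Lib.Helper7.GolayBase Cfsg.Agent.Lib.Helper7.GolayPerm
  Cfsg.Agent.Lib.Helper7.QuartetStab Cfsg.Agent.Lib.Helper7.L23Base
  Cfsg.Agent.Lib.Helper7.L23Norm Cfsg.Agent.Lib.Helper7.M22Data Cfsg.Agent.Lib.Helper7.M22TL
  Cfsg.Agent.Lib.Helper7.M22Fn Cfsg.Agent.Lib.Helper7.M24Data

set_option maxRecDepth 100000

theorem rows_chk : chk [aT, bT, idT] [] rows22 = true := by decide +kernel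

theorem aT_mem : aT ∈ tabs := by decide +kernel

theorem bT_mem : bT ∈ tabs := by decide +kernel

theorem SL_eq : SL = ((rows22.drop 44).take 128).map (fun r => r.2.2) := by decide +kernel

theorem SX_eq : SX = SL.map (fun s => (pk s, s)) := by decide +kernel

theorem SL_lt : ∀ s ∈ SL, ∀ y ∈ s, y < 32 := by decide +kernel

theorem SL_flag : ∀ s ∈ SL, flagS s = true := by decide +kernel

theorem SL_nodup : SL.Nodup := by decide +kernel

theorem SL_length : SL.length = 128 := by decide +kernel

theorem VL_length : VL.length = 3465 := by decide +kernel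

theorem TL_length : TL.length = 3465 := by decide +kernel

theorem VT_inv : ∀ x ∈ List.zip VL TL, x.2.length = 24 ∧ tmul x.2 x.1 = idT := by decide +kernel

theorem DC_length : DC.length = 3465 := by decide +kernel

theorem DC_lt : ∀ d ∈ DC, d.1 < 60 ∧ d.2 < 128 := by decide +kernel

theorem DC_chk : ∀ x ∈ List.zip VL DC, dcOK x = true := by decide +kernel

theorem TR_eq : TRidx.map (fun k => TL.getD k idT) = TR := by decide +kernel

theorem TRidx_lt : ∀ k ∈ TRidx, k < 3465 := by decide +kernel

theorem R_eq : [VL.getD 1 idT, VL.getD 16 idT, VL.getD 116 idT, VL.getD 31 idT, VL.getD 60 idT,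
    VL.getD 35 idT] = [R1, R2, R3, R4, R5, R6] := by decide +kernel

theorem TL0 : TL.getD 0 idT = idT := by decide +kernel

theorem VL0 : VL.getD 0 idT = idT := by decide +kernel

end Cfsg.Agent.Lib.Helper7.M22Chk
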