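import Cfsg.Agent.Lib.Helper7.M22Fn

set_option autoImplicit false

namespace Cfsg.Agent.Lib.Helper7.M22Chk2

open Cfsg Cfsg.Agent.Lib.Helper7.GolayPerm Cfsg.Agent.Lib.Helper7.M22Data
  Cfsg.Agent.Lib.Helper7.M22TL Cfsg.Agent.Lib.Helper7.M22Fn Cfsg.Agent.Lib.Helper7.L23Norm

set_option maxRecDepth 100000

/-- Membership test. -/
def memB (a : Nat) : List Nat → Bool
  | [] => false
  | b :: l => Nat.beq a b || memB a l

/-- Test for the absence of repetitions. -/
def nodupB : List Nat → Bool
  | [] => true
  | a :: l => !(memB a l) && nodupB l

theorem memB_iff (a : Nat) (l : List Nat) : memB a l = true ↔ a ∈ l := by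
  induction l with
  | nil => simp [memB]
  | cons b l ih =>
    simp only [memB, Bool.or_eq_true, ih, List.mem_cons]
    constructor
    · rintro (h | h)
      · exact Or.inl (Nat.eq_of_beq_eq_true h)
      · exact Or.inr h
    · rintro (h | h)
      · exact Or.inl (by rw [h]; exact Nat.beq_refl b)
      · exact Or.inr h

theorem nodupB_sound (l : List Nat) (h : nodupB l = true) : l.Nodup := by
  induction l with
  | nil => exact List.nodup_nil
  | cons a l ih =>
    simp only [nodupB, Bool.and_eq_true, Bool.not_eq_true'] at h
    refine List.nodup_cons.mpr ⟨?_, ih h.2⟩
    intro hmem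
    have := (memB_iff a l).mpr hmem
    rw [h.1] at this
    exact Bool.false_ne_true this

/-- The test of an interval. -/
def inIv (iv : Nat × Nat) (x : Nat) : Bool := Nat.ble iv.1 x && Nat.blt x iv.2

theorem nodup_of_buckets (l : List Nat) (I : List (Nat × Nat))
    (h1 : ∀ iv ∈ I, (l.filter (inIv iv)).Nodup)
    (h2 : ∀ x ∈ l, ∃ iv ∈ I, inIv iv x = true) : l.Nodup := by
  rw [List.nodup_iff_count_le_one]
  intro a
  by_cases ha : a ∈ l
  · obtain ⟨iv, hiv, hx⟩ := h2 a ha
    rw [← List.count_filter (p := inIv iv) hx]
    exact List.nodup_iff_count_le_one.mp (h1 iv hiv) a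
  · rw [List.count_eq_zero_of_not_mem ha]
    exact Nat.zero_le 1

/-- Intervals separating the codes. -/
def IV : List (Nat × Nat) :=
  [(0, 201392192), (201392192, 337641984), (337641984, 603996162), (603996162, 807534592), (807534592, 1207975952), (1207975952, 1612710144), (1612710144, 2281742336), (2281742336, 2688548868), (2688548868, 4362340352), (4362340352, 4831870978), (4831870978, 6444810240), (6444810240, 8724676672), (8724676672, 9663742976), (9663742976, 17213431816), (17213431816, 17318543360), (17318543360, 18255773696), (18255773696, 25770328192), (25770328192, 34494480386), (34494480386, 35435839488), (35435839488, 42951770114), (42951770114, 68790780416), (68790780416, 69793228800), (69793228800, 77309427720), (77309427720, 137472901120), (137472901120, 137711583234), (137711583234, 141733990400), (141733990400, 171800002560), (171800002560, 275012255746), (275012255746, 275953746176), (275953746176, 292058431488), (292058431488, 549790023680), (549790023680, 550293864448), (550293864448, 558347976704), (558347976704, 687197913088), (687197913088, 1099780227072), (1099780227072, 1103809740800), (1103809740800, 1236951121920),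 (1236951121920, 2199159572480), (2199159572480, 2207613716480), (2207613716480, 2473903260160), (2473903260160, 4398317060096), (4398317060096, 4432407363584), (4432407363584, 6597073977344), (6597073977344, 8804685058048), (8804685058048, 10995122569216), (10995122569216, 17660907618816), (17660907618816, 35192966283264), (35192966283264, 562949953421312)]

theorem codes_chk : forceList (VL.map code) (fun l =>
    IV.all (fun iv => nodupB (l.filter (inIv iv))) && l.all (fun x => IV.any (fun iv => inIv iv x)))
      = true := by
  decide +kernel

theorem codes_nodup : (VL.map code).Nodup := by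
  have h := codes_chk
  rw [forceList_eq, Bool.and_eq_true, List.all_eq_true, List.all_eq_true] at h
  refine nodup_of_buckets _ IV (fun iv hiv => nodupB_sound _ (h.1 iv hiv)) ?_
  intro x hx
  have := h.2 x hx
  rw [List.any_eq_true] at this
  exact this

end Cfsg.Agent.Lib.Helper7.M22Chk2
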