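import Cfsg.Agent.Lib.Helper7.M22Sound

set_option autoImplicit false

namespace Cfsg.Agent.Lib.Helper7.M22Class

open Cfsg Cfsg.Agent.Lib.Helper7.GolayBase Cfsg.Agent.Lib.Helper7.GolayCode
  Cfsg.Agent.Lib.Helper7.M24Mem Cfsg.Agent.Lib.Helper7.GolayRigid
  Cfsg.Agent.Lib.Helper7.GolayPerm Cfsg.Agent.Lib.Helper7.ChainGen
  Cfsg.Agent.Lib.Helper7.QuartetStab
  Cfsg.Agent.Lib.Helper7.L23Base Cfsg.Agent.Lib.Helper7.L23Norm
  Cfsg.Agent.Lib.Helper7.M22Data Cfsg.Agent.Lib.Helper7.M22TL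
  Cfsg.Agent.Lib.Helper7.M22Fn Cfsg.Agent.Lib.Helper7.M22Chk Cfsg.Agent.Lib.Helper7.M22Chk2
  Cfsg.Agent.Lib.Helper7.M22Data2 Cfsg.Agent.Lib.Helper7.M22Fn2 Cfsg.Agent.Lib.Helper7.M22Chk3
  Cfsg.Agent.Lib.Helper7.M22Enum Cfsg.Agent.Lib.Helper7.M22Sound
open scoped Pointwise

/-! ### General lemmas -/

theorem conj_pow_iter {G : Type*} [Group G] {z r : G} {a : ℕ} (hz : z * r * z⁻¹ = r ^ a)
    (j : ℕ) : z ^ j * r * (z ^ j)⁻¹ = r ^ (a ^ j) := by
  induction j with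
  | zero => simp
  | succ j ih =>
    have h1 : z ^ (j + 1) * r * (z ^ (j + 1))⁻¹ = z * (z ^ j * r * (z ^ j)⁻¹) * z⁻¹ := by
      rw [pow_succ']; group
    rw [h1, ih, ← conj_pow, hz, ← pow_mul, pow_succ, mul_comm]

theorem isConj_pow_of {G : Type*} [Group G] {z r : G} {p a k : ℕ} (hr : r ^ p = 1)
    (hz : z * r * z⁻¹ = r ^ a) (hk : ∃ j, a ^ j % p = k % p) : IsConj r (r ^ k) := by
  obtain ⟨j, hj⟩ := hk
  rw [isConj_iff]
  refine ⟨z ^ j, ?_⟩
  rw [conj_pow_iter hz j, pow_eq_pow_mod _ hr, hj, ← pow_eq_pow_mod _ hr]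

theorem isConj_inv_pow_of {G : Type*} [Group G] {z r : G} {p a k : ℕ} (hr : r ^ p = 1)
    (hz : z * r * z⁻¹ = r ^ a) (hk : ∃ j, (a ^ j + k) % p = 0) : IsConj r⁻¹ (r ^ k) := by
  obtain ⟨j, hj⟩ := hk
  have h1 : r ^ (a ^ j) * r ^ k = 1 := by
    rw [← pow_add, pow_eq_pow_mod _ hr, hj, pow_zero]
  have h2 : r ^ k = (r ^ (a ^ j))⁻¹ := eq_inv_of_mul_eq_one_right h1
  rw [isConj_iff]
  refine ⟨z ^ j, ?_⟩
  rw [h2, ← conj_pow_iter hz j]
  group

theorem sylow_conj_mem {G : Type*} [Group G] [Finite G] {p : ℕ} [Fact p.Prime] (P : Sylow p G)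
    {x : G} (hx : IsPGroup p (Subgroup.zpowers x)) : ∃ g : G, g * x * g⁻¹ ∈ (P : Subgroup G) := by
  obtain ⟨Q, hQ⟩ := hx.exists_le_sylow
  obtain ⟨g, hg⟩ := MulAction.exists_smul_eq G Q P
  refine ⟨g, ?_⟩
  rw [← hg]
  have hxQ : x ∈ (Q : Subgroup G) := hQ (Subgroup.mem_zpowers x)
  have h2 := Subgroup.smul_mem_pointwise_smul x (MulAut.conj g) (Q : Subgroup G) hxQ
  rw [MulAut.smul_def, MulAut.conj_apply] at h2
  exact h2

theorem conj_into_zpowers {G : Type*} [Group G] [Finite G] {p : ℕ} [hp : Fact p.Prime] {r x : G}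
    (hr : orderOf r = p) (hfac : (Nat.card G).factorization p = 1) (hx : orderOf x = p) :
    ∃ g : G, ∃ k, k < p ∧ 0 < k ∧ r ^ k = g * x * g⁻¹ := by
  have hcard : Nat.card (Subgroup.zpowers r) = p ^ (Nat.card G).factorization p := by
    rw [Nat.card_zpowers, hr, hfac, pow_one]
  have hxp : IsPGroup p (Subgroup.zpowers x) :=
    IsPGroup.of_card (n := 1) (by rw [Nat.card_zpowers, hx, pow_one])
  obtain ⟨g, hg⟩ := sylow_conj_mem (Sylow.ofCard _ hcard) hxp
  have hg' : g * x * g⁻¹ ∈ Subgroup.zpowers r := hg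
  obtain ⟨k, hk, hkr⟩ := exists_nat_pow p hp.out.pos (by rw [← hr]; exact pow_orderOf_eq_one r) hg'
  refine ⟨g, k, hk, ?_, hkr⟩
  rcases Nat.eq_zero_or_pos k with h0 | h0
  · exfalso
    rw [h0, pow_zero] at hkr
    have hx1 : x = 1 := by
      have h2 : g * x * g⁻¹ = g * 1 * g⁻¹ := by rw [← hkr]; group
      exact mul_left_cancel (mul_right_cancel h2)
    rw [hx1, orderOf_one] at hx
    exact hp.out.one_lt.ne hx
  · exact h0

theorem fac_pow {p k m : ℕ} (hp : p.Prime) (hm : ¬ p ∣ m) (hm0 : m ≠ 0) :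
    (p ^ k * m).factorization p = k := by
  rw [Nat.factorization_mul (pow_ne_zero _ hp.ne_zero) hm0, Nat.Prime.factorization_pow hp]
  simp [Nat.factorization_eq_zero_of_not_dvd hm]

/-! ### The group and its elements -/

/-- The group, as a type. -/
abbrev G22 : Type := ↥K22

/-- The group is finite. -/
@[reducible] noncomputable def fintypeG22 : Fintype G22 := Fintype.ofFinite _

attribute [local instance] fintypeG22

theorem card_G22 : Nat.card G22 = 443520 := card_K22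

theorem fac2 : (Nat.card G22).factorization 2 = 7 := by
  rw [card_G22, show (443520 : ℕ) = 2 ^ 7 * 3465 by norm_num]
  exact fac_pow Nat.prime_two (by norm_num) (by norm_num)

theorem fac3 : (Nat.card G22).factorization 3 = 2 := by
  rw [card_G22, show (443520 : ℕ) = 3 ^ 2 * 49280 by norm_num]
  exact fac_pow Nat.prime_three (by norm_num) (by norm_num)

theorem fac5 : (Nat.card G22).factorization 5 = 1 := by
  rw [card_G22, show (443520 : ℕ) = 5 ^ 1 * 88704 by norm_num]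
  exact fac_pow Nat.prime_five (by norm_num) (by norm_num)

theorem fac7 : (Nat.card G22).factorization 7 = 1 := by
  rw [card_G22, show (443520 : ℕ) = 7 ^ 1 * 63360 by norm_num]
  exact fac_pow (by norm_num) (by norm_num) (by norm_num)

theorem fac11 : (Nat.card G22).factorization 11 = 1 := by
  rw [card_G22, show (443520 : ℕ) = 11 ^ 1 * 40320 by norm_num]
  exact fac_pow (by norm_num) (by norm_num) (by norm_num)

theorem eq_of_rep {a b : G22} {t : List Nat} (ha : Rep (a : Equiv.Perm GolayPt) t)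
    (hb : Rep (b : Equiv.Perm GolayPt) t) : a = b := Subtype.ext (ha.ext hb)

theorem eq_one_of_rep {a : G22} (ha : Rep (a : Equiv.Perm GolayPt) idT) : a = 1 :=
  Subtype.ext ha.eq_one

theorem rep_pow' {a : G22} {t : List Nat} (h : Rep (a : Equiv.Perm GolayPt) t) (n : ℕ) :
    Rep ((a ^ n : G22) : Equiv.Perm GolayPt) (powT t n) := by
  rw [Subgroup.coe_pow]; exact rep_powT h n

theorem rep_mul' {a b : G22} {s t : List Nat} (ha : Rep (a : Equiv.Perm GolayPt) s)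
    (hb : Rep (b : Equiv.Perm GolayPt) t) : Rep ((a * b : G22) : Equiv.Perm GolayPt) (tmul s t) := by
  rw [Subgroup.coe_mul]; exact ha.mul hb

theorem rep_one' : Rep ((1 : G22) : Equiv.Perm GolayPt) idT := rep_one

theorem mul_eq_of_tab {a b c d : G22} {A B C D : List Nat}
    (ha : Rep (a : Equiv.Perm GolayPt) A) (hb : Rep (b : Equiv.Perm GolayPt) B)
    (hc : Rep (c : Equiv.Perm GolayPt) C) (hd : Rep (d : Equiv.Perm GolayPt) D)
    (h : tmul A B = tmul C D) : a * b = c * d :=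
  eq_of_rep (rep_mul' ha hb) (h ▸ rep_mul' hc hd)

theorem pow_eq_one_of_tab {a : G22} {t : List Nat} (h : Rep (a : Equiv.Perm GolayPt) t) {n : ℕ}
    (hn : powT t n = idT) : a ^ n = 1 := eq_one_of_rep (hn ▸ rep_pow' h n)

theorem ne_one_of_tab {a : G22} {t : List Nat} (h : Rep (a : Equiv.Perm GolayPt) t)
    (ht : t ≠ idT) : a ≠ 1 := by
  rintro rfl
  exact ht (M9Struct.rep_unique h rep_one')

/-- Products of a Sylow element and a coset representative. -/
noncomputable def pairEl (m k : ℕ) : G22 := sig m * tau k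

theorem pairEl_rep (m : ℕ) {k : ℕ} (hk : k < 3465) :
    Rep (pairEl m k : Equiv.Perm GolayPt) (pairT m k) := rep_mul' (sig_rep m) (tau_rep hk)

/-- The class representatives. -/
noncomputable def r1 : G22 := vv 1
/-- A class representative. -/
noncomputable def r2 : G22 := vv 16
/-- A class representative. -/
noncomputable def r3 : G22 := vv 116
/-- A class representative. -/
noncomputable def r4 : G22 := vv 31
/-- A class representative. -/
noncomputable def r5 : G22 := vv 60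
/-- A class representative. -/
noncomputable def r6 : G22 := vv 35

theorem r_rep : Rep (r1 : Equiv.Perm GolayPt) R1 ∧ Rep (r2 : Equiv.Perm GolayPt) R2 ∧
    Rep (r3 : Equiv.Perm GolayPt) R3 ∧ Rep (r4 : Equiv.Perm GolayPt) R4 ∧
    Rep (r5 : Equiv.Perm GolayPt) R5 ∧ Rep (r6 : Equiv.Perm GolayPt) R6 := by
  have h := R_eq
  simp only [List.cons.injEq, and_true] at h
  obtain ⟨e1, e2, e3, e4, e5, e6⟩ := h
  refine ⟨?_, ?_, ?_, ?_, ?_, ?_⟩
  · rw [← e1]; exact vv_rep 1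
  · rw [← e2]; exact vv_rep 16
  · rw [← e3]; exact vv_rep 116
  · rw [← e4]; exact vv_rep 31
  · rw [← e5]; exact vv_rep 60
  · rw [← e6]; exact vv_rep 35

theorem r1_pow : r1 ^ 5 = 1 := pow_eq_one_of_tab r_rep.1 R_ord.1
theorem r1_ne : r1 ≠ 1 := ne_one_of_tab r_rep.1 R_ord.2.1
theorem r2_pow : r2 ^ 7 = 1 := pow_eq_one_of_tab r_rep.2.1 R_ord.2.2.1
theorem r2_ne : r2 ≠ 1 := ne_one_of_tab r_rep.2.1 R_ord.2.2.2.1
theorem r3_eq : r3 = r2⁻¹ := by
  have h : r2 * r3 = 1 * 1 := mul_eq_of_tab r_rep.2.1 r_rep.2.2.1 rep_one' rep_one'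
    (by rw [R_ord.2.2.2.2.1]; decide)
  rw [mul_one] at h
  exact eq_inv_of_mul_eq_one_right h
theorem r4_pow : r4 ^ 11 = 1 := pow_eq_one_of_tab r_rep.2.2.2.1 R_ord.2.2.2.2.2.1
theorem r4_ne : r4 ≠ 1 := ne_one_of_tab r_rep.2.2.2.1 R_ord.2.2.2.2.2.2.1
theorem r5_eq : r5 = r4⁻¹ := by
  have h : r4 * r5 = 1 * 1 := mul_eq_of_tab r_rep.2.2.2.1 r_rep.2.2.2.2.1 rep_one' rep_one'
    (by rw [R_ord.2.2.2.2.2.2.2.1]; decide)
  rw [mul_one] at h
  exact eq_inv_of_mul_eq_one_right h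
theorem r6_pow : r6 ^ 3 = 1 := pow_eq_one_of_tab r_rep.2.2.2.2.2 R_ord.2.2.2.2.2.2.2.2.1
theorem r6_ne : r6 ≠ 1 := ne_one_of_tab r_rep.2.2.2.2.2 R_ord.2.2.2.2.2.2.2.2.2

theorem fact5 : Fact (Nat.Prime 5) := ⟨by norm_num⟩

theorem fact7 : Fact (Nat.Prime 7) := ⟨by norm_num⟩

theorem fact11 : Fact (Nat.Prime 11) := ⟨by norm_num⟩

attribute [local instance] fact5 fact7 fact11

theorem ord_r1 : orderOf r1 = 5 := orderOf_eq_prime r1_pow r1_ne
theorem ord_r2 : orderOf r2 = 7 := orderOf_eq_prime r2_pow r2_ne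
theorem ord_r4 : orderOf r4 = 11 := orderOf_eq_prime r4_pow r4_ne

/-! ### Centralisers -/

theorem cent_tab {g x y : G22} {c : List Nat × List Nat × List (List Nat)} (hc : c ∈ cfgs)
    (hx : Rep (x : Equiv.Perm GolayPt) c.1) (hy : Rep (y : Equiv.Perm GolayPt) c.2.1)
    (h : g * x = y * g) : tabOf (g : Equiv.Perm GolayPt) ∈ c.2.2 := by
  apply comm_mem g.2 hc hx hy
  have := congrArg Subtype.val h
  simpa using this

theorem cent1 {g : G22} (h : g * r1 = r1 * g) : g ^ 5 = 1 :=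
  pow_eq_one_of_tab (rep_tabOf _)
    (C1_pow _ (cent_tab (c := (R1, R1, C1L)) (by simp [cfgs]) r_rep.1 r_rep.1 h))

theorem cent2 {g : G22} (h : g * r2 = r2 * g) : g ^ 7 = 1 :=
  pow_eq_one_of_tab (rep_tabOf _)
    (C2_pow _ (cent_tab (c := (R2, R2, C2L)) (by simp [cfgs]) r_rep.2.1 r_rep.2.1 h))

theorem cent4 {g : G22} (h : g * r4 = r4 * g) : g ^ 11 = 1 :=
  pow_eq_one_of_tab (rep_tabOf _)
    (C4_pow _ (cent_tab (c := (R4, R4, C4L)) (by simp [cfgs]) r_rep.2.2.2.1 r_rep.2.2.2.1 h))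

theorem cent6_mem {g : G22} (h : g * r6 = r6 * g) : tabOf (g : Equiv.Perm GolayPt) ∈ C6L :=
  cent_tab (c := (R6, R6, C6L)) (by simp [cfgs]) r_rep.2.2.2.2.2 r_rep.2.2.2.2.2 h

theorem not_conj23 : ¬ IsConj r2 r3 := by
  intro h
  obtain ⟨c, hc⟩ := isConj_iff.mp h
  have h1 : c * r2 = r3 * c := by rw [← hc]; group
  have := cent_tab (c := (R2, R3, [])) (by simp [cfgs]) r_rep.2.1 r_rep.2.2.1 h1
  simp at this

theorem not_conj45 : ¬ IsConj r4 r5 := by
  intro h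
  obtain ⟨c, hc⟩ := isConj_iff.mp h
  have h1 : c * r4 = r5 * c := by rw [← hc]; group
  have := cent_tab (c := (R4, R5, [])) (by simp [cfgs]) r_rep.2.2.2.1 r_rep.2.2.2.2.1 h1
  simp at this

theorem cent6 {g : G22} (h : g * r6 = r6 * g) : g ^ 6 = 1 ∧
    (g = 1 ∨ g ^ 2 ≠ 1 ∨ ∀ p : GolayPt, (g : Equiv.Perm GolayPt) p = p ↔ p ∈ mk O6) := by
  have hrep := rep_tabOf (g : Equiv.Perm GolayPt)
  obtain ⟨h6, h3⟩ := C6_spec _ (cent6_mem h)
  refine ⟨pow_eq_one_of_tab hrep h6, ?_⟩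
  rcases h3 with h3 | h3 | h3
  · left
    exact eq_one_of_rep (h3 ▸ hrep)
  · right; left
    intro h2
    apply h3
    have h4 : Rep ((g * g : G22) : Equiv.Perm GolayPt) (tmul (tabOf g) (tabOf g)) :=
      rep_mul' hrep hrep
    rw [← pow_two, h2] at h4
    exact M9Struct.rep_unique h4 rep_one'
  · right; right
    intro p
    rw [fixT, List.all_eq_true] at h3
    have h4 := h3 (idx p) (List.mem_range.mpr (idx_lt p))
    rw [hrep.2 p] at h4
    rw [mem_mk]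
    constructor
    · intro hp
      rw [hp] at h4
      simpa using h4.symm
    · intro hp
      rw [hp] at h4
      have : idx ((g : Equiv.Perm GolayPt) p) = idx p := by simpa using h4
      exact idx_injective this

/-! ### Classes of elements of prime order -/

/-- A conjugator for the squaring map on the group of order 5. -/
noncomputable def z5 : G22 := pairEl 100 823
/-- A conjugator for the squaring map on the group of order 7. -/
noncomputable def z7 : G22 := pairEl 114 1262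
/-- A conjugator for the cubing map on the group of order 11. -/
noncomputable def z11 : G22 := pairEl 125 1986

theorem z5_rel : z5 * r1 * z5⁻¹ = r1 ^ 2 := by
  have h : z5 * r1 = (r1 * r1) * z5 :=
    mul_eq_of_tab (pairEl_rep 100 (by norm_num)) r_rep.1 (rep_mul' r_rep.1 r_rep.1)
      (pairEl_rep 100 (by norm_num)) z5_chk
  rw [h, pow_two]; group

theorem z7_rel : z7 * r2 * z7⁻¹ = r2 ^ 2 := by
  have h : z7 * r2 = (r2 * r2) * z7 :=
    mul_eq_of_tab (pairEl_rep 114 (by norm_num)) r_rep.2.1 (rep_mul' r_rep.2.1 r_rep.2.1)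
      (pairEl_rep 114 (by norm_num)) z7_chk
  rw [h, pow_two]; group

theorem z11_rel : z11 * r4 * z11⁻¹ = r4 ^ 3 := by
  have h : z11 * r4 = (r4 ^ 3) * z11 :=
    mul_eq_of_tab (pairEl_rep 125 (by norm_num)) r_rep.2.2.2.1 (rep_pow' r_rep.2.2.2.1 3)
      (pairEl_rep 125 (by norm_num)) z11_chk
  rw [h]; group

theorem isConj_of_conj {G : Type*} [Group G] {r x g : G} {y : G} (h1 : IsConj r y)
    (h2 : y = g * x * g⁻¹) : IsConj r x := by
  have h3 : IsConj x y := isConj_iff.mpr ⟨g, h2.symm⟩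
  exact h1.trans h3.symm

theorem class5 {x : G22} (hx : x ^ 5 = 1) (hx1 : x ≠ 1) : IsConj r1 x := by
  obtain ⟨g, k, hk, hk0, hkr⟩ := conj_into_zpowers ord_r1 fac5 (orderOf_eq_prime hx hx1)
  refine isConj_of_conj (isConj_pow_of r1_pow z5_rel ?_) hkr
  interval_cases k
  · exact ⟨0, by norm_num⟩
  · exact ⟨1, by norm_num⟩
  · exact ⟨3, by norm_num⟩
  · exact ⟨2, by norm_num⟩

theorem class7 {x : G22} (hx : x ^ 7 = 1) (hx1 : x ≠ 1) : IsConj r2 x ∨ IsConj r3 x := by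
  obtain ⟨g, k, hk, hk0, hkr⟩ := conj_into_zpowers ord_r2 fac7 (orderOf_eq_prime hx hx1)
  rw [r3_eq]
  interval_cases k
  · exact Or.inl (isConj_of_conj (isConj_pow_of r2_pow z7_rel ⟨0, by norm_num⟩) hkr)
  · exact Or.inl (isConj_of_conj (isConj_pow_of r2_pow z7_rel ⟨1, by norm_num⟩) hkr)
  · exact Or.inr (isConj_of_conj (isConj_inv_pow_of r2_pow z7_rel ⟨2, by norm_num⟩) hkr)
  · exact Or.inl (isConj_of_conj (isConj_pow_of r2_pow z7_rel ⟨2, by norm_num⟩) hkr)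
  · exact Or.inr (isConj_of_conj (isConj_inv_pow_of r2_pow z7_rel ⟨1, by norm_num⟩) hkr)
  · exact Or.inr (isConj_of_conj (isConj_inv_pow_of r2_pow z7_rel ⟨0, by norm_num⟩) hkr)

theorem class11 {x : G22} (hx : x ^ 11 = 1) (hx1 : x ≠ 1) : IsConj r4 x ∨ IsConj r5 x := by
  obtain ⟨g, k, hk, hk0, hkr⟩ := conj_into_zpowers ord_r4 fac11 (orderOf_eq_prime hx hx1)
  rw [r5_eq]
  interval_cases k
  · exact Or.inl (isConj_of_conj (isConj_pow_of r4_pow z11_rel ⟨0, by norm_num⟩) hkr)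
  · exact Or.inr (isConj_of_conj (isConj_inv_pow_of r4_pow z11_rel ⟨2, by norm_num⟩) hkr)
  · exact Or.inl (isConj_of_conj (isConj_pow_of r4_pow z11_rel ⟨1, by norm_num⟩) hkr)
  · exact Or.inl (isConj_of_conj (isConj_pow_of r4_pow z11_rel ⟨4, by norm_num⟩) hkr)
  · exact Or.inl (isConj_of_conj (isConj_pow_of r4_pow z11_rel ⟨3, by norm_num⟩) hkr)
  · exact Or.inr (isConj_of_conj (isConj_inv_pow_of r4_pow z11_rel ⟨3, by norm_num⟩) hkr)
  · exact Or.inr (isConj_of_conj (isConj_inv_pow_of r4_pow z11_rel ⟨4, by norm_num⟩) hkr)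
  · exact Or.inr (isConj_of_conj (isConj_inv_pow_of r4_pow z11_rel ⟨1, by norm_num⟩) hkr)
  · exact Or.inl (isConj_of_conj (isConj_pow_of r4_pow z11_rel ⟨2, by norm_num⟩) hkr)
  · exact Or.inr (isConj_of_conj (isConj_inv_pow_of r4_pow z11_rel ⟨0, by norm_num⟩) hkr)

theorem class3_cent {g : G22} (h : g * r6 = r6 * g) (h3 : g ^ 3 = 1) (h1 : g ≠ 1) :
    IsConj r6 g := by
  have hrep := rep_tabOf (g : Equiv.Perm GolayPt)
  rcases conj3_cover _ (cent6_mem h) with h2 | h2 | h2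
  · exact absurd (eq_one_of_rep (h2 ▸ hrep)) h1
  · exfalso
    apply h2
    have h4 := rep_pow' hrep 3
    rw [h3] at h4
    exact M9Struct.rep_unique h4 rep_one'
  · obtain ⟨c, hc, hce⟩ := List.mem_map.mp h2
    obtain ⟨h5, h6⟩ := conj3_chk c hc
    rw [hce] at h5
    have h7 : pairEl c.2.1 c.2.2 * r6 = g * pairEl c.2.1 c.2.2 :=
      mul_eq_of_tab (pairEl_rep _ h6) r_rep.2.2.2.2.2 hrep (pairEl_rep _ h6) h5
    rw [isConj_iff]
    exact ⟨pairEl c.2.1 c.2.2, by rw [h7]; group⟩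

theorem class3 {x : G22} (hx : x ^ 3 = 1) (hx1 : x ≠ 1) : IsConj r6 x := by
  have hr : IsPGroup 3 (Subgroup.zpowers r6) :=
    IsPGroup.of_card (n := 1) (by rw [Nat.card_zpowers, orderOf_eq_prime r6_pow r6_ne, pow_one])
  obtain ⟨Q, hQ⟩ := hr.exists_le_sylow
  have hxp : IsPGroup 3 (Subgroup.zpowers x) :=
    IsPGroup.of_card (n := 1) (by rw [Nat.card_zpowers, orderOf_eq_prime hx hx1, pow_one])
  obtain ⟨g, hg⟩ := sylow_conj_mem Q hxp
  have hcard : Nat.card (Q : Subgroup G22) = 3 ^ 2 := by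
    rw [Sylow.card_eq_multiplicity, fac3]
  have hcomm := (IsPGroup.isMulCommutative_of_card_eq_prime_sq hcard).is_comm.comm
  have h6 : r6 ∈ (Q : Subgroup G22) := hQ (Subgroup.mem_zpowers r6)
  have h1 := hcomm ⟨g * x * g⁻¹, hg⟩ ⟨r6, h6⟩
  have h2 : g * x * g⁻¹ * r6 = r6 * (g * x * g⁻¹) := congrArg Subtype.val h1
  have h3 : (g * x * g⁻¹) ^ 3 = 1 := by rw [conj_pow, hx]; group
  have h4 : g * x * g⁻¹ ≠ 1 := by
    intro h
    apply hx1
    have h5 : g * x * g⁻¹ = g * 1 * g⁻¹ := by rw [h]; group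
    exact mul_left_cancel (mul_right_cancel h5)
  exact isConj_of_conj (class3_cent h2 h3 h4) rfl

end Cfsg.Agent.Lib.Helper7.M22Class
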