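import Cfsg.Agent.Lib.Helper7.M22Chk
import Cfsg.Agent.Lib.Helper7.M22Chk2

set_option autoImplicit false

namespace Cfsg.Agent.Lib.Helper7.M22Enum

open Cfsg Cfsg.Agent.Lib.Helper7.GolayBase Cfsg.Agent.Lib.Helper7.GolayCode
  Cfsg.Agent.Lib.Helper7.M24Mem Cfsg.Agent.Lib.Helper7.GolayRigid
  Cfsg.Agent.Lib.Helper7.GolayPerm Cfsg.Agent.Lib.Helper7.ChainGen
  Cfsg.Agent.Lib.Helper7.M24Data Cfsg.Agent.Lib.Helper7.M24Core
  Cfsg.Agent.Lib.Helper7.M24Main Cfsg.Agent.Lib.Helper7.QuartetStab
  Cfsg.Agent.Lib.Helper7.L23Base Cfsg.Agent.Lib.Helper7.L23Norm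
  Cfsg.Agent.Lib.Helper7.M22Data Cfsg.Agent.Lib.Helper7.M22TL
  Cfsg.Agent.Lib.Helper7.M22Fn Cfsg.Agent.Lib.Helper7.M22Chk Cfsg.Agent.Lib.Helper7.M22Chk2
open scoped Pointwise

/-- The two-point stabiliser in the group of the code. -/
def K22 : Subgroup (Equiv.Perm GolayPt) := M24 ⊓ FixL [0, 23]

theorem card_K22 : Nat.card ↥K22 = 443520 := card2

theorem mem_K22_of_tabs {t : List Nat} (ht : t ∈ tabs) (h0 : t.getD 0 0 = 0)
    (h23 : t.getD 23 0 = 23) : ∃ g ∈ K22, Rep g t := by
  obtain ⟨g, hg, hr⟩ := tabs_rep t ht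
  refine ⟨g, ⟨H_le_M24 hg, ?_⟩, hr⟩
  intro f hf
  simp only [List.mem_cons, List.not_mem_nil, or_false] at hf
  rcases hf with rfl | rfl
  · exact hr.apply_eq (by norm_num) h0
  · exact hr.apply_eq (by norm_num) h23

theorem gens_rep : ∀ t ∈ [aT, bT, idT], ∃ g ∈ K22, Rep g t := by
  intro t ht
  simp only [List.mem_cons, List.not_mem_nil, or_false] at ht
  rcases ht with rfl | rfl | rfl
  · exact mem_K22_of_tabs aT_mem (by decide) (by decide)
  · exact mem_K22_of_tabs bT_mem (by decide) (by decide)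
  · exact ⟨1, K22.one_mem, rep_one⟩

set_option maxRecDepth 100000 in
theorem rows_rep : ∀ r ∈ rows22, ∃ g ∈ K22, Rep g r.2.2 :=
  chk_sound K22 [aT, bT, idT] gens_rep rows22 [] (fun _ h => absurd h List.not_mem_nil)
    M22Chk.rows_chk

theorem SL_rep : ∀ s ∈ SL, ∃ g ∈ K22, Rep g s := by
  intro s hs
  rw [SL_eq] at hs
  obtain ⟨r, hr, rfl⟩ := List.mem_map.mp hs
  exact rows_rep r (List.mem_of_mem_drop (List.mem_of_mem_take hr))

theorem VL_rep : ∀ v ∈ VL, ∃ g ∈ K22, Rep g v := by
  intro s hs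
  rw [VL] at hs
  obtain ⟨r, hr, rfl⟩ := List.mem_map.mp hs
  exact rows_rep r (List.mem_of_mem_drop hr)

theorem SL_getD_rep (m : Nat) : ∃ g ∈ K22, Rep g (SL.getD m idT) := getD_rep K22 SL SL_rep m

theorem VL_getD_rep (k : Nat) : ∃ g ∈ K22, Rep g (VL.getD k idT) := getD_rep K22 VL VL_rep k

/-- The elements of the Sylow 2-subgroup. -/
noncomputable def sig (m : Nat) : ↥K22 :=
  ⟨(SL_getD_rep m).choose, (SL_getD_rep m).choose_spec.1⟩

theorem sig_rep (m : Nat) : Rep (sig m : Equiv.Perm GolayPt) (SL.getD m idT) :=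
  (SL_getD_rep m).choose_spec.2

/-- The inverses of the coset representatives. -/
noncomputable def vv (k : Nat) : ↥K22 :=
  ⟨(VL_getD_rep k).choose, (VL_getD_rep k).choose_spec.1⟩

theorem vv_rep (k : Nat) : Rep (vv k : Equiv.Perm GolayPt) (VL.getD k idT) :=
  (VL_getD_rep k).choose_spec.2

/-- The coset representatives. -/
noncomputable def tau (k : Nat) : ↥K22 := (vv k)⁻¹

theorem zip_getD_mem {α β : Type} (A : List α) (B : List β) (k : Nat) (hA : k < A.length)
    (hB : k < B.length) (a : α) (b : β) : (A.getD k a, B.getD k b) ∈ List.zip A B := by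
  rw [List.getD_eq_getElem _ _ hA, List.getD_eq_getElem _ _ hB]
  have h : k < (List.zip A B).length := by simp [hA, hB]
  have := List.getElem_mem h
  rwa [List.getElem_zip] at this

theorem idT_getD {i : Nat} (hi : i < 24) : idT.getD i 0 = i := by
  simp [idT, List.getD_eq_getElem?_getD, hi]

theorem tau_rep {k : Nat} (hk : k < 3465) : Rep (tau k : Equiv.Perm GolayPt) (TL.getD k idT) := by
  have hmem := zip_getD_mem VL TL k (by rw [VL_length]; exact hk) (by rw [TL_length]; exact hk)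
    idT idT
  obtain ⟨hlen, hinv⟩ := VT_inv _ hmem
  have hv := vv_rep k
  show Rep ((vv k : Equiv.Perm GolayPt)⁻¹) _
  refine hv.inv hlen ?_
  intro i hi
  have h1 : (tmul (TL.getD k idT) (VL.getD k idT)).getD i 0 = idT.getD i 0 := by rw [hinv]
  rwa [getD_tmul _ _ (by rw [hv.1]; exact hi), idT_getD hi] at h1

/-! ### The base flag -/

/-- The base flag. -/
def F0 : Finset (Finset GolayPt) := {mk 20, mk 96}

theorem smul_F0 {g : Equiv.Perm GolayPt} {t : List Nat} (h : Rep g t) :
    g • F0 = {mk (mapMask t 20), mk (mapMask t 96)} := by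
  rw [F0, Finset.smul_finset_insert, Finset.smul_finset_singleton, smul_mk h, smul_mk h]

theorem smul_F0_of_flagFix {A B : Nat} (h : flagFix A B = true) :
    ({mk A, mk B} : Finset (Finset GolayPt)) = F0 := by
  simp only [flagFix, Bool.or_eq_true, Bool.and_eq_true, beq_iff_eq] at h
  rcases h with ⟨rfl, rfl⟩ | ⟨rfl, rfl⟩
  · rfl
  · rw [F0, Finset.pair_comm]

theorem sig_smul (m : Nat) : (sig m : Equiv.Perm GolayPt) • F0 = F0 := by
  rw [smul_F0 (sig_rep m)]
  rcases Nat.lt_or_ge m 128 with hm | hm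
  · apply smul_F0_of_flagFix
    have hmem : SL.getD m idT ∈ SL := by
      rw [List.getD_eq_getElem _ _ (by rw [SL_length]; exact hm)]
      exact List.getElem_mem _
    exact SL_flag _ hmem
  · have : SL.getD m idT = idT := by
      rw [List.getD_eq_getElem?_getD, List.getElem?_eq_none (by rw [SL_length]; exact hm)]
      rfl
    rw [this]
    apply smul_F0_of_flagFix
    decide +kernel

/-- The code of an unordered pair of masks. -/
def codeN (A B : Nat) : Nat := if A ≤ B then A * 16777216 + B else B * 16777216 + A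

theorem codeN_comm (A B : Nat) : codeN A B = codeN B A := by
  unfold codeN
  split_ifs <;> omega

theorem code_eq (v : List Nat) : code v = codeN (mapMask v 20) (mapMask v 96) := by
  unfold code codeN
  rw [forceNat_eq, forceNat_eq]

theorem vv_inj {k k' : Nat} (hk : k < 3465) (hk' : k' < 3465)
    (h : (vv k : Equiv.Perm GolayPt) • F0 = (vv k' : Equiv.Perm GolayPt) • F0) : k = k' := by
  rw [smul_F0 (vv_rep k), smul_F0 (vv_rep k')] at h
  have hlt : ∀ (j : Nat) (m : Nat), mapMask (VL.getD j idT) m < 2 ^ 24 := fun j m =>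
    mapMask_lt (fun i hi => rep_lt (vv_rep j) hi) m
  have h2 := congrArg (fun s : Finset (Finset GolayPt) => (s : Set (Finset GolayPt))) h
  simp only [Finset.coe_insert, Finset.coe_singleton] at h2
  rw [Set.pair_eq_pair_iff] at h2
  have hcode : code (VL.getD k idT) = code (VL.getD k' idT) := by
    rw [code_eq, code_eq]
    rcases h2 with ⟨e1, e2⟩ | ⟨e1, e2⟩
    · rw [mk_injOn (hlt _ _) (hlt _ _) e1, mk_injOn (hlt _ _) (hlt _ _) e2]
    · rw [mk_injOn (hlt _ _) (hlt _ _) e1, mk_injOn (hlt _ _) (hlt _ _) e2, codeN_comm]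
  have hl : (VL.map code).length = 3465 := by rw [List.length_map, VL_length]
  have hk1 : k < (VL.map code).length := by rw [hl]; exact hk
  have hk2 : k' < (VL.map code).length := by rw [hl]; exact hk'
  have hkv : k < VL.length := by rw [VL_length]; exact hk
  have hkv' : k' < VL.length := by rw [VL_length]; exact hk'
  rw [List.getD_eq_getElem _ _ hkv, List.getD_eq_getElem _ _ hkv'] at hcode
  have h3 : (VL.map code)[k]'hk1 = (VL.map code)[k']'hk2 := by
    rw [List.getElem_map, List.getElem_map]; exact hcode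
  exact (List.Nodup.getElem_inj_iff codes_nodup).mp h3

theorem sig_inj {m m' : Nat} (hm : m < 128) (hm' : m' < 128) (h : sig m = sig m') : m = m' := by
  have h1 := sig_rep m
  rw [h] at h1
  have h2 := M9Struct.rep_unique h1 (sig_rep m')
  have hl : m < SL.length := by rw [SL_length]; exact hm
  have hl' : m' < SL.length := by rw [SL_length]; exact hm'
  rw [List.getD_eq_getElem _ _ hl, List.getD_eq_getElem _ _ hl'] at h2
  exact (List.Nodup.getElem_inj_iff SL_nodup).mp h2

/-- The enumeration of the group. -/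
noncomputable def enum (x : Fin 3465 × Fin 128) : ↥K22 := sig x.2 * tau x.1

theorem smul_F0_sub (g : ↥K22) : g • F0 = (g : Equiv.Perm GolayPt) • F0 := rfl

theorem enum_injective : Function.Injective enum := by
  rintro ⟨k, m⟩ ⟨k', m'⟩ h
  simp only [enum] at h
  have h1 : (tau k)⁻¹ * (sig m)⁻¹ = (tau k')⁻¹ * (sig m')⁻¹ := by
    rw [← mul_inv_rev, ← mul_inv_rev, h]
  have hs : ∀ j : Nat, (sig j)⁻¹ • F0 = F0 := by
    intro j
    rw [inv_smul_eq_iff, smul_F0_sub, sig_smul]
  have h2 : ((tau k)⁻¹ * (sig m)⁻¹) • F0 = ((tau k')⁻¹ * (sig m')⁻¹) • F0 := by rw [h1]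
  rw [mul_smul, mul_smul, hs, hs] at h2
  simp only [tau, inv_inv] at h2
  have hk := vv_inj k.2 k'.2 h2
  have hkk : k = k' := Fin.ext hk
  subst hkk
  have h3 : sig m = sig m' := mul_right_cancel h
  have hm := sig_inj m.2 m'.2 h3
  rw [Fin.ext hm]

theorem enum_bijective : Function.Bijective enum := by
  apply Function.Injective.bijective_of_nat_card_le enum_injective
  rw [card_K22, Nat.card_prod, Nat.card_eq_fintype_card, Nat.card_eq_fintype_card,
    Fintype.card_fin, Fintype.card_fin]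

theorem exists_enum (g : ↥K22) : ∃ k < 3465, ∃ m < 128, g = sig m * tau k := by
  obtain ⟨⟨k, m⟩, h⟩ := enum_bijective.2 g
  exact ⟨k, k.2, m, m.2, h.symm⟩

end Cfsg.Agent.Lib.Helper7.M22Enum
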