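import Cfsg.Agent.Lib.Helper7.L23Norm
import Cfsg.Agent.Lib.Helper7.M22Data
import Cfsg.Agent.Lib.Helper7.M22TL

set_option autoImplicit false

namespace Cfsg.Agent.Lib.Helper7.M22Fn

open Cfsg Cfsg.Agent.Lib.Helper7.GolayBase Cfsg.Agent.Lib.Helper7.GolayPerm
  Cfsg.Agent.Lib.Helper7.QuartetStab Cfsg.Agent.Lib.Helper7.L23Base
  Cfsg.Agent.Lib.Helper7.L23Norm Cfsg.Agent.Lib.Helper7.M22Data Cfsg.Agent.Lib.Helper7.M22TL

/-! ### Packed tables -/

/-- Packing a table, five bits per entry. -/
def pk (l : List Nat) : Nat := l.foldr (fun x acc => x + 32 * acc) 0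

/-- An entry of a packed table. -/
def dig (P i : Nat) : Nat := (P >>> (5 * i)) &&& 31

theorem dig_pk (l : List Nat) (hl : ∀ x ∈ l, x < 32) (i : Nat) : dig (pk l) i = l.getD i 0 := by
  induction l generalizing i with
  | nil => simp [pk, dig]
  | cons x l ih =>
    have hx : x < 32 := hl x (by simp)
    have hl' : ∀ y ∈ l, y < 32 := fun y hy => hl y (by simp [hy])
    have h31 : (31 : Nat) = 2 ^ 5 - 1 := by norm_num
    cases i with
    | zero =>
      simp only [pk, List.foldr_cons, dig, Nat.mul_zero, Nat.shiftRight_zero,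
        List.getD_cons_zero]
      rw [h31, Nat.and_two_pow_sub_one_eq_mod]
      omega
    | succ i =>
      have h := ih hl' i
      simp only [dig, pk, List.foldr_cons, List.getD_cons_succ] at h ⊢
      rw [← h]
      congr 1
      rw [Nat.shiftRight_eq_div_pow, Nat.shiftRight_eq_div_pow]
      have e1 : 2 ^ (5 * (i + 1)) = 32 * 2 ^ (5 * i) := by
        rw [Nat.mul_succ, Nat.pow_add]; norm_num [Nat.mul_comm]
      rw [e1, ← Nat.div_div_eq_div_mul]
      congr 1
      omega

/-! ### Twisted commutation -/

/-- Table test for `g * x = y * g`. -/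
def commX (e r r' : List Nat) : Bool :=
  (List.range 24).all (fun q => e.getD (r.getD q 0) 0 == r'.getD (e.getD q 0) 0)

theorem commX_of_rel {g x y : Equiv.Perm GolayPt} {e r r' : List Nat} (hg : Rep g e)
    (hx : Rep x r) (hy : Rep y r') (h : g * x = y * g) : commX e r r' = true := by
  rw [commX, List.all_eq_true]
  intro q hq
  have hq24 : q < 24 := List.mem_range.mp hq
  rw [beq_iff_eq, rep_getD hx hq24, hg.2, rep_getD hg hq24, hy.2]
  have := congrArg (fun f => f (pt q)) h
  simp only [Equiv.Perm.coe_mul, Function.comp_apply] at this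
  rw [this]

/-- Power of a table. -/
def powT (e : List Nat) (n : Nat) : List Nat := Nat.iterate (tmul e) n idT

theorem rep_powT {g : Equiv.Perm GolayPt} {e : List Nat} (h : Rep g e) (n : Nat) :
    Rep (g ^ n) (powT e n) := by
  induction n with
  | zero => simpa [powT] using rep_one
  | succ n ih =>
    rw [powT, Function.iterate_succ_apply', pow_succ']
    exact h.mul ih

/-! ### Flags -/

/-- Is the pair of masks the base flag? -/
def flagFix (A B : Nat) : Bool := (A == 20 && B == 96) || (A == 96 && B == 20)

/-- Does the table fix the base flag? -/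
def flagS (s : List Nat) : Bool := flagFix (mapMask s 20) (mapMask s 96)

/-- The code of the image of the base flag. -/
def code (v : List Nat) : Nat :=
  forceNat (mapMask v 20) fun A => forceNat (mapMask v 96) fun B =>
    if A ≤ B then A * 16777216 + B else B * 16777216 + A

/-- The inverses of the coset representatives. -/
def VL : List (List Nat) := (rows22.drop 172).map (fun r => r.2.2)

/-- Checking a double coset witness. -/
def dcOK (x : List Nat × Nat × Nat) : Bool :=
  forceList (TR.getD x.2.1 idT) fun tr => forceList (SL.getD x.2.2 idT) fun s =>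
  forceNat (mapMask x.1 20) fun a1 => forceNat (mapMask x.1 96) fun b1 =>
  forceNat (mapMask s a1) fun a2 => forceNat (mapMask s b1) fun b2 =>
    flagFix (mapMask tr a2) (mapMask tr b2)

end Cfsg.Agent.Lib.Helper7.M22Fn
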