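import Cfsg.Agent.Lib.Helper7.M22Fn
import Cfsg.Agent.Lib.Helper7.M22Data2

set_option autoImplicit false

namespace Cfsg.Agent.Lib.Helper7.M22Fn2

open Cfsg Cfsg.Agent.Lib.Helper7.GolayBase Cfsg.Agent.Lib.Helper7.GolayPerm
  Cfsg.Agent.Lib.Helper7.QuartetStab Cfsg.Agent.Lib.Helper7.L23Base
  Cfsg.Agent.Lib.Helper7.L23Norm Cfsg.Agent.Lib.Helper7.M22Data Cfsg.Agent.Lib.Helper7.M22TL
  Cfsg.Agent.Lib.Helper7.M22Fn Cfsg.Agent.Lib.Helper7.M22Data2

/-! ### The centraliser test -/

/-- The slow path of the centraliser test. -/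
def slow (s t r r' : List Nat) (L : List (List Nat)) : Bool :=
  forceList (tmul s t) (fun e => !(commX e r r') || L.contains e)

/-- Three entries of a coset representative, evaluated first. -/
def trip {α : Type} (t r : List Nat) (k : Nat × Nat × Nat → α) : α :=
  forceNat (t.getD (r.getD 1 0) 0) fun x1 => forceNat (t.getD (r.getD 2 0) 0) fun x2 =>
  forceNat (t.getD (r.getD 3 0) 0) fun x3 => k (x1, x2, x3)

theorem trip_eq {α : Type} (t r : List Nat) (k : Nat × Nat × Nat → α) :
    trip t r k = k (t.getD (r.getD 1 0) 0, t.getD (r.getD 2 0) 0, t.getD (r.getD 3 0) 0) := by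
  simp [trip, forceNat_eq]

/-- The test of one relation on one element. -/
def tst (sp : Nat) (s t : List Nat) (b2 b3 y : Nat) (aa : Nat × Nat × Nat) (rp : Nat)
    (r r' : List Nat) (L : List (List Nat)) : Bool :=
  dig sp aa.1 != dig rp y || dig sp aa.2.1 != dig rp (dig sp b2)
    || dig sp aa.2.2 != dig rp (dig sp b3) || slow s t r r' L

/-- The test of a coset. -/
def passT (t : List Nat) : Bool :=
  forceNat (t.getD 1 0) fun b1 => forceNat (t.getD 2 0) fun b2 => forceNat (t.getD 3 0) fun b3 =>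
  trip t R1 fun A1 => trip t R2 fun A2 => trip t R4 fun A4 => trip t R6 fun A6 =>
  SX.all (fun x => forceNat (dig x.1 b1) fun y =>
    tst x.1 x.2 t b2 b3 y A1 R1p R1 R1 C1L && tst x.1 x.2 t b2 b3 y A2 R2p R2 R2 C2L &&
    tst x.1 x.2 t b2 b3 y A4 R4p R4 R4 C4L && tst x.1 x.2 t b2 b3 y A6 R6p R6 R6 C6L &&
    tst x.1 x.2 t b2 b3 y A2 R3p R2 R3 [] && tst x.1 x.2 t b2 b3 y A4 R5p R4 R5 [])

theorem fast_false {s t r r' : List Nat} (hs : ∀ y ∈ s, y < 32) (hr' : ∀ y ∈ r', y < 32)
    (ht : t.length = 24) {q : Nat} (hq : q < 24) (hrq : r.getD q 0 < 24)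
    (hc : commX (tmul s t) r r' = true) :
    (dig (pk s) (t.getD (r.getD q 0) 0) != dig (pk r') (dig (pk s) (t.getD q 0))) = false := by
  rw [commX, List.all_eq_true] at hc
  have h3 := hc q (List.mem_range.mpr hq)
  rw [beq_iff_eq, getD_tmul _ _ (by rw [ht]; exact hrq), getD_tmul _ _ (by rw [ht]; exact hq)]
    at h3
  rw [dig_pk _ hs, dig_pk _ hs, dig_pk _ hr', h3]
  simp

theorem tst_sound {s t r r' : List Nat} {L : List (List Nat)} (hs : ∀ y ∈ s, y < 32)
    (hr' : ∀ y ∈ r', y < 32) (ht : t.length = 24) (h1 : r.getD 1 0 < 24) (h2 : r.getD 2 0 < 24)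
    (h3 : r.getD 3 0 < 24)
    (h : tst (pk s) s t (t.getD 2 0) (t.getD 3 0) (dig (pk s) (t.getD 1 0))
      (t.getD (r.getD 1 0) 0, t.getD (r.getD 2 0) 0, t.getD (r.getD 3 0) 0) (pk r') r r' L = true)
    (hc : commX (tmul s t) r r' = true) : tmul s t ∈ L := by
  simp only [tst] at h
  rw [fast_false hs hr' ht (by norm_num) h1 hc, fast_false hs hr' ht (by norm_num) h2 hc,
    fast_false hs hr' ht (by norm_num) h3 hc] at h
  simp only [Bool.false_or] at h
  rw [slow, forceList_eq, hc] at h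
  simpa using h

/-! ### Certificates -/

/-- An entry of a packed list of packed tables. -/
def getP (big i : Nat) : Nat := (big >>> (120 * i)) &&& 1329227995784915872903807060280344575

/-- An entry of a product of packed tables. -/
def apP (sp tp i : Nat) : Nat := dig sp (dig tp i)

/-- Checking one class certificate. -/
def certOK (tp : Nat) (x : (Nat × List Nat) × (Nat × Nat × Nat)) : Bool :=
  if x.2.1 == 0 then
    (if x.2.2.2 == 0 then (List.range 24).all (fun i => apP x.1.1 tp i == i)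
     else apP x.1.1 tp x.2.2.1 != x.2.2.1
       && Nat.iterate (apP x.1.1 tp) x.2.2.2 x.2.2.1 == x.2.2.1
       && (x.2.2.2 == 2 || x.2.2.2 == 3 || x.2.2.2 == 4) && decide (x.2.2.1 < 24))
  else
    decide (x.2.2.1 < 128) && decide (x.2.2.2 < 3465) && decide (x.2.1 ≤ 5) &&
    forceNat (getP SLbig x.2.2.1) fun s'p => forceNat (getP TLbig x.2.2.2) fun t'p =>
    forceNat (RLp.getD x.2.1 0) fun rp =>
    (List.range 24).all (fun i => apP s'p t'p (dig rp i) == apP x.1.1 tp (apP s'p t'p i))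

/-- Checking the certificates of a coset. -/
def certRow (i : Nat) : Bool :=
  forceNat (pk (TR.getD i idT)) fun tp => (List.zip SX (CERT.getD i [])).all (certOK tp)

end Cfsg.Agent.Lib.Helper7.M22Fn2
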