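import Cfsg.Agent.Lib.Helper7.M22Rob3
import Cfsg.Agent.Lib.Helper7.M24Octad2
import Cfsg.Agent.Lib.Helper47.Basic

set_option autoImplicit false

namespace Cfsg.Agent.Lib.Helper7.M22Local

open Cfsg Cfsg.Agent.Lib.Helper7.GolayBase Cfsg.Agent.Lib.Helper7.GolayRigid
  Cfsg.Agent.Lib.Helper7.GolayPerm Cfsg.Agent.Lib.Helper7.L23Base
  Cfsg.Agent.Lib.Helper7.M22Data Cfsg.Agent.Lib.Helper7.M22Chk3
  Cfsg.Agent.Lib.Helper7.M22Enum Cfsg.Agent.Lib.Helper7.M22Sound Cfsg.Agent.Lib.Helper7.M22Class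
  Cfsg.Agent.Lib.Helper7.M22Rob Cfsg.Agent.Lib.Helper7.M22Rob2 Cfsg.Agent.Lib.Helper7.M22Rob3
  Cfsg.Agent.Lib.Helper7.M24Octad Cfsg.Agent.Lib.Helper7.M24Octad2
open scoped Pointwise

/-- A `p`-subgroup normalised by the normaliser of `D` lies in `D` when `D` is the `p`-core of
its normaliser. -/
theorem le_of_normal_in_normalizer {G : Type*} [Group G] {p : ℕ} (D W : Subgroup G)
    (hW : W ≤ Subgroup.normalizer (D : Set G))
    (hn : ∀ n ∈ Subgroup.normalizer (D : Set G), ∀ w ∈ W, n * w * n⁻¹ ∈ W) (hp : IsPGroup p W)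
    (hcore : (Cfsg.pCore p (Subgroup.normalizer (D : Set G))).map
      (Subgroup.normalizer (D : Set G)).subtype = D) : W ≤ D := by
  have h1 : (W.subgroupOf (Subgroup.normalizer (D : Set G))).Normal := by
    constructor
    intro w hw n
    rw [Subgroup.mem_subgroupOf] at hw ⊢
    simpa using hn n n.2 w hw
  have h2 : IsPGroup p (W.subgroupOf (Subgroup.normalizer (D : Set G))) := hp.comap_subtype
  have h3 := Cfsg.Agent.Lib.Helper47.Basic.le_pCore h1 h2
  intro w hw
  rw [← hcore]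
  exact ⟨⟨w, hW hw⟩, h3 (Subgroup.mem_subgroupOf.mpr hw), rfl⟩

theorem centralizer_conj {G : Type*} [Group G] (D : Subgroup G) :
    ∀ n ∈ Subgroup.normalizer (D : Set G), ∀ w ∈ Subgroup.centralizer (D : Set G),
      n * w * n⁻¹ ∈ Subgroup.centralizer (D : Set G) := by
  intro n hn w hw
  rw [Subgroup.mem_centralizer_iff] at hw ⊢
  intro d hd
  have hd' : n⁻¹ * d * n ∈ D := by
    have := (Subgroup.mem_normalizer_iff.mp (Subgroup.inv_mem _ hn) d).mp hd
    simpa using this
  have h1 := hw _ hd'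
  have e1 : d * (n * w * n⁻¹) = n * ((n⁻¹ * d * n) * w) * n⁻¹ := by group
  have e2 : n * w * n⁻¹ * d = n * (w * (n⁻¹ * d * n)) * n⁻¹ := by group
  rw [e1, e2, h1]

/-- The pointwise stabiliser of a set of points. -/
def WW (Ω : Finset GolayPt) : Subgroup G22 :=
  (fixingSubgroup (Equiv.Perm GolayPt) (Ω : Set GolayPt)).comap K22.subtype

theorem mem_WW {Ω : Finset GolayPt} {g : G22} :
    g ∈ WW Ω ↔ ∀ p ∈ Ω, (g : Equiv.Perm GolayPt) p = p := by
  rw [WW, Subgroup.mem_comap, mem_fixingSubgroup_iff]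
  rfl

theorem WW_sq {Ω : Finset GolayPt} (hΩ : Ω ∈ octads) {g : G22} (hg : g ∈ WW Ω) : g * g = 1 := by
  apply Subtype.ext
  have h1 : (g : Equiv.Perm GolayPt) ∈ M24 ⊓ fixingSubgroup (Equiv.Perm GolayPt) (Ω : Set GolayPt) :=
    ⟨g.2.1, hg⟩
  exact (octad_fix hΩ).2 _ h1

theorem WW_comm {Ω : Finset GolayPt} (hΩ : Ω ∈ octads) {a b : G22} (ha : a ∈ WW Ω)
    (hb : b ∈ WW Ω) : a * b = b * a := by
  have h1 := WW_sq hΩ ha
  have h2 := WW_sq hΩ hb
  have h3 := WW_sq hΩ ((WW Ω).mul_mem ha hb)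
  have e1 : a⁻¹ = a := inv_eq_of_mul_eq_one_left h1
  have e2 : b⁻¹ = b := inv_eq_of_mul_eq_one_left h2
  have e3 : (a * b)⁻¹ = a * b := inv_eq_of_mul_eq_one_left h3
  rw [← e3, mul_inv_rev, e1, e2]

/-- An element fixing the octad `O6` pointwise and not commuting with `r6`. -/
noncomputable def w0 : G22 := pairEl 0 3146

theorem w0_spec : (∀ p ∈ mk O6, (w0 : Equiv.Perm GolayPt) p = p) ∧ w0 * r6 ≠ r6 * w0 := by
  have hrep := pairEl_rep 0 (show 3146 < 3465 by norm_num)
  obtain ⟨h1, h2⟩ := w0_chk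
  constructor
  · intro p hp
    rw [mem_mk] at hp
    have := h1 (idx p) (idx_lt p) hp
    rw [hrep.2 p] at this
    exact idx_injective this
  · intro h
    apply h2
    have h3 : Rep ((w0 * r6 : G22) : Equiv.Perm GolayPt) (tmul (pairT 0 3146) R6) :=
      rep_mul' hrep r_rep.2.2.2.2.2
    rw [h] at h3
    exact M9Struct.rep_unique h3 (rep_mul' r_rep.2.2.2.2.2 hrep)

theorem O6_octad : mk O6 ∈ octads := (mem_octads_iff _).mpr ⟨O6, O6_mem, rfl⟩

theorem coe_conj (a b : G22) (p : GolayPt) :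
    ((a⁻¹ * b * a : G22) : Equiv.Perm GolayPt) p =
      (a : Equiv.Perm GolayPt)⁻¹ ((b : Equiv.Perm GolayPt) ((a : Equiv.Perm GolayPt) p)) := by
  simp [Subgroup.coe_mul]

/-- Radical 2-subgroups of the group are self-centralising. -/
theorem hloc (D : Subgroup G22) (hD : IsPGroup 2 D) (hne : D ≠ ⊥)
    (hcore : (Cfsg.pCore 2 (Subgroup.normalizer (D : Set G22))).map
      (Subgroup.normalizer (D : Set G22)).subtype = D) :
    Subgroup.centralizer (D : Set G22) ≤ D := by
  have hDpow : ∀ d ∈ D, ∃ k : ℕ, d ^ 2 ^ k = 1 := by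
    intro d hd
    obtain ⟨k, hk⟩ := hD ⟨d, hd⟩
    exact ⟨k, by simpa using congrArg Subtype.val hk⟩
  obtain ⟨d0, hd01⟩ := (Subgroup.ne_bot_iff_exists_ne_one.mp hne)
  have hd0D : (d0 : G22) ∈ D := d0.2
  have hd0ne : (d0 : G22) ≠ 1 := fun h => hd01 (Subtype.ext h)
  rcases Nat.eq_two_pow_or_exists_odd_prime_and_dvd
      (Nat.card (Subgroup.centralizer (D : Set G22))) with ⟨k, hk⟩ | ⟨q, hq, hqd, hqodd⟩
  · exact le_of_normal_in_normalizer D _ (Subgroup.centralizer_le_normalizer _)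
      (centralizer_conj D) (IsPGroup.of_card hk) hcore
  exfalso
  haveI : Fact q.Prime := ⟨hq⟩
  obtain ⟨c, hc⟩ := exists_prime_orderOf_dvd_card' q hqd
  have hc0 : orderOf (c : G22) = q := by rw [Subgroup.orderOf_coe]; exact hc
  have hcq : (c : G22) ^ q = 1 := by rw [← hc0]; exact pow_orderOf_eq_one _
  have hc1 : (c : G22) ≠ 1 := by
    intro h
    rw [h, orderOf_one] at hc0
    exact hq.one_lt.ne hc0
  have hcomm : ∀ d ∈ D, d * (c : G22) = (c : G22) * d := fun d hd =>
    Subgroup.mem_centralizer_iff.mp c.2 d hd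
  have hqdvd : q ∣ 443520 := by
    rw [← card_G22, ← hc0]; exact orderOf_dvd_natCard _
  have hq2 : q ≠ 2 := by
    rintro rfl
    exact (Nat.not_even_iff_odd.mpr hqodd) even_two
  -- the case of a class with odd centraliser
  have key : ∀ i : Fin 5, IsConj (rEl i) (c : G22) → False := by
    intro i hcj
    obtain ⟨e, he⟩ := isConj_iff.mp hcj
    have h1 := cent_rEl i (conj_comm he (hcomm _ hd0D))
    have h2 : (d0 : G22) ^ (![5, 7, 7, 11, 11] i) = 1 := pow_of_conj h1
    obtain ⟨k, hk⟩ := hDpow _ hd0D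
    have hcop : Nat.Coprime (2 ^ k) (![5, 7, 7, 11, 11] i) := by
      apply Nat.Coprime.pow_left
      fin_cases i <;> decide
    exact hd0ne (pow_coprime_eq_one hk h2 hcop)
  rcases prime_dvd_card hq hqdvd with rfl | rfl | rfl | rfl | rfl
  · exact hq2 rfl
  · -- order 3
    obtain ⟨e, he⟩ := isConj_iff.mp (class3 hcq hc1)
    have heM : (e : Equiv.Perm GolayPt) ∈ M24 := e.2.1
    have hΩ : (e : Equiv.Perm GolayPt) • mk O6 ∈ octads := smul_mem_octads heM O6_octad
    -- elements of D, conjugated back, fix the octad pointwise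
    have hfix : ∀ d ∈ D, (e⁻¹ * d * e) ^ 2 = 1 ∧
        ((e⁻¹ * d * e) = 1 ∨ ∀ p : GolayPt, ((e⁻¹ * d * e : G22) : Equiv.Perm GolayPt) p = p ↔
          p ∈ mk O6) := by
      intro d hd
      obtain ⟨h6, h3⟩ := cent6 (conj_comm he (hcomm d hd))
      obtain ⟨k, hk⟩ := hDpow d hd
      have hk' : (e⁻¹ * d * e) ^ 2 ^ k = 1 := by
        have e1 : e⁻¹ * d * e = e⁻¹ * d * e⁻¹⁻¹ := by rw [inv_inv]
        rw [e1, conj_pow, hk]; group
      have ho1 : orderOf (e⁻¹ * d * e) ∣ 2 * 3 := orderOf_dvd_of_pow_eq_one h6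
      have ho2 : orderOf (e⁻¹ * d * e) ∣ 2 ^ k := orderOf_dvd_of_pow_eq_one hk'
      have hcop : Nat.Coprime (orderOf (e⁻¹ * d * e)) 3 :=
        Nat.Coprime.coprime_dvd_left ho2 (Nat.Coprime.pow_left k (by decide))
      have ho3 : orderOf (e⁻¹ * d * e) ∣ 2 := hcop.dvd_of_dvd_mul_right ho1
      have hsq : (e⁻¹ * d * e) ^ 2 = 1 := orderOf_dvd_iff_pow_eq_one.mp ho3
      refine ⟨hsq, ?_⟩
      rcases h3 with h3 | h3 | h3
      · exact Or.inl h3
      · exact absurd hsq h3
      · exact Or.inr h3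
    have hmemΩ : ∀ p : GolayPt, p ∈ (e : Equiv.Perm GolayPt) • mk O6 ↔
        (e : Equiv.Perm GolayPt)⁻¹ p ∈ mk O6 := by
      intro p
      rw [← Finset.inv_smul_mem_iff]
      rfl
    -- D lies in W
    have hDW : D ≤ WW ((e : Equiv.Perm GolayPt) • mk O6) := by
      intro d hd
      rw [mem_WW]
      intro p hp
      rw [hmemΩ] at hp
      rcases (hfix d hd).2 with h | h
      · have h' : d = 1 := by
          have e1 : d = e * (e⁻¹ * d * e) * e⁻¹ := by group
          rw [e1, h]; group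
        rw [h']; rfl
      · have h1 := (h _).mpr hp
        rw [coe_conj] at h1
        simpa using congrArg (fun x => (e : Equiv.Perm GolayPt) x) h1
    -- fixed points of nontrivial elements of D
    have hFix : ∀ d ∈ D, d ≠ 1 → ∀ p : GolayPt, (d : Equiv.Perm GolayPt) p = p ↔
        p ∈ (e : Equiv.Perm GolayPt) • mk O6 := by
      intro d hd hd1 p
      rcases (hfix d hd).2 with h | h
      · exfalso
        apply hd1
        have e1 : d = e * (e⁻¹ * d * e) * e⁻¹ := by group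
        rw [e1, h]; group
      · rw [hmemΩ, ← h, coe_conj]
        rw [Equiv.Perm.coe_inv, Equiv.apply_symm_apply]
        constructor
        · intro h1; rw [h1]
        · intro h1
          exact (Equiv.symm (e : Equiv.Perm GolayPt)).injective h1
    -- W centralises D
    have hWC : WW ((e : Equiv.Perm GolayPt) • mk O6) ≤ Subgroup.centralizer (D : Set G22) := by
      intro w hw
      rw [Subgroup.mem_centralizer_iff]
      intro d hd
      exact WW_comm hΩ (hDW hd) hw
    -- the normaliser of D normalises W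
    have hWN : ∀ n ∈ Subgroup.normalizer (D : Set G22),
        ∀ w ∈ WW ((e : Equiv.Perm GolayPt) • mk O6),
          n * w * n⁻¹ ∈ WW ((e : Equiv.Perm GolayPt) • mk O6) := by
      intro n hn w hw
      rw [mem_WW] at hw ⊢
      intro p hp
      have hd' : n⁻¹ * (d0 : G22) * n ∈ D := by
        have := (Subgroup.mem_normalizer_iff.mp (Subgroup.inv_mem _ hn) d0).mp hd0D
        simpa using this
      have hd'ne : n⁻¹ * (d0 : G22) * n ≠ 1 := by
        intro h
        apply hd0ne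
        have e1 : (d0 : G22) = n * (n⁻¹ * (d0 : G22) * n) * n⁻¹ := by group
        rw [e1, h]; group
      have h1 : (d0 : Equiv.Perm GolayPt) p = p := (hFix _ hd0D hd0ne p).mpr hp
      have h2 : (n : Equiv.Perm GolayPt)⁻¹ p ∈ (e : Equiv.Perm GolayPt) • mk O6 := by
        rw [← hFix _ hd' hd'ne, coe_conj]
        simp [h1]
      have h3 := hw _ h2
      show ((n * w * n⁻¹ : G22) : Equiv.Perm GolayPt) p = p
      simp only [Subgroup.coe_mul, Subgroup.coe_inv, Equiv.Perm.coe_mul, Function.comp_apply]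
      rw [h3]
      simp
    have hWp : IsPGroup 2 (WW ((e : Equiv.Perm GolayPt) • mk O6)) := by
      intro w
      refine ⟨1, ?_⟩
      apply Subtype.ext
      rw [pow_one, pow_two]
      exact WW_sq hΩ w.2
    have hWD := le_of_normal_in_normalizer D _
      (le_trans hWC (Subgroup.centralizer_le_normalizer _)) hWN hWp hcore
    -- the contradiction
    obtain ⟨hw1, hw2⟩ := w0_spec
    have hw0 : e * w0 * e⁻¹ ∈ WW ((e : Equiv.Perm GolayPt) • mk O6) := by
      rw [mem_WW]
      intro p hp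
      rw [hmemΩ] at hp
      have := hw1 _ hp
      show ((e * w0 * e⁻¹ : G22) : Equiv.Perm GolayPt) p = p
      simp only [Subgroup.coe_mul, Subgroup.coe_inv, Equiv.Perm.coe_mul, Function.comp_apply]
      rw [this]
      simp
    have h4 := hcomm _ (hWD hw0)
    rw [← he] at h4
    apply hw2
    have e1 : e * w0 * e⁻¹ * (e * r6 * e⁻¹) = e * (w0 * r6) * e⁻¹ := by group
    have e2 : e * r6 * e⁻¹ * (e * w0 * e⁻¹) = e * (r6 * w0) * e⁻¹ := by group
    rw [e1, e2] at h4
    exact mul_left_cancel (mul_right_cancel h4)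
  · exact key 0 (class5 hcq hc1)
  · rcases class7 hcq hc1 with h | h
    · exact key 1 h
    · exact key 2 h
  · rcases class11 hcq hc1 with h | h
    · exact key 3 h
    · exact key 4 h

end Cfsg.Agent.Lib.Helper7.M22Local
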