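import Cfsg.Agent.Lib.Helper7.M22Fn2

set_option autoImplicit false

namespace Cfsg.Agent.Lib.Helper7.M22Pass7

open Cfsg Cfsg.Agent.Lib.Helper7.M22TL Cfsg.Agent.Lib.Helper7.M22Fn2

set_option maxRecDepth 100000

theorem pass_0 : ((TL_7.drop 0).take 31).all passT = true := by decide +kernel

theorem pass_1 : ((TL_7.drop 31).take 31).all passT = true := by decide +kernel

theorem pass_2 : ((TL_7.drop 62).take 31).all passT = true := by decide +kernel

theorem pass_3 : ((TL_7.drop 93).take 31).all passT = true := by decide +kernel

theorem pass_4 : ((TL_7.drop 124).take 31).all passT = true := by decide +kernel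

theorem pass_5 : ((TL_7.drop 155).take 31).all passT = true := by decide +kernel

theorem pass_6 : ((TL_7.drop 186).take 31).all passT = true := by decide +kernel

theorem pass_7 : ((TL_7.drop 217).take 31).all passT = true := by decide +kernel

theorem pass_8 : ((TL_7.drop 248).take 31).all passT = true := by decide +kernel

theorem pass_9 : ((TL_7.drop 279).take 31).all passT = true := by decide +kernel

theorem pass_10 : ((TL_7.drop 310).take 31).all passT = true := by decide +kernel

theorem pass_11 : ((TL_7.drop 341).take 31).all passT = true := by decide +kernel

theorem pass_12 : ((TL_7.drop 372).take 31).all passT = true := by decide +kernel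

theorem pass_13 : ((TL_7.drop 403).take 31).all passT = true := by decide +kernel

theorem pass_slices : ∀ j < 14, ((TL_7.drop (31 * j)).take 31).all passT = true := by
  intro j hj
  interval_cases j
  · exact pass_0
  · exact pass_1
  · exact pass_2
  · exact pass_3
  · exact pass_4
  · exact pass_5
  · exact pass_6
  · exact pass_7
  · exact pass_8
  · exact pass_9
  · exact pass_10
  · exact pass_11
  · exact pass_12
  · exact pass_13

end Cfsg.Agent.Lib.Helper7.M22Pass7
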