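import Cfsg.Agent.Lib.Helper7.M22Class
import Cfsg.Agent.Lib.Helper7.M22Cert0
import Cfsg.Agent.Lib.Helper7.M22Cert1
import Cfsg.Agent.Lib.Helper7.M22Cert2

set_option autoImplicit false

namespace Cfsg.Agent.Lib.Helper7.M22Rob

open Cfsg Cfsg.Agent.Lib.Helper7.GolayBase Cfsg.Agent.Lib.Helper7.GolayCode
  Cfsg.Agent.Lib.Helper7.M24Mem Cfsg.Agent.Lib.Helper7.GolayRigid
  Cfsg.Agent.Lib.Helper7.GolayPerm Cfsg.Agent.Lib.Helper7.ChainGen
  Cfsg.Agent.Lib.Helper7.QuartetStab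
  Cfsg.Agent.Lib.Helper7.L23Base Cfsg.Agent.Lib.Helper7.L23Norm
  Cfsg.Agent.Lib.Helper7.M22Data Cfsg.Agent.Lib.Helper7.M22TL
  Cfsg.Agent.Lib.Helper7.M22Fn Cfsg.Agent.Lib.Helper7.M22Chk Cfsg.Agent.Lib.Helper7.M22Chk2
  Cfsg.Agent.Lib.Helper7.M22Data2 Cfsg.Agent.Lib.Helper7.M22Fn2 Cfsg.Agent.Lib.Helper7.M22Chk3
  Cfsg.Agent.Lib.Helper7.M22Enum Cfsg.Agent.Lib.Helper7.M22Sound Cfsg.Agent.Lib.Helper7.M22Class
open scoped Pointwise

/-! ### Sums over lists -/

theorem sum_fin_getD {α : Type} (l : List α) (d : α) (f : α → ℕ) :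
    ∀ (n : ℕ), l.length = n → ∑ k : Fin n, f (l.getD k d) = (l.map f).sum := by
  induction l with
  | nil => intro n hn; subst hn; simp
  | cons a l ih =>
    intro n hn
    subst hn
    rw [List.length_cons, Fin.sum_univ_succ]
    simp only [Fin.val_zero, List.getD_cons_zero, Fin.val_succ, List.getD_cons_succ,
      List.map_cons, List.sum_cons]
    rw [ih _ rfl]

theorem countP_eq_sum {α : Type} (l : List α) (p : α → Bool) :
    (l.map (fun a => if p a = true then 1 else 0)).sum = l.countP p := by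
  induction l with
  | nil => simp
  | cons a l ih =>
    rw [List.map_cons, List.sum_cons, ih, List.countP_cons]
    split_ifs <;> omega

theorem card_fin_getD {α : Type} (l : List α) (d : α) (p : α → Bool) (n : ℕ) (hl : l.length = n) :
    Nat.card {m : Fin n // p (l.getD m d) = true} = l.countP p := by
  classical
  rw [Nat.card_eq_fintype_card, Fintype.card_subtype, Finset.card_filter,
    sum_fin_getD l d (fun a => if p a = true then 1 else 0) n hl, countP_eq_sum]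

/-! ### The Sylow 2-subgroup -/

/-- The stabiliser of the base flag. -/
def S : Subgroup G22 := MulAction.stabilizer G22 F0

theorem mem_S {g : G22} : g ∈ S ↔ (g : Equiv.Perm GolayPt) • F0 = F0 :=
  MulAction.mem_stabilizer_iff

theorem sig_mem (m : ℕ) : sig m ∈ S := mem_S.mpr (sig_smul m)

theorem vv_zero : vv 0 = 1 := eq_one_of_rep (VL0 ▸ vv_rep 0)

theorem tau_zero : tau 0 = 1 := by rw [tau, vv_zero, inv_one]

theorem tau_mem_S {k : ℕ} (hk : k < 3465) (h : tau k ∈ S) : k = 0 := by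
  apply vv_inj hk (by norm_num)
  have h1 : (tau k)⁻¹ ∈ S := S.inv_mem h
  rw [tau, inv_inv] at h1
  rw [mem_S.mp h1, vv_zero]
  simp

theorem exists_sig {g : G22} (hg : g ∈ S) : ∃ m < 128, g = sig m := by
  obtain ⟨k, hk, m, hm, rfl⟩ := exists_enum g
  have h1 : tau k ∈ S := by
    have := S.mul_mem (S.inv_mem (sig_mem m)) hg
    simpa using this
  have h0 := tau_mem_S hk h1
  subst h0
  exact ⟨m, hm, by rw [tau_zero, mul_one]⟩

/-- The enumeration of the Sylow 2-subgroup. -/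
noncomputable def sigS (m : Fin 128) : ↥S := ⟨sig m, sig_mem m⟩

theorem sigS_bij : Function.Bijective sigS := by
  constructor
  · intro m m' h
    have := congrArg Subtype.val h
    exact Fin.ext (sig_inj m.2 m'.2 this)
  · rintro ⟨g, hg⟩
    obtain ⟨m, hm, rfl⟩ := exists_sig hg
    exact ⟨⟨m, hm⟩, rfl⟩

theorem card_S : Nat.card ↥S = 128 := by
  rw [← Nat.card_congr (Equiv.ofBijective sigS sigS_bij)]
  simp

/-- The Sylow 2-subgroup. -/
noncomputable def Syl : Sylow 2 G22 := Sylow.ofCard S (by rw [card_S, fac2]; norm_num)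

theorem coset_inj {k l : ℕ} (hk : k < 3465) (hl : l < 3465) {s t : G22} (hs : s ∈ S)
    (ht : t ∈ S) (h : s * tau k = t * tau l) : k = l := by
  apply vv_inj hk hl
  have h1 : (tau k)⁻¹ * s⁻¹ = (tau l)⁻¹ * t⁻¹ := by
    rw [← mul_inv_rev, ← mul_inv_rev, h]
  have h2 : ((tau k)⁻¹ * s⁻¹) • F0 = ((tau l)⁻¹ * t⁻¹) • F0 := by rw [h1]
  have hs' : s⁻¹ • F0 = F0 := MulAction.mem_stabilizer_iff.mp (S.inv_mem hs)
  have ht' : t⁻¹ • F0 = F0 := MulAction.mem_stabilizer_iff.mp (S.inv_mem ht)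
  rw [mul_smul, mul_smul, hs', ht'] at h2
  simp only [tau, inv_inv] at h2
  exact h2

/-! ### Counting in cosets -/

/-- The number of elements of a coset lying in a set. -/
noncomputable def nu (A : Set G22) (y : G22) : ℕ := Nat.card {s : ↥S // (s : G22) * y ∈ A}

theorem nu_left (A : Set G22) {s₀ : G22} (h : s₀ ∈ S) (y : G22) : nu A (s₀ * y) = nu A y := by
  apply Nat.card_congr
  exact (Equiv.mulRight (⟨s₀, h⟩ : ↥S)).subtypeEquiv (fun s => by simp [mul_assoc])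

theorem nu_right (A : Set G22) (hA : ∀ g a : G22, g * a * g⁻¹ ∈ A ↔ a ∈ A) {s₀ : G22}
    (h : s₀ ∈ S) (y : G22) : nu A (y * s₀) = nu A y := by
  apply Nat.card_congr
  refine (Equiv.mulLeft (⟨s₀, h⟩ : ↥S)).subtypeEquiv (fun s => ?_)
  rw [← hA s₀ (↑s * (y * s₀))]
  simp [mul_assoc]

theorem pair_count (A B : Set G22) :
    Nat.card {yz : G22 × G22 // yz.1 ∈ A ∧ yz.2 ∈ B ∧ yz.2 * yz.1⁻¹ ∈ S} =
      ∑ k : Fin 3465, nu A (tau k) * nu B (tau k) := by
  have e : (Σ k : Fin 3465, {s : ↥S // (s : G22) * tau k ∈ A} × {s : ↥S // (s : G22) * tau k ∈ B})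
      ≃ {yz : G22 × G22 // yz.1 ∈ A ∧ yz.2 ∈ B ∧ yz.2 * yz.1⁻¹ ∈ S} := by
    refine Equiv.ofBijective
      (fun x => ⟨((x.2.1.1 : G22) * tau x.1, (x.2.2.1 : G22) * tau x.1), x.2.1.2, x.2.2.2, ?_⟩)
      ⟨?_, ?_⟩
    · have h1 : (x.2.2.1 : G22) * tau x.1 * ((x.2.1.1 : G22) * tau x.1)⁻¹
          = (x.2.2.1 : G22) * (x.2.1.1 : G22)⁻¹ := by group
      show (x.2.2.1 : G22) * tau x.1 * ((x.2.1.1 : G22) * tau x.1)⁻¹ ∈ S
      rw [h1]
      exact S.mul_mem x.2.2.1.2 (S.inv_mem x.2.1.1.2)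
    · rintro ⟨k, ⟨⟨s, hs⟩, hsA⟩, ⟨⟨s', hs'⟩, hsB⟩⟩ ⟨l, ⟨⟨t, ht⟩, htA⟩, ⟨⟨t', ht'⟩, htB⟩⟩ h
      simp only [Subtype.mk.injEq, Prod.mk.injEq] at h
      obtain ⟨h1, h2⟩ := h
      have hkl : k = l := Fin.ext (coset_inj k.2 l.2 hs ht h1)
      subst hkl
      have e1 : s = t := mul_right_cancel h1
      have e2 : s' = t' := mul_right_cancel h2
      subst e1
      subst e2
      rfl
    · rintro ⟨⟨y, z⟩, hA, hB, hS⟩
      obtain ⟨k, hk, m, hm, rfl⟩ := exists_enum y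
      have hz : z * (sig m * tau k)⁻¹ * sig m * tau k = z := by group
      refine ⟨⟨⟨k, hk⟩, ⟨⟨sig m, sig_mem m⟩, hA⟩,
        ⟨⟨z * (sig m * tau k)⁻¹ * sig m, S.mul_mem hS (sig_mem m)⟩, ?_⟩⟩, ?_⟩
      · show z * (sig m * tau k)⁻¹ * sig m * tau k ∈ B
        rw [hz]; exact hB
      · apply Subtype.ext
        show (sig m * tau k, z * (sig m * tau k)⁻¹ * sig m * tau k) = (sig m * tau k, z)
        rw [hz]
  rw [← Nat.card_congr e, Nat.card_sigma]
  simp only [Nat.card_prod]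
  rfl

/-! ### Double cosets -/

theorem TRidx_length : TRidx.length = 60 := by decide

theorem TR_getD {ρ : ℕ} (hρ : ρ < 60) :
    TR.getD ρ idT = TL.getD (TRidx.getD ρ 0) idT ∧ TRidx.getD ρ 0 < 3465 := by
  have hl : ρ < TRidx.length := by rw [TRidx_length]; exact hρ
  constructor
  · rw [← TR_eq, List.getD_eq_getElem _ _ (by rw [List.length_map]; exact hl),
      List.getElem_map, List.getD_eq_getElem _ _ hl]
  · rw [List.getD_eq_getElem _ _ hl]
    exact TRidx_lt _ (List.getElem_mem _)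

/-- The double coset representatives. -/
noncomputable def trep (ρ : ℕ) : G22 := tau (TRidx.getD ρ 0)

theorem trep_rep {ρ : ℕ} (hρ : ρ < 60) : Rep (trep ρ : Equiv.Perm GolayPt) (TR.getD ρ idT) := by
  obtain ⟨h1, h2⟩ := TR_getD hρ
  rw [h1]
  exact tau_rep h2

theorem smul_pair {g : Equiv.Perm GolayPt} {t : List Nat} (h : Rep g t) (a b : ℕ) :
    g • ({mk a, mk b} : Finset (Finset GolayPt)) = {mk (mapMask t a), mk (mapMask t b)} := by
  rw [Finset.smul_finset_insert, Finset.smul_finset_singleton, smul_mk h, smul_mk h]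

theorem DC_getD_lt {k : ℕ} (hk : k < 3465) :
    (DC.getD k (0, 0)).1 < 60 ∧ (DC.getD k (0, 0)).2 < 128 := by
  have hl : k < DC.length := by rw [DC_length]; exact hk
  rw [List.getD_eq_getElem _ _ hl]
  exact DC_lt _ (List.getElem_mem _)

theorem dc_mem {k : ℕ} (hk : k < 3465) :
    trep (DC.getD k (0, 0)).1 * sig (DC.getD k (0, 0)).2 * vv k ∈ S := by
  have hmem := zip_getD_mem VL DC k (by rw [VL_length]; exact hk) (by rw [DC_length]; exact hk)
    idT (0, 0)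
  have h := DC_chk _ hmem
  simp only [dcOK, forceList_eq, forceNat_eq] at h
  rw [mem_S]
  show ((trep (DC.getD k (0, 0)).1 : Equiv.Perm GolayPt) * (sig (DC.getD k (0, 0)).2 : Equiv.Perm GolayPt)
    * (vv k : Equiv.Perm GolayPt)) • F0 = F0
  rw [mul_smul, mul_smul]
  have h0 : F0 = ({mk 20, mk 96} : Finset (Finset GolayPt)) := rfl
  rw [h0, smul_pair (vv_rep k), smul_pair (sig_rep _), smul_pair (trep_rep (DC_getD_lt hk).1)]
  exact smul_F0_of_flagFix h

theorem nu_dc (A : Set G22) (hA : ∀ g a : G22, g * a * g⁻¹ ∈ A ↔ a ∈ A) {k : ℕ}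
    (hk : k < 3465) : nu A (tau k) = nu A (trep (DC.getD k (0, 0)).1) := by
  have h := dc_mem hk
  have h1 : trep (DC.getD k (0, 0)).1 * sig (DC.getD k (0, 0)).2
      = (trep (DC.getD k (0, 0)).1 * sig (DC.getD k (0, 0)).2 * vv k) * tau k := by
    rw [tau]; group
  rw [← nu_left A h (tau k), ← h1, nu_right A hA (sig_mem _)]

end Cfsg.Agent.Lib.Helper7.M22Rob
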