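import Cfsg.Agent.Lib.Helper7.M22Rob

set_option autoImplicit false

namespace Cfsg.Agent.Lib.Helper7.M22Rob2

open Cfsg Cfsg.Agent.Lib.Helper7.GolayBase Cfsg.Agent.Lib.Helper7.GolayCode
  Cfsg.Agent.Lib.Helper7.M24Mem Cfsg.Agent.Lib.Helper7.GolayRigid
  Cfsg.Agent.Lib.Helper7.GolayPerm Cfsg.Agent.Lib.Helper7.ChainGen
  Cfsg.Agent.Lib.Helper7.QuartetStab
  Cfsg.Agent.Lib.Helper7.L23Base Cfsg.Agent.Lib.Helper7.L23Norm
  Cfsg.Agent.Lib.Helper7.M22Data Cfsg.Agent.Lib.Helper7.M22TL
  Cfsg.Agent.Lib.Helper7.M22Fn Cfsg.Agent.Lib.Helper7.M22Chk Cfsg.Agent.Lib.Helper7.M22Chk2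
  Cfsg.Agent.Lib.Helper7.M22Data2 Cfsg.Agent.Lib.Helper7.M22Fn2 Cfsg.Agent.Lib.Helper7.M22Chk3
  Cfsg.Agent.Lib.Helper7.M22Enum Cfsg.Agent.Lib.Helper7.M22Sound Cfsg.Agent.Lib.Helper7.M22Class
  Cfsg.Agent.Lib.Helper7.M22Rob
open scoped Pointwise

/-! ### The classes -/

/-- The representatives of the classes of defect zero. -/
noncomputable def rEl : Fin 5 → G22 := ![r1, r2, r3, r4, r5]

/-- The classes of defect zero, as sets. -/
def cls (i : Fin 5) : Set G22 := {y | IsConj (rEl i) y}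

theorem cls_conj (i : Fin 5) (g a : G22) : g * a * g⁻¹ ∈ cls i ↔ a ∈ cls i := by
  have h : IsConj a (g * a * g⁻¹) := isConj_iff.mpr ⟨g, rfl⟩
  exact ⟨fun h1 => IsConj.trans h1 h.symm, fun h1 => IsConj.trans h1 h⟩

theorem orderOf_conj {a b : G22} (h : IsConj a b) : orderOf a = orderOf b := by
  obtain ⟨c, hc⟩ := isConj_iff.mp h
  rw [← hc]
  exact ((MulAut.conj c).orderOf_eq a).symm

theorem ord_rEl : ∀ i : Fin 5, orderOf (rEl i) = ![5, 7, 7, 11, 11] i := by
  intro i
  fin_cases i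
  · exact ord_r1
  · exact ord_r2
  · show orderOf r3 = 7
    rw [r3_eq, orderOf_inv]; exact ord_r2
  · exact ord_r4
  · show orderOf r5 = 11
    rw [r5_eq, orderOf_inv]; exact ord_r4

theorem rEl_inj {i j : Fin 5} (h : IsConj (rEl i) (rEl j)) : i = j := by
  have ho := orderOf_conj h
  rw [ord_rEl, ord_rEl] at ho
  fin_cases i <;> fin_cases j <;> first
    | rfl
    | (exfalso; revert ho; decide)
    | exact absurd h not_conj23
    | exact absurd h.symm not_conj23
    | exact absurd h not_conj45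
    | exact absurd h.symm not_conj45

theorem rEl_pow (i : Fin 5) : rEl i ^ (![5, 7, 7, 11, 11] i) = 1 := by
  rw [← ord_rEl]; exact pow_orderOf_eq_one _

theorem not_cls_one (i : Fin 5) : (1 : G22) ∉ cls i := by
  intro h
  have ho := orderOf_conj h
  rw [ord_rEl, orderOf_one] at ho
  fin_cases i <;> simp at ho

/-- An element with a cycle of length 2, 3 or 4 lies in none of the classes. -/
theorem not_cls_of_cycle {g : G22} {q : GolayPt} {l : ℕ} (hl : l = 2 ∨ l = 3 ∨ l = 4)
    (h1 : ((g : Equiv.Perm GolayPt) ^ l) q = q) (h2 : (g : Equiv.Perm GolayPt) q ≠ q) (i : Fin 5) :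
    g ∉ cls i := by
  intro h
  obtain ⟨c, hc⟩ := isConj_iff.mp h
  have hpow : g ^ (![5, 7, 7, 11, 11] i) = 1 := by
    rw [← hc, conj_pow, rEl_pow]; group
  have hpow' : (g : Equiv.Perm GolayPt) ^ (![5, 7, 7, 11, 11] i) = 1 := by
    have := congrArg Subtype.val hpow
    simpa using this
  have hgcd : Nat.gcd l (![5, 7, 7, 11, 11] i) = 1 := by
    rcases hl with rfl | rfl | rfl <;> fin_cases i <;> decide
  have hst : ∀ n : ℕ, ((g : Equiv.Perm GolayPt) ^ n) q = q →
      (g : Equiv.Perm GolayPt) ^ n ∈ MulAction.stabilizer (Equiv.Perm GolayPt) q := fun n hn => hn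
  have hmem : (g : Equiv.Perm GolayPt) ∈ MulAction.stabilizer (Equiv.Perm GolayPt) q := by
    have e1 : (g : Equiv.Perm GolayPt) = ((g : Equiv.Perm GolayPt) ^ l) ^ (Nat.gcdA l (![5, 7, 7, 11, 11] i))
        * ((g : Equiv.Perm GolayPt) ^ (![5, 7, 7, 11, 11] i)) ^ (Nat.gcdB l (![5, 7, 7, 11, 11] i)) := by
      rw [← zpow_natCast, ← zpow_natCast, ← zpow_mul, ← zpow_mul, ← zpow_add,
        ← Nat.gcd_eq_gcd_ab, hgcd]
      simp
    rw [e1]
    apply Subgroup.mul_mem
    · exact Subgroup.zpow_mem _ (hst l h1) _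
    · rw [hpow']; exact Subgroup.zpow_mem _ (Subgroup.one_mem _) _
  exact h2 hmem

/-! ### Certificates -/

theorem rep_mem_lt {g : Equiv.Perm GolayPt} {t : List Nat} (h : Rep g t) : ∀ y ∈ t, y < 32 := by
  intro y hy
  obtain ⟨i, hi, rfl⟩ := List.mem_iff_getElem.mp hy
  have h24 : i < 24 := by rw [h.1] at hi; exact hi
  have := rep_lt h h24
  rw [List.getD_eq_getElem _ _ hi] at this
  omega

theorem apP_eq {g : Equiv.Perm GolayPt} {s t : List Nat} (hs : ∀ y ∈ s, y < 32)
    (ht : ∀ y ∈ t, y < 32) (htl : t.length = 24) (hg : Rep g (tmul s t)) {i : ℕ} (hi : i < 24) :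
    apP (pk s) (pk t) i = idx (g (pt i)) := by
  rw [apP, dig_pk _ ht, dig_pk _ hs, ← getD_tmul _ _ (by rw [htl]; exact hi), rep_getD hg hi]

theorem apP_iter {g : Equiv.Perm GolayPt} {s t : List Nat} (hs : ∀ y ∈ s, y < 32)
    (ht : ∀ y ∈ t, y < 32) (htl : t.length = 24) (hg : Rep g (tmul s t)) (q : GolayPt) (n : ℕ) :
    (apP (pk s) (pk t))^[n] (idx q) = idx ((g ^ n) q) := by
  induction n with
  | zero => simp
  | succ n ih =>
    rw [Function.iterate_succ_apply', ih, apP_eq hs ht htl hg (idx_lt _), pt_idx, pow_succ']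
    rfl

theorem getP_SL {m : ℕ} (hm : m < 128) : getP SLbig m = pk (SL.getD m idT) := by
  have h := SLbig_eq
  have hl : m < SL.length := by rw [SL_length]; exact hm
  have h1 : ((List.range 128).map (getP SLbig))[m]'(by simpa using hm) = (SL.map pk)[m]'(by simpa using hl) := by
    simp only [h]
  rw [List.getElem_map, List.getElem_map, List.getElem_range] at h1
  rw [h1, List.getD_eq_getElem _ _ hl]

theorem getP_TL {k : ℕ} (hk : k < 3465) : getP TLbig k = pk (TL.getD k idT) := by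
  have h := TLbig_eq
  have hl : k < TL.length := by rw [TL_length]; exact hk
  have h1 : ((List.range 3465).map (getP TLbig))[k]'(by simpa using hk) = (TL.map pk)[k]'(by simpa using hl) := by
    simp only [h]
  rw [List.getElem_map, List.getElem_map, List.getElem_range] at h1
  rw [h1, List.getD_eq_getElem _ _ hl]

theorem SX_getD {m : ℕ} (hm : m < 128) :
    SX.getD m (0, idT) = (pk (SL.getD m idT), SL.getD m idT) := by
  have hl : m < SL.length := by rw [SL_length]; exact hm
  have hl' : m < SX.length := by rw [SX_eq, List.length_map]; exact hl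
  rw [List.getD_eq_getElem _ _ hl', List.getD_eq_getElem _ _ hl]
  simp only [SX_eq, List.getElem_map]

/-- The label of a class certificate. -/
def certLab (ρ m : ℕ) : ℕ := ((CERT.getD ρ []).getD m (0, 0, 0)).1

theorem perm_eq_of_getD {a b : Equiv.Perm GolayPt} {A B : List Nat} (ha : Rep a A) (hb : Rep b B)
    (h : ∀ i < 24, A.getD i 0 = B.getD i 0) : a = b := by
  apply Equiv.ext
  intro p
  apply idx_injective
  rw [← ha.2 p, ← hb.2 p, h _ (idx_lt p)]

theorem cert_all : ∀ ρ < 60, certRow ρ = true := by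
  intro ρ hρ
  have h0 := List.all_eq_true.mp M22Cert0.cert
  have h1 := List.all_eq_true.mp M22Cert1.cert
  have h2 := List.all_eq_true.mp M22Cert2.cert
  rcases Nat.lt_or_ge ρ 20 with h | h
  · exact h0 ρ (by interval_cases ρ <;> simp)
  rcases Nat.lt_or_ge ρ 40 with h' | h'
  · exact h1 ρ (by interval_cases ρ <;> simp)
  · exact h2 ρ (by interval_cases ρ <;> simp)

theorem RLp_getD {j : ℕ} (h1 : 1 ≤ j) (h5 : j ≤ 5) : ∃ i : Fin 5, (i : ℕ) + 1 = j ∧
    ∃ R : List Nat, RLp.getD j 0 = pk R ∧ Rep (rEl i : Equiv.Perm GolayPt) R := by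
  have h := RLp_eq
  obtain ⟨q1, q2, q3, q4, q5, -⟩ := r_rep
  interval_cases j
  · exact ⟨0, rfl, R1, by rw [h]; rfl, q1⟩
  · exact ⟨1, rfl, R2, by rw [h]; rfl, q2⟩
  · exact ⟨2, rfl, R3, by rw [h]; rfl, q3⟩
  · exact ⟨3, rfl, R4, by rw [h]; rfl, q4⟩
  · exact ⟨4, rfl, R5, by rw [h]; rfl, q5⟩

/-- The meaning of the class certificates. -/
theorem cert_sound {ρ m : ℕ} (hρ : ρ < 60) (hm : m < 128) (i : Fin 5) :
    sig m * trep ρ ∈ cls i ↔ certLab ρ m = (i : ℕ) + 1 := by
  have hrow := cert_all ρ hρ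
  simp only [certRow, forceNat_eq] at hrow
  rw [List.all_eq_true] at hrow
  have hlen : m < (CERT.getD ρ []).length := by rw [CERT_length ρ hρ]; exact hm
  have hmem := zip_getD_mem SX (CERT.getD ρ []) m
    (by rw [SX_eq, List.length_map, SL_length]; exact hm) hlen (0, idT) (0, 0, 0)
  have hc := hrow _ hmem
  rw [SX_getD hm] at hc
  -- the element and its table
  have hs := sig_rep m
  have ht := trep_rep hρ
  have hg : Rep ((sig m * trep ρ : G22) : Equiv.Perm GolayPt)
      (tmul (SL.getD m idT) (TR.getD ρ idT)) := rep_mul' hs ht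
  have hs32 := rep_mem_lt hs
  have ht32 := rep_mem_lt ht
  have htl := ht.1
  generalize hcc : (CERT.getD ρ []).getD m (0, 0, 0) = c at hc
  have hlab : certLab ρ m = c.1 := by rw [certLab, hcc]
  rw [hlab]
  obtain ⟨j, a, b⟩ := c
  simp only [certOK] at hc
  by_cases hj : j = 0
  · subst hj
    simp only [beq_self_eq_true, if_true] at hc
    have hne : (0 : ℕ) ≠ (i : ℕ) + 1 := by omega
    refine ⟨fun hmemc => ?_, fun h => absurd h hne⟩
    exfalso
    by_cases hb : b = 0
    · subst hb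
      simp only [beq_self_eq_true, if_true, List.all_eq_true, List.mem_range, beq_iff_eq] at hc
      have h1 : sig m * trep ρ = 1 := by
        apply Subtype.ext
        apply perm_eq_of_getD hg rep_one
        intro k hk
        have := hc k hk
        rw [apP_eq hs32 ht32 htl hg hk] at this
        rw [rep_getD hg hk, this, idT_getD hk]
      rw [h1] at hmemc
      exact not_cls_one i hmemc
    · have hb' : (b == 0) = false := by simpa using hb
      simp only [hb', Bool.false_eq_true, if_false, Bool.and_eq_true, bne_iff_ne, ne_eq,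
        beq_iff_eq, Bool.or_eq_true, decide_eq_true_eq] at hc
      obtain ⟨⟨⟨hne1, hit⟩, hl⟩, ha⟩ := hc
      have e1 : a = idx (pt a) := (idx_pt ha).symm
      rw [e1, apP_eq hs32 ht32 htl hg (idx_lt _), pt_idx] at hne1
      rw [e1, apP_iter hs32 ht32 htl hg] at hit
      have hl' : b = 2 ∨ b = 3 ∨ b = 4 := by tauto
      exact not_cls_of_cycle hl' (idx_injective hit) (fun h => hne1 (by rw [h])) i hmemc
  · have hj' : (j == 0) = false := by simpa using hj
    simp only [hj', Bool.false_eq_true, if_false, Bool.and_eq_true, decide_eq_true_eq,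
      forceNat_eq, List.all_eq_true, List.mem_range, beq_iff_eq] at hc
    obtain ⟨⟨⟨ha, hb⟩, hj5⟩, hall⟩ := hc
    obtain ⟨i', hi', R, hR, hrep⟩ := RLp_getD (Nat.one_le_iff_ne_zero.mpr hj) hj5
    rw [getP_SL ha, getP_TL hb, hR] at hall
    have hy := pairEl_rep a hb
    have hys := rep_mem_lt (sig_rep a)
    have hyt := rep_mem_lt (tau_rep hb)
    have hytl := (tau_rep hb).1
    have hR32 := rep_mem_lt hrep
    -- y * r = g * y
    have hrel : pairEl a b * rEl i' = sig m * trep ρ * pairEl a b := by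
      apply Subtype.ext
      apply perm_eq_of_getD (rep_mul' hy hrep) (rep_mul' hg hy)
      intro k hk
      have h1 := hall k hk
      have hRk : R.getD k 0 < 24 := rep_lt hrep hk
      rw [dig_pk _ hR32, apP_eq hys hyt hytl hy hRk, apP_eq hys hyt hytl hy hk,
        apP_eq hs32 ht32 htl hg (idx_lt _)] at h1
      rw [rep_getD (rep_mul' hy hrep) hk, rep_getD (rep_mul' hg hy) hk]
      rw [pt_idx] at h1
      have h2 : R.getD k 0 = idx ((rEl i' : Equiv.Perm GolayPt) (pt k)) := rep_getD hrep hk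
      rw [h2, pt_idx] at h1
      simpa using h1
    have hin : sig m * trep ρ ∈ cls i' := by
      show IsConj (rEl i') (sig m * trep ρ)
      rw [isConj_iff]
      exact ⟨pairEl a b, by rw [hrel]; group⟩
    constructor
    · intro hmemc
      have : i = i' := rEl_inj (IsConj.trans hmemc (IsConj.symm hin))
      rw [this, hi']
    · intro h
      have : i = i' := Fin.ext (by omega)
      rw [this]; exact hin

theorem nu_trep {ρ : ℕ} (hρ : ρ < 60) (i : Fin 5) :
    nu (cls i) (trep ρ) = (CNT.getD ρ []).getD i 0 := by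
  have e1 : {s : ↥S // (s : G22) * trep ρ ∈ cls i} ≃
      {m : Fin 128 // (((CERT.getD ρ []).getD m (0, 0, 0)).1 == (i : ℕ) + 1) = true} := by
    refine ((Equiv.ofBijective sigS sigS_bij).symm).subtypeEquiv (fun s => ?_)
    obtain ⟨m, rfl⟩ := sigS_bij.2 s
    have hsym : (Equiv.ofBijective sigS sigS_bij).symm (sigS m) = m :=
      (Equiv.ofBijective sigS sigS_bij).symm_apply_apply m
    rw [hsym]
    have := cert_sound hρ m.2 i
    simp only [certLab] at this
    simpa [sigS] using this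
  have h2 := card_fin_getD (CERT.getD ρ []) (0, 0, 0) (fun c : ℕ × ℕ × ℕ => c.1 == (i : ℕ) + 1)
    128 (CERT_length ρ hρ)
  rw [nu, Nat.card_congr e1]
  exact h2.trans (CNT_eq ρ hρ i i.2)

/-- The pair counts of Robinson's matrix are divisible by 256. -/
theorem N_dvd' (i j : Fin 5) :
    256 ∣ Nat.card {yz : G22 × G22 // yz.1 ∈ cls i ∧ yz.2 ∈ cls j ∧ yz.2 * yz.1⁻¹ ∈ S} := by
  rw [pair_count]
  have h1 : ∀ k : Fin 3465, nu (cls i) (tau k) * nu (cls j) (tau k) =
      (CNT.getD (DC.getD k (0, 0)).1 []).getD i 0 * (CNT.getD (DC.getD k (0, 0)).1 []).getD j 0 := by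
    intro k
    rw [nu_dc _ (cls_conj i) k.2, nu_dc _ (cls_conj j) k.2,
      nu_trep (DC_getD_lt k.2).1, nu_trep (DC_getD_lt k.2).1]
  have h2 := sum_fin_getD DC (0, 0)
    (fun d : ℕ × ℕ => (CNT.getD d.1 []).getD i 0 * (CNT.getD d.1 []).getD j 0) 3465 DC_length
  rw [Finset.sum_congr rfl (fun k _ => h1 k)]
  exact h2 ▸ Nat.dvd_of_mod_eq_zero (N_dvd i i.2 j j.2)

end Cfsg.Agent.Lib.Helper7.M22Rob2
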