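import Cfsg.Agent.Lib.Helper7.M22Rob2
import Cfsg.Agent.S4443
import Cfsg.Agent.Lib.CT.Wedderburn

set_option autoImplicit false

namespace Cfsg.Agent.Lib.Helper7.M22Rob3

open Cfsg Cfsg.Agent.Lib.Helper7.GolayBase
  Cfsg.Agent.Lib.Helper7.GolayPerm
  Cfsg.Agent.Lib.Helper7.M22Data Cfsg.Agent.Lib.Helper7.M22Chk3
  Cfsg.Agent.Lib.Helper7.M22Enum Cfsg.Agent.Lib.Helper7.M22Sound Cfsg.Agent.Lib.Helper7.M22Class
  Cfsg.Agent.Lib.Helper7.M22Rob Cfsg.Agent.Lib.Helper7.M22Rob2
open scoped Pointwise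

/-- The classes of defect zero. -/
noncomputable def KK (i : Fin 5) : ConjClasses G22 := ConjClasses.mk (rEl i)

theorem carrier_KK (i : Fin 5) : (KK i).carrier = cls i := by
  ext y
  rw [ConjClasses.mem_carrier_iff_mk_eq, KK, ConjClasses.mk_eq_mk_iff_isConj]
  exact ⟨fun h => h.symm, fun h => IsConj.symm h⟩

theorem KK_inj : Function.Injective KK := by
  intro i j h
  rw [KK, KK, ConjClasses.mk_eq_mk_iff_isConj] at h
  exact rEl_inj h

theorem pow_coprime_eq_one {G : Type*} [Group G] {g : G} {a b : ℕ} (ha : g ^ a = 1)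
    (hb : g ^ b = 1) (h : Nat.Coprime a b) : g = 1 := by
  have h1 := orderOf_dvd_of_pow_eq_one ha
  have h2 := orderOf_dvd_of_pow_eq_one hb
  have h3 : orderOf g ∣ 1 := by
    have := Nat.dvd_gcd h1 h2
    rwa [Nat.Coprime.gcd_eq_one h] at this
  exact orderOf_eq_one_iff.mp (Nat.dvd_one.mp h3)

theorem comm_inv {g r : G22} (h : g * r⁻¹ = r⁻¹ * g) : g * r = r * g := by
  have := congrArg (fun x => r * x * r) h
  simp only [mul_assoc, inv_mul_cancel, mul_one, mul_inv_cancel_left] at this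
  exact this.symm

theorem cent_rEl (i : Fin 5) {g : G22} (h : g * rEl i = rEl i * g) :
    g ^ (![5, 7, 7, 11, 11] i) = 1 := by
  fin_cases i
  · exact cent1 h
  · exact cent2 h
  · have h' : g * r3 = r3 * g := h
    rw [r3_eq] at h'
    exact cent2 (comm_inv h')
  · exact cent4 h
  · have h' : g * r5 = r5 * g := h
    rw [r5_eq] at h'
    exact cent4 (comm_inv h')

/-- An involution centralising `r6`. -/
noncomputable def u6 : G22 := pairEl 98 3102

theorem u6_spec : u6 ^ 2 = 1 ∧ u6 ≠ 1 ∧ u6 * r6 = r6 * u6 := by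
  have hrep := pairEl_rep 98 (show 3102 < 3465 by norm_num)
  obtain ⟨h1, h2, h3⟩ := u6_chk
  refine ⟨?_, ne_one_of_tab hrep h2, mul_eq_of_tab hrep r_rep.2.2.2.2.2 r_rep.2.2.2.2.2 hrep h3⟩
  rw [pow_two]
  have := mul_eq_of_tab hrep hrep rep_one' rep_one' (by rw [h1]; decide)
  exact this.trans (mul_one 1)

theorem prime_dvd_card {q : ℕ} (hq : q.Prime) (h : q ∣ 443520) :
    q = 2 ∨ q = 3 ∨ q = 5 ∨ q = 7 ∨ q = 11 := by
  have e : (443520 : ℕ) = 2 ^ 7 * 3 ^ 2 * 5 * 7 * 11 := by norm_num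
  rw [e] at h
  rcases (Nat.Prime.dvd_mul hq).mp h with h | h
  · rcases (Nat.Prime.dvd_mul hq).mp h with h | h
    · rcases (Nat.Prime.dvd_mul hq).mp h with h | h
      · rcases (Nat.Prime.dvd_mul hq).mp h with h | h
        · left
          exact (Nat.prime_dvd_prime_iff_eq hq Nat.prime_two).mp (hq.dvd_of_dvd_pow h)
        · right; left
          exact (Nat.prime_dvd_prime_iff_eq hq Nat.prime_three).mp (hq.dvd_of_dvd_pow h)
      · right; right; left
        exact (Nat.prime_dvd_prime_iff_eq hq Nat.prime_five).mp h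
    · right; right; right; left
      exact (Nat.prime_dvd_prime_iff_eq hq (by norm_num)).mp h
  · right; right; right; right
    exact (Nat.prime_dvd_prime_iff_eq hq (by norm_num)).mp h

theorem conj_comm {c r y x : G22} (hc : c * r * c⁻¹ = y) (hxy : x * y = y * x) :
    (c⁻¹ * x * c) * r = r * (c⁻¹ * x * c) := by
  subst hc
  have := congrArg (fun w => c⁻¹ * w * c) hxy
  simp only [mul_assoc, inv_mul_cancel, mul_one, inv_mul_cancel_left] at this
  simpa [mul_assoc] using this

theorem pow_of_conj {c x : G22} {n : ℕ} (h : (c⁻¹ * x * c) ^ n = 1) : x ^ n = 1 := by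
  have e : x = c * (c⁻¹ * x * c) * c⁻¹ := by group
  rw [e, conj_pow, h]; group

/-- Elements of odd order whose centraliser has no involution lie in one of the five classes. -/
theorem class_of_odd {x : G22} (hodd : ¬ 2 ∣ orderOf x)
    (hev : ∀ u : G22, u * x = x * u → u ^ 2 = 1 → u = 1) : ∃ i : Fin 5, IsConj (rEl i) x := by
  by_cases hx1 : x = 1
  · subst hx1
    exact absurd (hev u6 (by simp) u6_spec.1) u6_spec.2.1
  have hn1 : orderOf x ≠ 1 := fun h => hx1 (orderOf_eq_one_iff.mp h)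
  have hn0 : orderOf x ≠ 0 := (orderOf_pos x).ne'
  have hdvd : orderOf x ∣ 443520 := by rw [← card_G22]; exact orderOf_dvd_natCard x
  obtain ⟨q, hq, hqn⟩ := Nat.exists_prime_and_dvd hn1
  have hqy : orderOf (x ^ (orderOf x / q)) = q := orderOf_pow_orderOf_div hn0 hqn
  set y := x ^ (orderOf x / q) with hy
  have hyq : y ^ q = 1 := by rw [← hqy]; exact pow_orderOf_eq_one y
  have hy1 : y ≠ 1 := by
    intro h
    rw [h, orderOf_one] at hqy
    exact hq.one_lt.ne hqy
  have hxy : x * y = y * x := by rw [hy, ← pow_succ', ← pow_succ]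
  rcases prime_dvd_card hq (dvd_trans hqn hdvd) with rfl | rfl | rfl | rfl | rfl
  · exact absurd hqn hodd
  · -- order 3
    exfalso
    obtain ⟨c, hc⟩ := isConj_iff.mp (class3 hyq hy1)
    have h6 := (cent6 (conj_comm hc hxy)).1
    have hx6 : x ^ 6 = 1 := pow_of_conj h6
    have hd6 : orderOf x ∣ 2 * 3 := orderOf_dvd_of_pow_eq_one hx6
    have hcop : Nat.Coprime (orderOf x) 2 :=
      (Nat.Coprime.symm ((Nat.Prime.coprime_iff_not_dvd Nat.prime_two).mpr hodd))
    have hd3 : orderOf x ∣ 3 := hcop.dvd_of_dvd_mul_left hd6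
    have hx3 : x ^ 3 = 1 := orderOf_dvd_iff_pow_eq_one.mp hd3
    obtain ⟨d, hd⟩ := isConj_iff.mp (class3 hx3 hx1)
    obtain ⟨hu2, hu1, hur⟩ := u6_spec
    have h1 : (d * u6 * d⁻¹) * x = x * (d * u6 * d⁻¹) := by
      rw [← hd]
      have : d * u6 * d⁻¹ * (d * r6 * d⁻¹) = d * (u6 * r6) * d⁻¹ := by group
      rw [this, hur]; group
    have h2 : (d * u6 * d⁻¹) ^ 2 = 1 := by rw [conj_pow, hu2]; group
    have h3 := hev _ h1 h2
    apply hu1
    have h4 : d * u6 * d⁻¹ = d * 1 * d⁻¹ := by rw [h3]; group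
    exact mul_left_cancel (mul_right_cancel h4)
  · -- order 5
    obtain ⟨c, hc⟩ := isConj_iff.mp (class5 hyq hy1)
    have h5 : x ^ 5 = 1 := pow_of_conj (cent1 (conj_comm hc hxy))
    exact ⟨0, class5 h5 hx1⟩
  · -- order 7
    have key : ∀ i : Fin 5, (![5, 7, 7, 11, 11] i = 7) → IsConj (rEl i) y → x ^ 7 = 1 := by
      intro i hi hcj
      obtain ⟨c, hc⟩ := isConj_iff.mp hcj
      have := cent_rEl i (conj_comm hc hxy)
      rw [hi] at this
      exact pow_of_conj this
    have h7 : x ^ 7 = 1 := by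
      rcases class7 hyq hy1 with h | h
      · exact key 1 rfl h
      · exact key 2 rfl h
    rcases class7 h7 hx1 with h | h
    · exact ⟨1, h⟩
    · exact ⟨2, h⟩
  · -- order 11
    have key : ∀ i : Fin 5, (![5, 7, 7, 11, 11] i = 11) → IsConj (rEl i) y → x ^ 11 = 1 := by
      intro i hi hcj
      obtain ⟨c, hc⟩ := isConj_iff.mp hcj
      have := cent_rEl i (conj_comm hc hxy)
      rw [hi] at this
      exact pow_of_conj this
    have h11 : x ^ 11 = 1 := by
      rcases class11 hyq hy1 with h | h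
      · exact key 3 rfl h
      · exact key 4 rfl h
    rcases class11 h11 hx1 with h | h
    · exact ⟨3, h⟩
    · exact ⟨4, h⟩

theorem no_invol {x : G22} (Q : Sylow 2 (Subgroup.centralizer ({x} : Set G22)))
    (hQ : (Q : Subgroup (Subgroup.centralizer ({x} : Set G22))).map
      (Subgroup.centralizer ({x} : Set G22)).subtype = ⊥) :
    ∀ u : G22, u * x = x * u → u ^ 2 = 1 → u = 1 := by
  intro u hux hu2
  by_contra hu1
  have hQb : (Q : Subgroup (Subgroup.centralizer ({x} : Set G22))) = ⊥ :=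
    (Subgroup.map_eq_bot_iff_of_injective _ (Subgroup.subtype_injective _)).mp hQ
  have hcard := Sylow.card_eq_multiplicity Q
  rw [hQb, Subgroup.card_bot] at hcard
  have hmem : u ∈ Subgroup.centralizer ({x} : Set G22) := by
    rw [Subgroup.mem_centralizer_iff]
    intro h hh
    rw [Set.mem_singleton_iff.mp hh]
    exact hux.symm
  have ho : orderOf (⟨u, hmem⟩ : Subgroup.centralizer ({x} : Set G22)) = 2 := by
    apply orderOf_eq_prime
    · apply Subtype.ext
      simpa using hu2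
    · intro h
      exact hu1 (congrArg Subtype.val h)
  have hdvd : 2 ∣ Nat.card (Subgroup.centralizer ({x} : Set G22)) := by
    rw [← ho]; exact orderOf_dvd_natCard _
  have hpos := Nat.Prime.factorization_pos_of_dvd Nat.prime_two Nat.card_pos.ne' hdvd
  have : 2 ^ (Nat.card (Subgroup.centralizer ({x} : Set G22))).factorization 2 ≥ 2 ^ 1 :=
    Nat.pow_le_pow_right (by norm_num) hpos
  omega

theorem hK : ∀ C : ConjClasses G22, (∃ i, KK i = C) ↔ ∃ x ∈ C.carrier, ¬ 2 ∣ orderOf x ∧
    ∃ Q : Sylow 2 (Subgroup.centralizer ({x} : Set G22)),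
      (Q : Subgroup (Subgroup.centralizer ({x} : Set G22))).map
        (Subgroup.centralizer ({x} : Set G22)).subtype = ⊥ := by
  intro C
  constructor
  · rintro ⟨i, rfl⟩
    refine ⟨rEl i, ConjClasses.mem_carrier_mk, ?_, default, ?_⟩
    · rw [ord_rEl]
      fin_cases i <;> decide
    · rw [eq_bot_iff]
      rintro _ ⟨q, hq, rfl⟩
      rw [Subgroup.mem_bot]
      obtain ⟨k, hk⟩ := (default : Sylow 2 (Subgroup.centralizer ({rEl i} : Set G22))).isPGroup' ⟨q, hq⟩
      have hk' : (q : G22) ^ 2 ^ k = 1 := by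
        have := congrArg (fun z : (default : Sylow 2 (Subgroup.centralizer ({rEl i} : Set G22))) =>
          ((z : Subgroup.centralizer ({rEl i} : Set G22)) : G22)) hk
        simpa using this
      have hcomm : (q : G22) * rEl i = rEl i * (q : G22) := by
        have := (Subgroup.mem_centralizer_iff.mp q.2) (rEl i) (Set.mem_singleton _)
        exact this.symm
      have hpow := cent_rEl i hcomm
      have hcop : Nat.Coprime (2 ^ k) (![5, 7, 7, 11, 11] i) := by
        apply Nat.Coprime.pow_left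
        fin_cases i <;> decide
      simpa using pow_coprime_eq_one hk' hpow hcop
  · rintro ⟨x, hx, hodd, Q, hQ⟩
    obtain ⟨i, hi⟩ := class_of_odd hodd (no_invol Q hQ)
    refine ⟨i, ?_⟩
    rw [KK, ← ConjClasses.mem_carrier_iff_mk_eq.mp hx, ConjClasses.mk_eq_mk_iff_isConj]
    exact hi

/-- The group has no 2-block of defect zero. -/
theorem no_defect_zero (M : Ideal AlgInt) (hM : IsPModular 2 M) (B : Set (IrrCharacter G22))
    (hB : IsPBlock M B) : ¬ IsDefectGroup 2 M B ⊥ := by
  intro hD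
  have h := Cfsg.Agent.S4443.result 2 M hM (⊥ : Subgroup G22) IsPGroup.of_bot Syl KK KK_inj hK
  have hmat : (Matrix.of fun i j : Fin 5 =>
      (((Nat.card {yz : G22 × G22 // yz.1 ∈ (KK i).carrier ∧ yz.2 ∈ (KK j).carrier ∧
        yz.2 * yz.1⁻¹ ∈ (Syl : Subgroup G22)} /
        2 ^ ((Nat.card G22).factorization 2 - (Nat.card (⊥ : Subgroup G22)).factorization 2) : ℕ))
        : ZMod 2)) = 0 := by
    ext i j
    simp only [Matrix.of_apply, Matrix.zero_apply]
    rw [carrier_KK, carrier_KK, fac2, Subgroup.card_bot]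
    obtain ⟨c, hc⟩ := N_dvd' i j
    have hS : (Syl : Subgroup G22) = S := rfl
    rw [hS, hc]
    have e : 256 * c / 2 ^ (7 - (Nat.factorization 1) 2) = 2 * c := by
      simp only [Nat.factorization_one, Finsupp.coe_zero, Pi.zero_apply, Nat.sub_zero]
      omega
    rw [e]
    push_cast
    have h2 : (2 : ZMod 2) = 0 := rfl
    rw [h2, zero_mul]
  rw [hmat, Matrix.rank_zero] at h
  have hfin : Finite (IrrCharacter G22) := Cfsg.Agent.Lib.CT.Wedderburn.finite_irrCharacter G22
  rw [Nat.card_eq_zero] at h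
  rcases h with h | h
  · exact h.false ⟨B, hB, hD⟩
  · exact h.not_finite inferInstance

end Cfsg.Agent.Lib.Helper7.M22Rob3
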