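import Cfsg.Agent.Lib.Helper7.M22Enum
import Cfsg.Agent.Lib.Helper7.M22Chk3
import Cfsg.Agent.Lib.Helper7.M22Pass0
import Cfsg.Agent.Lib.Helper7.M22Pass1
import Cfsg.Agent.Lib.Helper7.M22Pass2
import Cfsg.Agent.Lib.Helper7.M22Pass3
import Cfsg.Agent.Lib.Helper7.M22Pass4
import Cfsg.Agent.Lib.Helper7.M22Pass5
import Cfsg.Agent.Lib.Helper7.M22Pass6
import Cfsg.Agent.Lib.Helper7.M22Pass7

set_option autoImplicit false

namespace Cfsg.Agent.Lib.Helper7.M22Sound

open Cfsg Cfsg.Agent.Lib.Helper7.GolayBase Cfsg.Agent.Lib.Helper7.GolayCode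
  Cfsg.Agent.Lib.Helper7.M24Mem Cfsg.Agent.Lib.Helper7.GolayRigid
  Cfsg.Agent.Lib.Helper7.GolayPerm Cfsg.Agent.Lib.Helper7.ChainGen
  Cfsg.Agent.Lib.Helper7.QuartetStab
  Cfsg.Agent.Lib.Helper7.L23Base Cfsg.Agent.Lib.Helper7.L23Norm
  Cfsg.Agent.Lib.Helper7.M22Data Cfsg.Agent.Lib.Helper7.M22TL
  Cfsg.Agent.Lib.Helper7.M22Fn Cfsg.Agent.Lib.Helper7.M22Chk Cfsg.Agent.Lib.Helper7.M22Chk2
  Cfsg.Agent.Lib.Helper7.M22Data2 Cfsg.Agent.Lib.Helper7.M22Fn2 Cfsg.Agent.Lib.Helper7.M22Chk3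
  Cfsg.Agent.Lib.Helper7.M22Enum
open scoped Pointwise

theorem all_of_slices {α : Type} (p : α → Bool) (l : List α) (n c : Nat) (hc : 0 < c)
    (hl : l.length ≤ c * n)
    (h : ∀ j < n, ((l.drop (c * j)).take c).all p = true) : ∀ t ∈ l, p t = true := by
  intro t ht
  obtain ⟨i, hi, rfl⟩ := List.getElem_of_mem ht
  have hdm := Nat.div_add_mod i c
  have hmod := Nat.mod_lt i hc
  have hj : i / c < n := by
    rw [Nat.div_lt_iff_lt_mul hc, Nat.mul_comm]
    exact Nat.lt_of_lt_of_le hi hl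
  have h1 := List.all_eq_true.mp (h (i / c) hj)
  apply h1
  rw [List.mem_iff_getElem]
  refine ⟨i % c, ?_, ?_⟩
  · rw [List.length_take, List.length_drop]
    omega
  · rw [List.getElem_take, List.getElem_drop]
    congr 1

set_option maxRecDepth 100000 in
theorem TL_parts_length : ∀ l ∈ [TL_0, TL_1, TL_2, TL_3, TL_4, TL_5, TL_6, TL_7],
    l.length ≤ 31 * 14 := by decide +kernel

theorem pass_all : ∀ t ∈ TL, passT t = true := by
  have hlen := TL_parts_length
  simp only [List.forall_mem_cons, List.not_mem_nil, false_imp_iff, implies_true, and_true]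
    at hlen
  obtain ⟨l0, l1, l2, l3, l4, l5, l6, l7⟩ := hlen
  intro t ht
  simp only [TL, List.mem_append] at ht
  rcases ht with h | h | h | h | h | h | h | h
  · exact all_of_slices passT TL_0 14 31 (by norm_num) l0 M22Pass0.pass_slices t h
  · exact all_of_slices passT TL_1 14 31 (by norm_num) l1 M22Pass1.pass_slices t h
  · exact all_of_slices passT TL_2 14 31 (by norm_num) l2 M22Pass2.pass_slices t h
  · exact all_of_slices passT TL_3 14 31 (by norm_num) l3 M22Pass3.pass_slices t h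
  · exact all_of_slices passT TL_4 14 31 (by norm_num) l4 M22Pass4.pass_slices t h
  · exact all_of_slices passT TL_5 14 31 (by norm_num) l5 M22Pass5.pass_slices t h
  · exact all_of_slices passT TL_6 14 31 (by norm_num) l6 M22Pass6.pass_slices t h
  · exact all_of_slices passT TL_7 14 31 (by norm_num) l7 M22Pass7.pass_slices t h

/-- The relations tested. -/
def cfgs : List (List Nat × List Nat × List (List Nat)) :=
  [(R1, R1, C1L), (R2, R2, C2L), (R4, R4, C4L), (R6, R6, C6L), (R2, R3, []), (R4, R5, [])]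

theorem pass_sound {t : List Nat} (ht : t.length = 24) (h : passT t = true) {s : List Nat}
    (hs : s ∈ SL) {c : List Nat × List Nat × List (List Nat)} (hc : c ∈ cfgs)
    (hcomm : commX (tmul s t) c.1 c.2.1 = true) : tmul s t ∈ c.2.2 := by
  have hx : (pk s, s) ∈ SX := by
    rw [SX_eq]; exact List.mem_map.mpr ⟨s, hs, rfl⟩
  have hs32 := SL_lt s hs
  simp only [passT, forceNat_eq, trip_eq] at h
  rw [List.all_eq_true] at h
  have h1 := h _ hx
  simp only [Bool.and_eq_true] at h1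
  obtain ⟨⟨⟨⟨⟨t1, t2⟩, t4⟩, t6⟩, t23⟩, t45⟩ := h1
  have hp := Rp_eq
  simp only [List.cons.injEq, and_true] at hp
  obtain ⟨p1, p2, p3, p4, p5, p6⟩ := hp
  have hR := R_lt
  simp only [cfgs, List.mem_cons, List.not_mem_nil, or_false] at hc
  rcases hc with rfl | rfl | rfl | rfl | rfl | rfl
  · rw [p1] at t1
    obtain ⟨a, b, c, d⟩ := hR R1 (by simp)
    exact tst_sound hs32 a ht b c d t1 hcomm
  · rw [p2] at t2
    obtain ⟨a, b, c, d⟩ := hR R2 (by simp)
    exact tst_sound hs32 a ht b c d t2 hcomm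
  · rw [p4] at t4
    obtain ⟨a, b, c, d⟩ := hR R4 (by simp)
    exact tst_sound hs32 a ht b c d t4 hcomm
  · rw [p6] at t6
    obtain ⟨a, b, c, d⟩ := hR R6 (by simp)
    exact tst_sound hs32 a ht b c d t6 hcomm
  · rw [p3] at t23
    obtain ⟨a, b, c, d⟩ := hR R2 (by simp)
    obtain ⟨a', -, -, -⟩ := hR R3 (by simp)
    exact tst_sound hs32 a' ht b c d t23 hcomm
  · rw [p5] at t45
    obtain ⟨a, b, c, d⟩ := hR R4 (by simp)
    obtain ⟨a', -, -, -⟩ := hR R5 (by simp)
    exact tst_sound hs32 a' ht b c d t45 hcomm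

theorem SL_getD_mem {m : Nat} (hm : m < 128) : SL.getD m idT ∈ SL := by
  rw [List.getD_eq_getElem _ _ (by rw [SL_length]; exact hm)]
  exact List.getElem_mem _

theorem TL_getD_mem {k : Nat} (hk : k < 3465) : TL.getD k idT ∈ TL := by
  rw [List.getD_eq_getElem _ _ (by rw [TL_length]; exact hk)]
  exact List.getElem_mem _

/-- Every element of the group has a table of the form `tmul s t`. -/
theorem exists_tab (g : ↥K22) : ∃ k < 3465, ∃ m < 128, g = sig m * tau k ∧
    Rep (g : Equiv.Perm GolayPt) (tmul (SL.getD m idT) (TL.getD k idT)) := by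
  obtain ⟨k, hk, m, hm, rfl⟩ := exists_enum g
  exact ⟨k, hk, m, hm, rfl, (sig_rep m).mul (tau_rep hk)⟩

/-- Solutions of the tested relations have their tables in the lists. -/
theorem comm_mem {g x y : Equiv.Perm GolayPt} (hg : g ∈ K22)
    {c : List Nat × List Nat × List (List Nat)} (hc : c ∈ cfgs) (hx : Rep x c.1)
    (hy : Rep y c.2.1) (h : g * x = y * g) : tabOf g ∈ c.2.2 := by
  obtain ⟨k, hk, m, hm, -, hrep⟩ := exists_tab ⟨g, hg⟩
  have hrep' : Rep g (tmul (SL.getD m idT) (TL.getD k idT)) := hrep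
  have ht := (tau_rep hk).1
  have h1 := pass_sound ht (pass_all _ (TL_getD_mem hk)) (SL_getD_mem hm) hc
    (commX_of_rel hrep' hx hy h)
  rwa [← M9Struct.rep_unique (rep_tabOf g) hrep'] at h1

end Cfsg.Agent.Lib.Helper7.M22Sound
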