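import Mathlib
import Cfsg.Agent.Lib.Helper41.OMStmt
import Cfsg.Agent.Lib.Helper97.OrtCONG
import Cfsg.Agent.Lib.Helper13.OFPL1
import Cfsg.Agent.Lib.Helper13.OFPLM

/-!
# S5978, piece PLMG (`EigMG → PLMG`), second seat: generalization of `Helper13.OFPLM`.
-/

set_option autoImplicit false

namespace Cfsg.Agent.Lib.Helper7.OMPLMG

open Matrix
open Cfsg.Agent.Lib.Helper41.SpFStmt (Mat)
open Cfsg.Agent.Lib.Helper41.OMStmt
open Cfsg.Agent.Lib.Helper13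
open Cfsg.Agent.Lib.Helper13.OFPLM (dB dB_mul dB_transpose dB_neg dB_congr dB_smul_one dB_one dB_X
  dB_D dB_det Je Je_sq Je_sa Je_anti)

universe u

theorem main (hEigM : EigMG.{u}) : PLMG.{u} := by
  intro F _ _ h2 ι _ _ _ S hS hSdet l hl x hx hxx
  obtain ⟨d, P, P', D, hPP', hP'P, hD, hPS, hxP⟩ := hEigM h2 S x hS hSdet hx hxx
  have hd : 0 < d := by
    by_contra h0
    have hm : d = 0 := by omega
    subst hm
    obtain ⟨i⟩ := ‹Nonempty ι›
    have := congrFun (congrFun hPP' i) i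
    simp [Matrix.mul_apply] at this
  have hl0 : l ≠ 0 := fun h => hl (h ▸ IsSquare.zero)
  obtain ⟨s, t, hst⟩ := Helper97.OrtCONG.exists_binary h2 l⁻¹ l⁻¹ (inv_ne_zero hl0)
    (inv_ne_zero hl0)
  have hst' : s ^ 2 + t ^ 2 = l := by
    field_simp at hst
    linear_combination hst
  rw [dB_D] at hPS
  rw [dB_X] at hxP
  obtain ⟨X, hX⟩ : ∃ X : Matrix (Fin d ⊕ Fin d) (Fin d ⊕ Fin d) F,
      X = dB (fun _ => 0) (fun _ => -1) (fun _ => 1) (fun _ => 0) := ⟨_, rfl⟩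
  obtain ⟨Dg, hDg⟩ : ∃ Dg : Matrix (Fin d ⊕ Fin d) (Fin d ⊕ Fin d) F,
      Dg = dB D (fun _ => 0) (fun _ => 0) D := ⟨_, rfl⟩
  rw [← hX] at hxP
  rw [← hDg] at hPS
  have hxP' : x * P = P * X := hxP
  have hS0 : S = P'ᵀ * Dg * P' := by
    rw [← hPS]
    calc S = (P * P')ᵀ * S * (P * P') := by rw [hPP']; simp
      _ = P'ᵀ * (Pᵀ * S * P) * P' := by
        rw [Matrix.transpose_mul]; simp only [Matrix.mul_assoc]
  have hxe : x = P * X * P' := by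
    calc x = x * (P * P') := by rw [hPP', Matrix.mul_one]
      _ = (x * P) * P' := by rw [Matrix.mul_assoc]
      _ = P * X * P' := by rw [hxP']
  -- the sign vector δ
  obtain ⟨δ, hδ⟩ : ∃ δ : Fin d → F, δ = fun j => if j = ⟨0, hd⟩ then -1 else 1 := ⟨_, rfl⟩
  have hδ2 : ∀ j, δ j ^ 2 = 1 := by
    intro j
    rw [hδ]
    by_cases h : j = ⟨0, hd⟩ <;> simp [h]
  have hδprod : ∏ j, δ j = -1 := by
    rw [hδ, Finset.prod_ite_eq' Finset.univ (⟨0, hd⟩ : Fin d) (fun _ => (-1 : F))]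
    simp
  obtain ⟨Tm, hTm⟩ : ∃ Tm : Matrix (Fin d ⊕ Fin d) (Fin d ⊕ Fin d) F,
      Tm = dB δ (fun _ => 0) (fun _ => 0) (fun _ => 1) := ⟨_, rfl⟩
  obtain ⟨J1, hJ1d⟩ : ∃ J1 : Matrix (Fin d ⊕ Fin d) (Fin d ⊕ Fin d) F,
      J1 = Je s t (fun _ => 1) := ⟨_, rfl⟩
  obtain ⟨Jd, hJdd⟩ : ∃ Jd : Matrix (Fin d ⊕ Fin d) (Fin d ⊕ Fin d) F,
      Jd = Je s t δ := ⟨_, rfl⟩
  have hT1 : Tmᵀ * Dg * Tm = Dg := by
    rw [hTm, hDg, dB_transpose, dB_mul, dB_mul]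
    apply dB_congr
    · intro j
      linear_combination D j * hδ2 j
    · intro j
      ring
    · intro j
      ring
    · intro j
      ring
  have hT2 : Tm * Tm = 1 := by
    rw [hTm, dB_mul, dB_one]
    apply dB_congr
    · intro j
      linear_combination hδ2 j
    · intro j
      ring
    · intro j
      ring
    · intro j
      ring
  have hT3 : Tm.det = -1 := by
    rw [hTm, dB_det, hδprod]
    simp
  have hT4 : Tm * J1 * Tm = Jd := by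
    rw [hTm, hJ1d, hJdd, Je, Je, dB_mul, dB_mul]
    apply dB_congr
    · intro j
      linear_combination s * hδ2 j
    · intro j
      ring
    · intro j
      ring
    · intro j
      ring
  have hJ1 : J1 * J1 = l • 1 := by
    rw [hJ1d]
    exact Je_sq s t l hst' (fun _ : Fin d => (1 : F)) (fun _ => by simp)
  have hJ2 : Dg * J1 = J1ᵀ * Dg := by
    rw [hJ1d, hDg]
    exact Je_sa s t (fun _ : Fin d => (1 : F)) D
  have hJ3 : X * J1 = -(J1 * X) := by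
    rw [hJ1d, hX]
    exact Je_anti s t (fun _ : Fin d => (1 : F))
  have hJ3' : X * Jd = -(Jd * X) := by
    rw [hJdd, hX]
    exact Je_anti s t δ
  refine ⟨P * J1 * P', P * Tm * P', ?_, ?_, ?_, ?_, ?_, ?_, ?_⟩
  · rw [OFPL1.conj_mul hP'P, hJ1, OFPL1.conj_smul hPP' l]
  · rw [hS0, OFPL1.left_mul hP'P, OFPL1.right_mul hP'P, hJ2]
  · rw [hxe, OFPL1.conj_mul hP'P, OFPL1.conj_mul hP'P, hJ3, Matrix.mul_neg, Matrix.neg_mul]
  · rw [hS0, OFPL1.congr_mul hP'P, hT1]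
  · rw [OFPL1.conj_mul hP'P, hT2, OFPL1.conj_one hPP']
  · rw [Matrix.det_conj_of_mul_eq_one hPP' hP'P, hT3]
  · rw [hxe, OFPL1.conj_mul hP'P, OFPL1.conj_mul hP'P, hT4, OFPL1.conj_mul hP'P,
      OFPL1.conj_mul hP'P, hJ3', Matrix.mul_neg, Matrix.neg_mul]

end Cfsg.Agent.Lib.Helper7.OMPLMG
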