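import Cfsg.Agent.Lib.Helper7.M12Hexad2

set_option autoImplicit false

namespace Cfsg.Agent.Lib.Helper7.QuartetBase

open Cfsg Cfsg.Agent.Lib.Helper7.GolayBase Cfsg.Agent.Lib.Helper7.GolayCode
  Cfsg.Agent.Lib.Helper7.M24Mem Cfsg.Agent.Lib.Helper7.GolayRigid
  Cfsg.Agent.Lib.Helper7.M24Main Cfsg.Agent.Lib.Helper7.GolayCount
  Cfsg.Agent.Lib.Helper7.M12Core Cfsg.Agent.Lib.Helper7.M24Octad
  Cfsg.Agent.Lib.Helper7.M12Main Cfsg.Agent.Lib.Helper7.M12Thm
  Cfsg.Agent.Lib.Helper7.M12Hexad Cfsg.Agent.Lib.Helper7.M12Hexad2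
open scoped Pointwise

/-- The masks of the 132 hexads on the base dodecad. -/
def hexL : List Nat := [343, 591, 797, 858, 4127, 4430, 4441, 4691, 4700, 4875, 4886, 4933, 8285, 8478, 8523, 8731, 8790, 8967, 9036, 9041, 12359, 12378, 12557, 12563, 12628, 12814, 12821, 12873, 13080, 13122, 65627, 65807, 65884, 66078, 66133, 66323, 66374, 66377, 69709, 69718, 69909, 69914, 69955, 70151, 70169, 70218, 70412, 70480, 73751, 73806, 74009, 74053, 74066, 74253, 74307, 74328, 74506, 74516, 77835, 77852, 77905, 78086, 78152, 78354, 78404, 78593, 262238, 262427, 262477, 262679, 262745, 262926, 262979, 262996, 266315, 266325, 266503, 266524, 266578, 266765, 266778, 266822, 267025, 267080, 270351, 270419, 270613, 270662, 270680, 270876, 270917, 270922, 271113, 271122, 274454, 274457, 274508, 274698, 274753, 274947, 275024, 275204, 327709, 327751, 327958, 328010, 328017, 328203, 328268, 328274, 328453, 328472, 331790, 331795, 331864, 332041, 332100, 332308, 332353, 332546, 335898, 335945,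 335956, 336131, 336140, 336390, 336401, 336704, 339973, 340034, 340240, 340488]

theorem hexL_sub : ∀ c ∈ octK 6, (c &&& d0) ∈ hexL := by decide +kernel

theorem hexL_sup : ∀ m ∈ hexL, (octK 6).any (fun c => c &&& d0 == m) = true := by decide +kernel

theorem hexL_popc : ∀ m ∈ hexL, popc m = 6 := by decide +kernel

theorem mk_or (a b : Nat) : mk (a ||| b) = mk a ∪ mk b := by
  ext p
  simp only [mem_mk, Finset.mem_union, Nat.testBit_or, Bool.or_eq_true]

theorem mk_sub {a b : Nat} (h : a &&& b = a) : mk a ⊆ mk b := by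
  rw [← h, mk_and]; exact Finset.inter_subset_right

theorem d0_lt : d0 < 2 ^ 24 := by decide

theorem lt_of_and_d0 {x : Nat} (h : x &&& d0 = x) : x < 2 ^ 24 := by
  have := Nat.and_le_right (n := x) (m := d0)
  rw [h] at this
  exact lt_of_le_of_lt this d0_lt

theorem mem_hexads_mk {c : Nat} (hc : c ∈ hexL) : mk c ∈ hexadsOn (mk d0) := by
  obtain ⟨c', hc', hceq⟩ := List.any_eq_true.mp (hexL_sup c hc)
  have hceq' : c' &&& d0 = c := by simpa using hceq
  simp only [octK, List.mem_filter, beq_iff_eq] at hc'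
  refine ⟨by rw [card_mk]; exact hexL_popc c hc, mk c', (mem_octads_iff _).mpr ⟨c', hc'.1, rfl⟩, ?_⟩
  rw [← mk_and, hceq']

theorem hexL_of_mem {c : Nat} (hc : c < 2 ^ 24) (h : mk c ∈ hexadsOn (mk d0)) : c ∈ hexL := by
  obtain ⟨h6, o, ho, hoeq⟩ := h
  obtain ⟨c', hc', rfl⟩ := (mem_octads_iff o).mp ho
  rw [← mk_and] at hoeq
  have hlt : c' &&& d0 < 2 ^ 24 := lt_of_le_of_lt Nat.and_le_right d0_lt
  have heq : c' &&& d0 = c := mk_injOn hlt hc hoeq
  rw [card_mk] at h6
  have hmem : c' ∈ octK 6 := by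
    simp only [octK, List.mem_filter, beq_iff_eq]
    exact ⟨hc', by rw [heq]; exact h6⟩
  rw [← heq]
  exact hexL_sub c' hmem

theorem maskOf_subset {v : Finset GolayPt} {c : Nat} (h : v ⊆ mk c) :
    maskOf v &&& c = maskOf v := by
  apply Nat.eq_of_testBit_eq
  intro i
  rw [Nat.testBit_and, testBit_maskOf]
  by_cases hi : i < 24
  · by_cases hv : pt i ∈ v
    · have := mem_mk.mp (h hv)
      rw [idx_pt hi] at this
      simp [hi, hv, this]
    · simp [hv]
  · simp [hi]

theorem popc_maskOf (v : Finset GolayPt) : popc (maskOf v) = v.card := by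
  rw [← card_mk, mk_maskOf]

/-- The quartet of a list of masks. -/
def qsetL (l : List Nat) : Finset (Finset GolayPt) := (l.map mk).toFinset

theorem mem_qsetL {l : List Nat} {t : Finset GolayPt} : t ∈ qsetL l ↔ ∃ x ∈ l, mk x = t := by
  simp [qsetL]

/-- Test that a list of masks is a quartet of the base dodecad. -/
def isQ (l : List Nat) : Bool :=
  l.length == 4 && decide l.Nodup && l.all (fun x => popc x == 3 && x &&& d0 == x) &&
    l.all (fun x => l.all (fun y => x == y || hexL.contains (x ||| y)))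

theorem qsetL_card {l : List Nat} (hnd : l.Nodup) (hsub : ∀ x ∈ l, x &&& d0 = x) :
    (qsetL l).card = l.length := by
  rw [qsetL, List.toFinset_card_of_nodup, List.length_map]
  apply List.Nodup.map_on _ hnd
  intro x hx y hy hxy
  exact mk_injOn (lt_of_and_d0 (hsub x hx)) (lt_of_and_d0 (hsub y hy)) hxy

theorem qsetL_mem {l : List Nat} (h : isQ l = true) : qsetL l ∈ quartets (mk d0) := by
  simp only [isQ, Bool.and_eq_true, beq_iff_eq, decide_eq_true_eq, List.all_eq_true,
    Bool.or_eq_true, List.contains_iff_mem] at h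
  obtain ⟨⟨⟨h4, hnd⟩, hall⟩, hpair⟩ := h
  refine ⟨?_, ?_, ?_⟩
  · rw [qsetL_card hnd (fun x hx => (hall x hx).2), h4]
  · intro t ht
    obtain ⟨x, hx, rfl⟩ := mem_qsetL.mp ht
    exact ⟨by rw [card_mk]; exact (hall x hx).1, mk_sub (hall x hx).2⟩
  · intro t ht u hu hne
    obtain ⟨x, hx, rfl⟩ := mem_qsetL.mp ht
    obtain ⟨y, hy, rfl⟩ := mem_qsetL.mp hu
    rw [← mk_or]
    rcases hpair x hx y hy with hxy | hxy
    · exact absurd (by rw [hxy]) hne
    · exact mem_hexads_mk hxy

/-- The base quartet. -/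
def Q0L : List Nat := [7, 4120, 327744, 8960]

/-- The base quartet. -/
def Q0 : Finset (Finset GolayPt) := qsetL Q0L

theorem Q0_mem : Q0 ∈ quartets (mk d0) := qsetL_mem (by decide +kernel)

theorem Q0_card : Q0.card = 4 := Q0_mem.1

/-- The candidate test. -/
def candOK (m : Nat) : Bool :=
  !(m &&& 336704 == m && popc m == 3 && hexL.contains (m ||| 7) && hexL.contains (m ||| 4120))
    || m == 327744 || m == 8960

theorem cands_dec : ∀ k1 < 128, ∀ k2 < 64, candOK ((k1 * 64 + k2) * 64) = true := by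
  decide +kernel

theorem comp_dec : ∀ i, i < 24 → d0.testBit i = true → (7 : Nat).testBit i = false →
    (4120 : Nat).testBit i = false → (336704 : Nat).testBit i = true := by decide +kernel

theorem cands {m : Nat} (h1 : m &&& 336704 = m) (h3 : popc m = 3) (ha : (m ||| 7) ∈ hexL)
    (hb : (m ||| 4120) ∈ hexL) : m = 327744 ∨ m = 8960 := by
  have hle : m ≤ 336704 := by
    have := Nat.and_le_right (n := m) (m := 336704)
    rwa [h1] at this
  have hmod : m % 64 = 0 := by
    have h := Nat.and_mod_two_pow (a := m) (b := 336704) (n := 6)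
    rw [h1] at h
    have h2 : (336704 : Nat) % 2 ^ 6 = 0 := by decide
    rw [h2, Nat.and_zero] at h
    exact h
  have hm : m = ((m / 4096) * 64 + m / 64 % 64) * 64 := by omega
  have hk1 : m / 4096 < 128 := by omega
  have hk2 : m / 64 % 64 < 64 := by omega
  have := cands_dec (m / 4096) hk1 (m / 64 % 64) hk2
  rw [← hm] at this
  have hX : (m &&& 336704 == m && popc m == 3 && hexL.contains (m ||| 7) &&
      hexL.contains (m ||| 4120)) = true := by
    rw [Bool.and_eq_true, Bool.and_eq_true, Bool.and_eq_true]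
    exact ⟨⟨⟨beq_iff_eq.mpr h1, beq_iff_eq.mpr h3⟩, List.contains_iff_mem.mpr ha⟩,
      List.contains_iff_mem.mpr hb⟩
  unfold candOK at this
  rw [hX] at this
  simpa using this

theorem disjoint_of_hexad {d t u : Finset GolayPt} (ht : t.card = 3) (hu : u.card = 3)
    (h : t ∪ u ∈ hexadsOn d) : Disjoint t u := by
  rw [← Finset.card_union_eq_card_add_card, h.1, ht, hu]

/-- A quartet of the base dodecad containing the first two base triples is the base quartet. -/
theorem base_unique {Q : Finset (Finset GolayPt)} (hQ : Q ∈ quartets (mk d0)) (h1 : mk 7 ∈ Q)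
    (h2 : mk 4120 ∈ Q) : Q = Q0 := by
  obtain ⟨hcard, htrip, hpair⟩ := hQ
  apply Finset.eq_of_subset_of_card_le
  · intro v hv
    by_cases hv1 : v = mk 7
    · rw [hv1]; exact mem_qsetL.mpr ⟨7, by simp [Q0L], rfl⟩
    by_cases hv2 : v = mk 4120
    · rw [hv2]; exact mem_qsetL.mpr ⟨4120, by simp [Q0L], rfl⟩
    obtain ⟨hv3, hvd⟩ := htrip v hv
    have ha := hpair v hv _ h1 hv1
    have hb := hpair v hv _ h2 hv2
    have hd1 : Disjoint v (mk 7) := disjoint_of_hexad hv3 (by rw [card_mk]; decide) ha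
    have hd2 : Disjoint v (mk 4120) := disjoint_of_hexad hv3 (by rw [card_mk]; decide) hb
    have hsub : v ⊆ mk 336704 := by
      intro p hp
      rw [mem_mk]
      apply comp_dec _ (idx_lt p) (mem_mk.mp (hvd hp))
      · have : p ∉ mk 7 := Finset.disjoint_left.mp hd1 hp
        rw [mem_mk] at this
        simpa using this
      · have : p ∉ mk 4120 := Finset.disjoint_left.mp hd2 hp
        rw [mem_mk] at this
        simpa using this
    have hm := maskOf_subset hsub
    have hlt := maskOf_lt v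
    have e7 : mk (maskOf v ||| 7) = v ∪ mk 7 := by rw [mk_or, mk_maskOf]
    have e4120 : mk (maskOf v ||| 4120) = v ∪ mk 4120 := by rw [mk_or, mk_maskOf]
    have ha' : (maskOf v ||| 7) ∈ hexL :=
      hexL_of_mem (Nat.or_lt_two_pow hlt (by decide)) (by rw [e7]; exact ha)
    have hb' : (maskOf v ||| 4120) ∈ hexL :=
      hexL_of_mem (Nat.or_lt_two_pow hlt (by decide)) (by rw [e4120]; exact hb)
    have hc := cands hm (by rw [popc_maskOf]; exact hv3) ha' hb'
    rw [← mk_maskOf v]
    rcases hc with hc | hc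
    · rw [hc]; exact mem_qsetL.mpr ⟨327744, by simp [Q0L], rfl⟩
    · rw [hc]; exact mem_qsetL.mpr ⟨8960, by simp [Q0L], rfl⟩
  · rw [Q0_card, hcard]

theorem smul_hexad_gen {d C : Finset GolayPt} (hC : C ∈ hexadsOn d) {g : Equiv.Perm GolayPt}
    (hg : g ∈ M24) : g • C ∈ hexadsOn (g • d) := by
  obtain ⟨h6, o, ho, rfl⟩ := hC
  refine ⟨by rw [Finset.card_smul_finset]; exact h6, g • o, smul_mem_octads hg ho, ?_⟩
  rw [Finset.smul_finset_inter]

/-- Images of quartets under `M24` are quartets. -/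
theorem quartets_smul {d : Finset GolayPt} {Q : Finset (Finset GolayPt)} (hQ : Q ∈ quartets d)
    {g : Equiv.Perm GolayPt} (hg : g ∈ M24) : g • Q ∈ quartets (g • d) := by
  obtain ⟨hcard, htrip, hpair⟩ := hQ
  refine ⟨by rw [Finset.card_smul_finset]; exact hcard, ?_, ?_⟩
  · intro t' ht'
    obtain ⟨t, ht, rfl⟩ := Finset.mem_smul_finset.mp ht'
    exact ⟨by rw [Finset.card_smul_finset]; exact (htrip t ht).1,
      Finset.smul_finset_subset_smul_finset (htrip t ht).2⟩
  · intro t' ht' u' hu' hne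
    obtain ⟨t, ht, rfl⟩ := Finset.mem_smul_finset.mp ht'
    obtain ⟨u, hu, rfl⟩ := Finset.mem_smul_finset.mp hu'
    have hne' : t ≠ u := fun h => hne (by rw [h])
    rw [← Finset.smul_finset_union]
    exact smul_hexad_gen (hpair t ht u hu hne') hg

theorem mk7 : ∀ p : GolayPt, (7 : Nat).testBit (idx p) = true ↔ p = pt 0 ∨ p = pt 1 ∨ p = pt 2 := by
  decide +kernel

theorem mk31 : ∀ p : GolayPt, (31 : Nat).testBit (idx p) = true ↔
    p = pt 0 ∨ p = pt 1 ∨ p = pt 2 ∨ p = pt 3 ∨ p = pt 4 := by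
  decide +kernel

theorem mk4120 : ∀ p : GolayPt, (4120 : Nat).testBit (idx p) = true ↔
    ((4127 : Nat).testBit (idx p) = true ∧ ¬ (7 : Nat).testBit (idx p) = true) := by
  decide +kernel

/-- A hexad split into two triples can be moved to the base split. -/
theorem to_base_split {d : Finset GolayPt} (hd : d ∈ dodecads) {t u : Finset GolayPt}
    (ht : t.card = 3) (hu : u.card = 3) (htu : Disjoint t u) (hh : t ∪ u ∈ hexadsOn d) :
    ∃ g ∈ M24, g • d = mk d0 ∧ g • t = mk 7 ∧ g • u = mk 4120 := by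
  obtain ⟨x1, x2, x3, h12, h13, h23, rfl⟩ := Finset.card_eq_three.mp ht
  obtain ⟨x4, x5, x6, h45, h46, h56, rfl⟩ := Finset.card_eq_three.mp hu
  have hsub := hexad_sub hh
  have hdis := Finset.disjoint_left.mp htu
  have n14 : x1 ≠ x4 := fun h => hdis (a := x1) (by simp) (by simp [h])
  have n15 : x1 ≠ x5 := fun h => hdis (a := x1) (by simp) (by simp [h])
  have n24 : x2 ≠ x4 := fun h => hdis (a := x2) (by simp) (by simp [h])
  have n25 : x2 ≠ x5 := fun h => hdis (a := x2) (by simp) (by simp [h])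
  have n34 : x3 ≠ x4 := fun h => hdis (a := x3) (by simp) (by simp [h])
  have n35 : x3 ≠ x5 := fun h => hdis (a := x3) (by simp) (by simp [h])
  obtain ⟨g, hg, hgd, hmap⟩ := exists_to_base12 hd [x1, x2, x3, x4, x5]
    (by simp [h12, h13, h23, h45, n14, n15, n24, n25, n34, n35])
    (by
      intro x hx
      apply hsub
      simp only [List.mem_cons, List.not_mem_nil, or_false] at hx
      simp only [Finset.mem_union, Finset.mem_insert, Finset.mem_singleton]
      tauto)
    (by simp)
  simp only [base12, List.map_cons, List.map_nil, List.length_cons, List.length_nil,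
    List.take, List.cons.injEq, and_true] at hmap
  obtain ⟨e1, e2, e3, e4, e5⟩ := hmap
  have hC : g • (({x1, x2, x3} : Finset GolayPt) ∪ {x4, x5, x6}) = mk 4127 := by
    have hC1 := smul_hexad_gen hh hg
    rw [hgd] at hC1
    apply hexad_unique hC1 (mem_hexads_mk (by decide +kernel))
    have h31 : mk 31 ⊆ g • (({x1, x2, x3} : Finset GolayPt) ∪ {x4, x5, x6}) ∩ mk 4127 := by
      intro p hp
      rw [Finset.mem_inter]
      refine ⟨?_, mk_sub (by decide) hp⟩
      rw [mem_mk] at hp
      have hx : ∀ x : GolayPt, x ∈ (({x1, x2, x3} : Finset GolayPt) ∪ {x4, x5, x6}) →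
          g x ∈ g • (({x1, x2, x3} : Finset GolayPt) ∪ {x4, x5, x6}) :=
        fun x hx => Finset.smul_mem_smul_finset hx
      rcases (mk31 p).mp hp with rfl | rfl | rfl | rfl | rfl
      · rw [← e1]; exact hx _ (by simp)
      · rw [← e2]; exact hx _ (by simp)
      · rw [← e3]; exact hx _ (by simp)
      · rw [← e4]; exact hx _ (by simp)
      · rw [← e5]; exact hx _ (by simp)
    have := Finset.card_le_card h31
    rw [card_mk] at this
    exact this
  have ht7 : g • ({x1, x2, x3} : Finset GolayPt) = mk 7 := by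
    rw [Finset.smul_finset_insert, Finset.smul_finset_insert, Finset.smul_finset_singleton]
    simp only [Equiv.Perm.smul_def]
    rw [e1, e2, e3]
    ext p
    rw [mem_mk, mk7]
    simp
  refine ⟨g, hg, hgd, ht7, ?_⟩
  have hu' : ({x4, x5, x6} : Finset GolayPt) =
      (({x1, x2, x3} : Finset GolayPt) ∪ {x4, x5, x6}) \ {x1, x2, x3} :=
    (Finset.union_sdiff_cancel_left htu).symm
  rw [hu', Finset.smul_finset_sdiff, hC, ht7]
  ext p
  rw [Finset.mem_sdiff, mem_mk, mem_mk, mem_mk, mk4120]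

/-- Every quartet of every dodecad can be moved to the base quartet of the base dodecad. -/
theorem quartet_to_base {d : Finset GolayPt} (hd : d ∈ dodecads) {Q : Finset (Finset GolayPt)}
    (hQ : Q ∈ quartets d) : ∃ g ∈ M24, g • d = mk d0 ∧ g • Q = Q0 := by
  have hQ' := hQ
  obtain ⟨hcard, htrip, hpair⟩ := hQ
  obtain ⟨t, ht, u, hu, hne⟩ := Finset.one_lt_card.mp (by rw [hcard]; norm_num)
  have hh := hpair t ht u hu hne
  obtain ⟨g, hg, hgd, hgt, hgu⟩ := to_base_split hd (htrip t ht).1 (htrip u hu).1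
    (disjoint_of_hexad (htrip t ht).1 (htrip u hu).1 hh) hh
  refine ⟨g, hg, hgd, ?_⟩
  have hq := quartets_smul hQ' hg
  rw [hgd] at hq
  apply base_unique hq
  · rw [← hgt]; exact Finset.smul_mem_smul_finset ht
  · rw [← hgu]; exact Finset.smul_mem_smul_finset hu

/-- **Two disjoint triples uniting to a hexad lie in exactly one quartet.** -/
theorem two_triples (d : Finset GolayPt) (hd : d ∈ dodecads) (t u : Finset GolayPt)
    (ht : t.card = 3) (hu : u.card = 3) (htu : Disjoint t u) (hh : t ∪ u ∈ hexadsOn d) :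
    ∃! Q : Finset (Finset GolayPt), Q ∈ quartets d ∧ t ∈ Q ∧ u ∈ Q := by
  obtain ⟨g, hg, hgd, hgt, hgu⟩ := to_base_split hd ht hu htu hh
  have hgi : g⁻¹ ∈ M24 := M24.inv_mem hg
  refine ⟨g⁻¹ • Q0, ⟨?_, ?_, ?_⟩, ?_⟩
  · have := quartets_smul Q0_mem hgi
    rwa [← hgd, inv_smul_smul] at this
  · rw [← Finset.smul_mem_smul_finset_iff g, smul_inv_smul, hgt]
    exact mem_qsetL.mpr ⟨7, by simp [Q0L], rfl⟩
  · rw [← Finset.smul_mem_smul_finset_iff g, smul_inv_smul, hgu]
    exact mem_qsetL.mpr ⟨4120, by simp [Q0L], rfl⟩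
  · rintro Q' ⟨hQ', ht', hu'⟩
    have hq := quartets_smul hQ' hg
    rw [hgd] at hq
    have := base_unique hq (by rw [← hgt]; exact Finset.smul_mem_smul_finset ht')
      (by rw [← hgu]; exact Finset.smul_mem_smul_finset hu')
    rw [← this, inv_smul_smul]

/-- **The dodecad stabiliser is transitive on quartets.** -/
theorem quartet_transitive {d : Finset GolayPt} (hd : d ∈ dodecads)
    {Q Q' : Finset (Finset GolayPt)} (hQ : Q ∈ quartets d) (hQ' : Q' ∈ quartets d) :
    ∃ g : Equiv.Perm GolayPt, g ∈ M24 ∧ g • d = d ∧ g • Q = Q' := by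
  obtain ⟨g, hg, hgd, hgQ⟩ := quartet_to_base hd hQ
  obtain ⟨g', hg', hgd', hgQ'⟩ := quartet_to_base hd hQ'
  refine ⟨g'⁻¹ * g, M24.mul_mem (M24.inv_mem hg') hg, ?_, ?_⟩
  · rw [mul_smul, hgd, ← hgd', inv_smul_smul]
  · rw [mul_smul, hgQ, ← hgQ', inv_smul_smul]

end Cfsg.Agent.Lib.Helper7.QuartetBase
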