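import Cfsg.Agent.Lib.Helper7.QuartetStab

set_option autoImplicit false

namespace Cfsg.Agent.Lib.Helper7.QuartetCount

open Cfsg Cfsg.Agent.Lib.Helper7.GolayBase Cfsg.Agent.Lib.Helper7.M12Core
  Cfsg.Agent.Lib.Helper7.M12Main Cfsg.Agent.Lib.Helper7.M12Thm
  Cfsg.Agent.Lib.Helper7.QuartetBase Cfsg.Agent.Lib.Helper7.QuartetStab
open scoped Pointwise

/-- Every dodecad has a quartet. -/
theorem exists_quartet {d : Finset GolayPt} (hd : d ∈ dodecads) :
    ∃ Q : Finset (Finset GolayPt), Q ∈ quartets d := by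
  obtain ⟨g, hg, hgd⟩ := dodecad_to_base hd
  refine ⟨g⁻¹ • Q0, ?_⟩
  have := quartets_smul Q0_mem (M24.inv_mem hg)
  rwa [← hgd, inv_smul_smul] at this

/-- The quartets of a dodecad form one orbit of its stabiliser. -/
theorem orbit_quartet {d : Finset GolayPt} (hd : d ∈ dodecads) {Q : Finset (Finset GolayPt)}
    (hQ : Q ∈ quartets d) : MulAction.orbit (MulAction.stabilizer M24 d) Q = quartets d := by
  ext Q'
  constructor
  · rintro ⟨g, rfl⟩
    have h := quartets_smul hQ (g : M24).2
    have hgd : ((g : M24) : Equiv.Perm GolayPt) • d = d := g.2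
    rw [hgd] at h
    exact h
  · intro hQ'
    obtain ⟨g, hg, hgd, hgQ⟩ := quartet_transitive hd hQ hQ'
    exact ⟨⟨⟨g, hg⟩, hgd⟩, hgQ⟩

/-- **A dodecad has 220 quartets.** -/
theorem quartet_count (d : Finset GolayPt) (hd : d ∈ dodecads) : (quartets d).ncard = 220 := by
  obtain ⟨Q, hQ⟩ := exists_quartet hd
  have h1 : Nat.card ↥(MulAction.stabilizer M24 d ⊓ MulAction.stabilizer M24 Q) =
      Nat.card (MulAction.stabilizer (MulAction.stabilizer M24 d) Q) := by
    rw [← Subgroup.card_subtype (MulAction.stabilizer M24 d)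
      (MulAction.stabilizer (MulAction.stabilizer M24 d) Q)]
    congr 2
    ext g
    simp only [Subgroup.mem_inf, MulAction.mem_stabilizer_iff, Subgroup.mem_map,
      Subgroup.coe_subtype, Subtype.exists, exists_and_right, exists_eq_right]
    constructor
    · rintro ⟨h1, h2⟩; exact ⟨h1, h2⟩
    · rintro ⟨h1, h2⟩; exact ⟨h1, h2⟩
  have h2 := Subgroup.card_mul_index (MulAction.stabilizer (MulAction.stabilizer M24 d) Q)
  rw [MulAction.index_stabilizer, orbit_quartet hd hQ, card_stab d hd, ← h1,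
    (quartet_stab d hd Q hQ).1] at h2
  omega

end Cfsg.Agent.Lib.Helper7.QuartetCount
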