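import Cfsg.Agent.Lib.Helper7.QuartetCount
import Cfsg.Agent.Lib.Helper7.QuartetOrbData

set_option autoImplicit false

namespace Cfsg.Agent.Lib.Helper7.QuartetOrb

open Cfsg Cfsg.Agent.Lib.Helper7.GolayBase Cfsg.Agent.Lib.Helper7.GolayPerm
  Cfsg.Agent.Lib.Helper7.M12Core Cfsg.Agent.Lib.Helper7.M12Main Cfsg.Agent.Lib.Helper7.M12Thm
  Cfsg.Agent.Lib.Helper7.QuartetBase Cfsg.Agent.Lib.Helper7.QuartetStab
  Cfsg.Agent.Lib.Helper7.QuartetCount Cfsg.Agent.Lib.Helper7.QuartetData
  Cfsg.Agent.Lib.Helper7.QuartetOrbData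
open scoped Pointwise

/-- The image of a list of masks under a table, sorted. -/
def mapQ (t : List Nat) (q : List Nat) : List Nat :=
  (q.map (mapMask t)).insertionSort (· ≤ ·)

theorem smul_qsetL {g : Equiv.Perm GolayPt} {t : List Nat} (hg : Rep g t) (q : List Nat) :
    g • qsetL q = qsetL (mapQ t q) := by
  ext v
  rw [mem_qsetL]
  constructor
  · intro hv
    obtain ⟨w, hw, rfl⟩ := Finset.mem_smul_finset.mp hv
    obtain ⟨x, hx, rfl⟩ := mem_qsetL.mp hw
    exact ⟨mapMask t x, (List.mem_insertionSort (· ≤ ·)).mpr (List.mem_map_of_mem hx),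
      (smul_mk hg x).symm⟩
  · rintro ⟨y, hy, rfl⟩
    obtain ⟨x, hx, rfl⟩ := List.mem_map.mp ((List.mem_insertionSort (· ≤ ·)).mp hy)
    rw [← smul_mk hg x]
    exact Finset.smul_mem_smul_finset (mem_qsetL.mpr ⟨x, hx, rfl⟩)

/-- Strictly sorted lists of masks. -/
def good (q : List Nat) : Bool :=
  decide (q.Pairwise (· < ·)) && q.all (fun x => decide (x < 2 ^ 24))

theorem qsetL_inj {q q' : List Nat} (hq : good q = true) (hq' : good q' = true)
    (h : qsetL q = qsetL q') : q = q' := by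
  simp only [good, Bool.and_eq_true, decide_eq_true_eq, List.all_eq_true] at hq hq'
  have hsub : ∀ {a b : List Nat}, (∀ x ∈ a, x < 2 ^ 24) → (∀ x ∈ b, x < 2 ^ 24) →
      qsetL a = qsetL b → ∀ x ∈ a, x ∈ b := by
    intro a b ha hb hab x hx
    have : mk x ∈ qsetL b := by rw [← hab]; exact mem_qsetL.mpr ⟨x, hx, rfl⟩
    obtain ⟨y, hy, hxy⟩ := mem_qsetL.mp this
    rw [← mk_injOn (hb y hy) (ha x hx) hxy]
    exact hy
  have hnd : ∀ {a : List Nat}, a.Pairwise (· < ·) → a.Nodup := fun h =>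
    h.imp (fun hab => Nat.ne_of_lt hab)
  have hperm : q.Perm q' := (List.perm_ext_iff_of_nodup (hnd hq.1) (hnd hq'.1)).mpr
    (fun x => ⟨hsub hq.2 hq'.2 h x, hsub hq'.2 hq.2 h.symm x⟩)
  exact List.Perm.eq_of_pairwise (fun a b _ _ hab hba => absurd hab (Nat.lt_asymm hba)) hq.1 hq'.1
    hperm

/-- The quartets of a list of lists of masks. -/
def qsets (L : List (List Nat)) : Set (Finset (Finset GolayPt)) := {Y | ∃ q ∈ L, qsetL q = Y}

theorem ncard_qsets {L : List (List Nat)} (hnd : L.Nodup) (hgood : ∀ q ∈ L, good q = true) :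
    (qsets L).ncard = L.length := by
  have himg : qsets L = qsetL '' (↑L.toFinset : Set (List Nat)) := by
    ext Y
    simp only [qsets, Set.mem_setOf_eq, Set.mem_image, Finset.mem_coe, List.mem_toFinset]
  rw [himg, Set.InjOn.ncard_image, Set.ncard_coe_finset, List.toFinset_card_of_nodup hnd]
  intro a ha b hb hab
  simp only [Finset.mem_coe, List.mem_toFinset] at ha hb
  exact qsetL_inj (hgood a ha) (hgood b hb) hab

/-- The orbit of a set of triples under the base quartet stabiliser. -/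
def orbS0 (Y : Finset (Finset GolayPt)) : Set (Finset (Finset GolayPt)) :=
  {Z | ∃ s ∈ S0, s • Y = Z}

theorem orbS0_eq {x : List Nat} {L : List (List Nat)} {wit : List Nat}
    (hsub : ∀ t ∈ T432, mapQ t x ∈ L)
    (hwit : L = wit.map (fun k => mapQ (T432.getD k idT) x)) : orbS0 (qsetL x) = qsets L := by
  ext Z
  constructor
  · rintro ⟨s, hs, rfl⟩
    obtain ⟨t, ht, hst⟩ := exists_tab432 hs
    exact ⟨mapQ t x, hsub t ht, (smul_qsetL hst x).symm⟩
  · rintro ⟨q, hq, rfl⟩
    rw [hwit] at hq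
    obtain ⟨k, -, rfl⟩ := List.mem_map.mp hq
    obtain ⟨s, hs, hst⟩ := getD_rep S0 T432 T432_rep k
    exact ⟨s, hs, smul_qsetL hst x⟩

theorem sub1 : ∀ t ∈ T432, mapQ t x1 ∈ L1 := by decide +kernel
theorem sub2 : ∀ t ∈ T432, mapQ t x2 ∈ L2 := by decide +kernel
theorem sub3 : ∀ t ∈ T432, mapQ t x3 ∈ L3 := by decide +kernel
theorem sub4 : ∀ t ∈ T432, mapQ t x4 ∈ L4 := by decide +kernel

theorem wit1_eq : L1 = wit1.map (fun k => mapQ (T432.getD k idT) x1) := by decide +kernel
theorem wit2_eq : L2 = wit2.map (fun k => mapQ (T432.getD k idT) x2) := by decide +kernel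
theorem wit3_eq : L3 = wit3.map (fun k => mapQ (T432.getD k idT) x3) := by decide +kernel
theorem wit4_eq : L4 = wit4.map (fun k => mapQ (T432.getD k idT) x4) := by decide +kernel

/-- The sorted base quartet. -/
def q0 : List Nat := [7, 4120, 8960, 327744]

theorem qsetL_q0 : qsetL q0 = Q0 := by
  ext v
  simp only [mem_qsetL, Q0, Q0L, q0, List.mem_cons, List.not_mem_nil, or_false]
  constructor
  · rintro ⟨x, hx, rfl⟩; exact ⟨x, by tauto, rfl⟩
  · rintro ⟨x, hx, rfl⟩; exact ⟨x, by tauto, rfl⟩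

/-- All quartets of the base dodecad. -/
def Lall : List (List Nat) := [q0] ++ L1 ++ L2 ++ L3 ++ L4

theorem Lall_nodup : Lall.Nodup := by decide +kernel
theorem Lall_good : ∀ q ∈ Lall, good q = true := by decide +kernel
theorem Lall_length : Lall.length = 220 := by decide +kernel
theorem L1_length : L1.length = 12 := by decide +kernel
theorem L2_length : L2.length = 27 := by decide +kernel
theorem L3_length : L3.length = 72 := by decide +kernel
theorem L4_length : L4.length = 108 := by decide +kernel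
theorem x_isQ : (isQ x1 && isQ x2 && isQ x3 && isQ x4) = true := by decide +kernel

theorem L1_sub : L1.Sublist Lall :=
  (((List.sublist_append_right _ _).trans (List.sublist_append_left _ _)).trans
    (List.sublist_append_left _ _)).trans (List.sublist_append_left _ _)
theorem L2_sub : L2.Sublist Lall :=
  ((List.sublist_append_right _ _).trans (List.sublist_append_left _ _)).trans
    (List.sublist_append_left _ _)
theorem L3_sub : L3.Sublist Lall :=
  (List.sublist_append_right _ _).trans (List.sublist_append_left _ _)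
theorem L4_sub : L4.Sublist Lall := List.sublist_append_right _ _

theorem ncard_orb {x : List Nat} {L : List (List Nat)} {wit : List Nat}
    (hsub : ∀ t ∈ T432, mapQ t x ∈ L)
    (hwit : L = wit.map (fun k => mapQ (T432.getD k idT) x)) (hL : L.Sublist Lall) :
    (orbS0 (qsetL x)).ncard = L.length := by
  rw [orbS0_eq hsub hwit]
  exact ncard_qsets (Lall_nodup.sublist hL) (fun q hq => Lall_good q (hL.subset hq))

theorem x1_mem : qsetL x1 ∈ quartets (mk d0) := by
  have h := x_isQ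
  simp only [Bool.and_eq_true] at h
  exact qsetL_mem h.1.1.1
theorem x2_mem : qsetL x2 ∈ quartets (mk d0) := by
  have h := x_isQ
  simp only [Bool.and_eq_true] at h
  exact qsetL_mem h.1.1.2
theorem x3_mem : qsetL x3 ∈ quartets (mk d0) := by
  have h := x_isQ
  simp only [Bool.and_eq_true] at h
  exact qsetL_mem h.1.2
theorem x4_mem : qsetL x4 ∈ quartets (mk d0) := by
  have h := x_isQ
  simp only [Bool.and_eq_true] at h
  exact qsetL_mem h.2

theorem orbS0_sub {Y : Finset (Finset GolayPt)} (hY : Y ∈ quartets (mk d0)) :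
    orbS0 Y ⊆ quartets (mk d0) := by
  rintro Z ⟨s, hs, rfl⟩
  have h := quartets_smul hY hs.1.1
  rwa [(mem_K12.mp hs.1).2] at h

/-- The quartets of the base dodecad: the base quartet and four orbits. -/
theorem base_quartets : quartets (mk d0) =
    {Q0} ∪ orbS0 (qsetL x1) ∪ orbS0 (qsetL x2) ∪ orbS0 (qsetL x3) ∪ orbS0 (qsetL x4) := by
  have hall : {Q0} ∪ orbS0 (qsetL x1) ∪ orbS0 (qsetL x2) ∪ orbS0 (qsetL x3) ∪ orbS0 (qsetL x4) =
      qsets Lall := by
    rw [orbS0_eq sub1 wit1_eq, orbS0_eq sub2 wit2_eq, orbS0_eq sub3 wit3_eq,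
      orbS0_eq sub4 wit4_eq]
    ext Z
    simp only [Set.mem_union, Set.mem_singleton_iff, qsets, Set.mem_setOf_eq, Lall,
      List.mem_append, List.mem_singleton]
    constructor
    · rintro ((((h | ⟨q, hq, rfl⟩) | ⟨q, hq, rfl⟩) | ⟨q, hq, rfl⟩) | ⟨q, hq, rfl⟩)
      · exact ⟨q0, by tauto, by rw [h, qsetL_q0]⟩
      · exact ⟨q, by tauto, rfl⟩
      · exact ⟨q, by tauto, rfl⟩
      · exact ⟨q, by tauto, rfl⟩
      · exact ⟨q, by tauto, rfl⟩
    · rintro ⟨q, ((((hq | hq) | hq) | hq) | hq), rfl⟩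
      · left; left; left; left
        rw [hq, qsetL_q0]
      · left; left; left; right; exact ⟨q, hq, rfl⟩
      · left; left; right; exact ⟨q, hq, rfl⟩
      · left; right; exact ⟨q, hq, rfl⟩
      · right; exact ⟨q, hq, rfl⟩
  symm
  apply Set.eq_of_subset_of_ncard_le
  · intro Z hZ
    rcases hZ with (((h | h) | h) | h) | h
    · rw [Set.mem_singleton_iff] at h
      rw [h]; exact Q0_mem
    · exact orbS0_sub x1_mem h
    · exact orbS0_sub x2_mem h
    · exact orbS0_sub x3_mem h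
    · exact orbS0_sub x4_mem h
  · rw [hall, ncard_qsets Lall_nodup Lall_good, Lall_length, quartet_count _ mk_d0_mem]
  · exact Set.toFinite _

/-- Orbits of a quartet stabiliser, transported to the base. -/
theorem orbit_general {d : Finset GolayPt} {Q : Finset (Finset GolayPt)}
    {g : Equiv.Perm GolayPt} (hg : g ∈ M24) (hgd : g • d = mk d0) (hgQ : g • Q = Q0)
    (X : Finset (Finset GolayPt)) :
    MulAction.orbit ↥(MulAction.stabilizer M24 d ⊓ MulAction.stabilizer M24 Q) X =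
      (fun Y : Finset (Finset GolayPt) => g⁻¹ • Y) '' orbS0 (g • X) := by
  ext Z
  constructor
  · rintro ⟨y, rfl⟩
    have hyd : ((y : M24) : Equiv.Perm GolayPt) • d = d := y.2.1
    have hyQ : ((y : M24) : Equiv.Perm GolayPt) • Q = Q := y.2.2
    have hmem : g * ((y : M24) : Equiv.Perm GolayPt) * g⁻¹ ∈ S0 := by
      refine ⟨mem_K12.mpr ⟨M24.mul_mem (M24.mul_mem hg (y : M24).2) (M24.inv_mem hg), ?_⟩, ?_⟩
      · rw [mul_smul, mul_smul, ← hgd, inv_smul_smul, hyd]
      · show (g * ((y : M24) : Equiv.Perm GolayPt) * g⁻¹) • Q0 = Q0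
        rw [mul_smul, mul_smul, ← hgQ, inv_smul_smul, hyQ]
    refine ⟨(g * ((y : M24) : Equiv.Perm GolayPt) * g⁻¹) • (g • X), ⟨_, hmem, rfl⟩, ?_⟩
    show g⁻¹ • ((g * ((y : M24) : Equiv.Perm GolayPt) * g⁻¹) • (g • X)) =
      ((y : M24) : Equiv.Perm GolayPt) • X
    rw [mul_smul, mul_smul, inv_smul_smul, inv_smul_smul]
  · rintro ⟨Z', ⟨s, hs, rfl⟩, rfl⟩
    have hsd : s • mk d0 = mk d0 := (mem_K12.mp hs.1).2
    have hsQ : s • Q0 = Q0 := S0_smul hs
    have hM : g⁻¹ * s * g ∈ M24 := M24.mul_mem (M24.mul_mem (M24.inv_mem hg) hs.1.1) hg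
    have hmem : (⟨g⁻¹ * s * g, hM⟩ : ↥M24) ∈
        MulAction.stabilizer M24 d ⊓ MulAction.stabilizer M24 Q := by
      refine ⟨?_, ?_⟩
      · show (g⁻¹ * s * g) • d = d
        rw [mul_smul, mul_smul, hgd, hsd, ← hgd, inv_smul_smul]
      · show (g⁻¹ * s * g) • Q = Q
        rw [mul_smul, mul_smul, hgQ, hsQ, ← hgQ, inv_smul_smul]
    refine ⟨⟨⟨g⁻¹ * s * g, hM⟩, hmem⟩, ?_⟩
    show (g⁻¹ * s * g) • X = g⁻¹ • (s • (g • X))
    rw [mul_smul, mul_smul]

/-- **Orbits of a quartet stabiliser on the quartets of its dodecad.** -/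
theorem quartet_orbits (d : Finset GolayPt) (hd : d ∈ dodecads) (Q : Finset (Finset GolayPt))
    (hQ : Q ∈ quartets d) :
    ∃ X₁ ∈ quartets d, ∃ X₂ ∈ quartets d, ∃ X₃ ∈ quartets d, ∃ X₄ ∈ quartets d,
      (MulAction.orbit ↥(MulAction.stabilizer M24 d ⊓ MulAction.stabilizer M24 Q) X₁).ncard = 12 ∧
      (MulAction.orbit ↥(MulAction.stabilizer M24 d ⊓ MulAction.stabilizer M24 Q) X₂).ncard = 27 ∧
      (MulAction.orbit ↥(MulAction.stabilizer M24 d ⊓ MulAction.stabilizer M24 Q) X₃).ncard = 72 ∧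
      (MulAction.orbit ↥(MulAction.stabilizer M24 d ⊓ MulAction.stabilizer M24 Q) X₄).ncard = 108 ∧
      quartets d = {Q} ∪
        MulAction.orbit ↥(MulAction.stabilizer M24 d ⊓ MulAction.stabilizer M24 Q) X₁ ∪
        MulAction.orbit ↥(MulAction.stabilizer M24 d ⊓ MulAction.stabilizer M24 Q) X₂ ∪
        MulAction.orbit ↥(MulAction.stabilizer M24 d ⊓ MulAction.stabilizer M24 Q) X₃ ∪
        MulAction.orbit ↥(MulAction.stabilizer M24 d ⊓ MulAction.stabilizer M24 Q) X₄ := by
  obtain ⟨g, hg, hgd, hgQ⟩ := quartet_to_base hd hQ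
  have hgi : g⁻¹ ∈ M24 := M24.inv_mem hg
  have hback : ∀ {Y : Finset (Finset GolayPt)}, Y ∈ quartets (mk d0) → g⁻¹ • Y ∈ quartets d := by
    intro Y hY
    have := quartets_smul hY hgi
    rwa [← hgd, inv_smul_smul] at this
  have horb : ∀ x : List Nat,
      MulAction.orbit ↥(MulAction.stabilizer M24 d ⊓ MulAction.stabilizer M24 Q)
        (g⁻¹ • qsetL x) = (fun Y : Finset (Finset GolayPt) => g⁻¹ • Y) '' orbS0 (qsetL x) := by
    intro x
    rw [orbit_general hg hgd hgQ, smul_inv_smul]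
  have hinj : Function.Injective (fun Y : Finset (Finset GolayPt) => g⁻¹ • Y) :=
    MulAction.injective g⁻¹
  refine ⟨g⁻¹ • qsetL x1, hback x1_mem, g⁻¹ • qsetL x2, hback x2_mem, g⁻¹ • qsetL x3,
    hback x3_mem, g⁻¹ • qsetL x4, hback x4_mem, ?_, ?_, ?_, ?_, ?_⟩
  · rw [horb, Set.ncard_image_of_injective _ hinj, ncard_orb sub1 wit1_eq L1_sub, L1_length]
  · rw [horb, Set.ncard_image_of_injective _ hinj, ncard_orb sub2 wit2_eq L2_sub, L2_length]
  · rw [horb, Set.ncard_image_of_injective _ hinj, ncard_orb sub3 wit3_eq L3_sub, L3_length]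
  · rw [horb, Set.ncard_image_of_injective _ hinj, ncard_orb sub4 wit4_eq L4_sub, L4_length]
  · have hQ' : ({Q} : Set (Finset (Finset GolayPt))) =
        (fun Y : Finset (Finset GolayPt) => g⁻¹ • Y) '' {Q0} := by
      rw [Set.image_singleton, ← hgQ, inv_smul_smul]
    rw [horb, horb, horb, horb, hQ', ← Set.image_union, ← Set.image_union, ← Set.image_union,
      ← Set.image_union, ← base_quartets]
    ext Z
    constructor
    · intro hZ
      refine ⟨g • Z, ?_, inv_smul_smul g Z⟩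
      have := quartets_smul hZ hg
      rwa [hgd] at this
    · rintro ⟨Y, hY, rfl⟩
      exact hback hY

end Cfsg.Agent.Lib.Helper7.QuartetOrb
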