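import Cfsg.Agent.Lib.Helper7.QuartetBase
import Cfsg.Agent.Lib.Helper7.QuartetData
import Cfsg.Agent.Lib.Helper7.M11Inv

set_option autoImplicit false

namespace Cfsg.Agent.Lib.Helper7.QuartetStab

open Cfsg Cfsg.Agent.Lib.Helper7.GolayBase Cfsg.Agent.Lib.Helper7.GolayCode
  Cfsg.Agent.Lib.Helper7.M24Mem Cfsg.Agent.Lib.Helper7.GolayRigid
  Cfsg.Agent.Lib.Helper7.GolayPerm Cfsg.Agent.Lib.Helper7.ChainGen
  Cfsg.Agent.Lib.Helper7.M24Data Cfsg.Agent.Lib.Helper7.M24Core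
  Cfsg.Agent.Lib.Helper7.M24Main Cfsg.Agent.Lib.Helper7.GolayCount
  Cfsg.Agent.Lib.Helper7.GolayRigid2 Cfsg.Agent.Lib.Helper7.M12Core
  Cfsg.Agent.Lib.Helper7.M12Main Cfsg.Agent.Lib.Helper7.M12Thm
  Cfsg.Agent.Lib.Helper7.M24Octad Cfsg.Agent.Lib.Helper7.QuartetData
  Cfsg.Agent.Lib.Helper7.M12Hexad Cfsg.Agent.Lib.Helper7.M12Hexad2
  Cfsg.Agent.Lib.Helper7.QuartetBase
open scoped Pointwise

/-! ### Images of masks under tables -/

/-- The image of a mask under a table. -/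
def mapMask (t : List Nat) (m : Nat) : Nat :=
  (List.range 24).foldl (fun acc i => if m.testBit i then acc ||| 2 ^ (t.getD i 0) else acc) 0

theorem testBit_fold (t : List Nat) (m : Nat) (l : List Nat) (acc j : Nat) :
    (l.foldl (fun acc i => if m.testBit i then acc ||| 2 ^ (t.getD i 0) else acc) acc).testBit j =
      (acc.testBit j || l.any (fun i => m.testBit i && decide (t.getD i 0 = j))) := by
  induction l generalizing acc with
  | nil => simp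
  | cons i l ih =>
    rw [List.foldl_cons, ih]
    by_cases h : m.testBit i = true
    · simp [h, Nat.testBit_or, Nat.testBit_two_pow, Bool.or_assoc]
    · simp [h]

theorem smul_mk {g : Equiv.Perm GolayPt} {t : List Nat} (hg : Rep g t) (m : Nat) :
    g • mk m = mk (mapMask t m) := by
  ext p
  rw [← Finset.inv_smul_mem_iff, mem_mk, mem_mk, mapMask, testBit_fold]
  simp only [Nat.zero_testBit, Bool.false_or, List.any_eq_true, List.mem_range,
    Bool.and_eq_true, decide_eq_true_eq]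
  constructor
  · intro h
    refine ⟨idx (g⁻¹ • p), idx_lt _, h, ?_⟩
    rw [hg.2]
    congr 1
    simp
  · rintro ⟨i, hi, hm, hti⟩
    have h1 := hg.2 (pt i)
    rw [idx_pt hi, hti] at h1
    have h2 : g (pt i) = p := (idx_injective h1).symm
    have h3 : g⁻¹ • p = pt i := by
      rw [← h2]; simp
    rw [h3, idx_pt hi]
    exact hm

/-! ### The stabiliser of the base quartet -/

/-- The stabiliser of the base quartet in the stabiliser of the base dodecad. -/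
def S0 : Subgroup (Equiv.Perm GolayPt) :=
  K12 ⊓ MulAction.stabilizer (Equiv.Perm GolayPt) Q0

/-- Table test for stabilising the base quartet. -/
def quartT (t : List Nat) : Bool := Q0L.all (fun m => Q0L.contains (mapMask t m))

theorem smul_Q0_of_quartT {g : Equiv.Perm GolayPt} {t : List Nat} (hg : Rep g t)
    (h : quartT t = true) : g • Q0 = Q0 := by
  apply Finset.eq_of_subset_of_card_le
  · intro v hv
    obtain ⟨w, hw, rfl⟩ := Finset.mem_smul_finset.mp hv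
    obtain ⟨x, hx, rfl⟩ := mem_qsetL.mp hw
    rw [smul_mk hg]
    simp only [quartT, List.all_eq_true, List.contains_iff_mem] at h
    exact mem_qsetL.mpr ⟨_, h x hx, rfl⟩
  · rw [Finset.card_smul_finset]

/-- All transversal tables. -/
def Uall : List (List Nat) := U1 ++ U2 ++ U3 ++ U4

theorem Uall_sub : ∀ u ∈ Uall, u ∈ M12Data.tabs ++ QuartetData.rows.map (fun r => r.2.2) := by
  decide +kernel

theorem Uall_chk : ∀ u ∈ Uall, (presT d0 u && quartT u) = true := by decide +kernel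

theorem Uall_rep : ∀ u ∈ Uall, ∃ g ∈ S0, Rep g u := by
  intro u hu
  have hchk := Uall_chk u hu
  rw [Bool.and_eq_true] at hchk
  have hex : ∃ g ∈ H, Rep g u := by
    rcases List.mem_append.mp (Uall_sub u hu) with h | h
    · exact tabs12_rep u h
    · obtain ⟨r, hr, rfl⟩ := List.mem_map.mp h
      exact chk_sound H M12Data.tabs tabs12_rep QuartetData.rows [] (by simp)
        QuartetData.rows_chk r hr
  obtain ⟨g, hgH, hg⟩ := hex
  exact ⟨g, ⟨⟨H_le_M24 hgH, mem_PresG.mpr (pres_of_presT hg hchk.1)⟩,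
    MulAction.mem_stabilizer_iff.mpr (smul_Q0_of_quartT hg hchk.2)⟩, hg⟩

theorem U1_fix : ∀ u ∈ U1, hit [] 0 (u.getD 0 0) u = true := by decide +kernel
theorem U2_fix : ∀ u ∈ U2, hit [0] 1 (u.getD 1 0) u = true := by decide +kernel
theorem U3_fix : ∀ u ∈ U3, hit [1, 0] 3 (u.getD 3 0) u = true := by decide +kernel
theorem U4_fix : ∀ u ∈ U4, hit [3, 1, 0] 4 (u.getD 4 0) u = true := by decide +kernel

theorem U_rep {U : List (List Nat)} {L : List Nat} {b : Nat} (hU : ∀ u ∈ U, u ∈ Uall)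
    (hL : ∀ f ∈ L, f < 24) (hb : b < 24) (hfix : ∀ u ∈ U, hit L b (u.getD b 0) u = true) :
    ∀ u ∈ U, ∃ h ∈ S0 ⊓ FixL L, Rep h u := by
  intro u hu
  obtain ⟨g, hgS, hg⟩ := Uall_rep u (hU u hu)
  obtain ⟨h1, -⟩ := hit_spec hg hL hb (hfix u hu)
  exact ⟨g, ⟨hgS, h1⟩, hg⟩

theorem U1_rep : ∀ u ∈ U1, ∃ h ∈ S0 ⊓ FixL [], Rep h u :=
  U_rep (by intro u hu; simp [Uall, hu]) (by decide) (by decide) U1_fix
theorem U2_rep : ∀ u ∈ U2, ∃ h ∈ S0 ⊓ FixL [0], Rep h u :=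
  U_rep (by intro u hu; simp [Uall, hu]) (by decide) (by decide) U2_fix
theorem U3_rep : ∀ u ∈ U3, ∃ h ∈ S0 ⊓ FixL [1, 0], Rep h u :=
  U_rep (by intro u hu; simp [Uall, hu]) (by decide) (by decide) U3_fix
theorem U4_rep : ∀ u ∈ U4, ∃ h ∈ S0 ⊓ FixL [3, 1, 0], Rep h u :=
  U_rep (by intro u hu; simp [Uall, hu]) (by decide) (by decide) U4_fix

/-! ### Orbit bounds -/

theorem Q0L_uniq : ∀ m ∈ Q0L, ∀ m' ∈ Q0L, ∀ i, i < 24 → m.testBit i = true →
    m'.testBit i = true → m' = m := by decide +kernel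

/-- An element stabilising the base quartet and fixing a point preserves the triple of that
point. -/
theorem triple_pres {g : Equiv.Perm GolayPt} (hg : g • Q0 = Q0) {m : Nat} (hm : m ∈ Q0L)
    {i : Nat} (hi : i < 24) (hb : m.testBit i = true) (hfix : g (pt i) = pt i) : Pres g m := by
  apply pres_of_smul_eq
  have h1 : g • mk m ∈ g • Q0 := Finset.smul_mem_smul_finset (mem_qsetL.mpr ⟨m, hm, rfl⟩)
  rw [hg] at h1
  obtain ⟨m', hm', hmm'⟩ := mem_qsetL.mp h1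
  have h2 : pt i ∈ g • mk m := by
    have : g • pt i ∈ g • mk m :=
      Finset.smul_mem_smul_finset (mem_mk.mpr (by rw [idx_pt hi]; exact hb))
    rwa [Equiv.Perm.smul_def, hfix] at this
  rw [← hmm', mem_mk, idx_pt hi] at h2
  rw [← hmm', Q0L_uniq m hm m' hm' i hi hb h2]

theorem pres_xor {g : Equiv.Perm GolayPt} {a b : Nat} (ha : Pres g a) (hb : Pres g b) :
    Pres g (a ^^^ b) := by
  intro p
  rw [Nat.testBit_xor, Nat.testBit_xor, ha p, hb p]

theorem S0_pres {g : Equiv.Perm GolayPt} (hg : g ∈ S0) : Pres g d0 := mem_PresG.mp hg.1.2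

theorem S0_smul {g : Equiv.Perm GolayPt} (hg : g ∈ S0) : g • Q0 = Q0 :=
  MulAction.mem_stabilizer_iff.mp hg.2

/-- The points of the base dodecad. -/
def T12 : List Nat := [0, 1, 2, 3, 4, 6, 8, 9, 12, 13, 16, 18]

/-- The points of the base dodecad outside the first triple. -/
def T9 : List Nat := [3, 4, 6, 8, 9, 12, 13, 16, 18]

theorem hub1 : ∀ g ∈ S0 ⊓ FixL [], ∃ q ∈ T12, g (pt 0) = pt q := by
  intro g hg
  exact hub_of_pres (S0_pres hg.1) hg.2 (by decide) (by decide) (by decide +kernel)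

theorem hub2 : ∀ g ∈ S0 ⊓ FixL [0], ∃ q ∈ [1, 2], g (pt 1) = pt q := by
  intro g hg
  have h7 : Pres g 7 := triple_pres (S0_smul hg.1) (by decide) (i := 0) (by decide) (by decide)
    (hg.2 0 (by simp))
  exact hub_of_pres h7 hg.2 (by decide) (by decide) (by decide +kernel)

theorem hub3 : ∀ g ∈ S0 ⊓ FixL [1, 0], ∃ q ∈ T9, g (pt 3) = pt q := by
  intro g hg
  have h7 : Pres g 7 := triple_pres (S0_smul hg.1) (by decide) (i := 0) (by decide) (by decide)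
    (hg.2 0 (by simp))
  exact hub_of_pres (pres_xor (S0_pres hg.1) h7) hg.2 (by decide) (by decide) (by decide +kernel)

theorem hub4 : ∀ g ∈ S0 ⊓ FixL [3, 1, 0], ∃ q ∈ [4, 12], g (pt 4) = pt q := by
  intro g hg
  have h : Pres g 4120 := triple_pres (S0_smul hg.1) (by decide) (i := 3) (by decide) (by decide)
    (hg.2 3 (by simp))
  exact hub_of_pres h hg.2 (by decide) (by decide) (by decide +kernel)

theorem S0_rigid : ∀ g ∈ S0 ⊓ FixL [4, 3, 1, 0], g = 1 := by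
  intro g hg
  have h7 : Pres g 7 := triple_pres (S0_smul hg.1) (by decide) (i := 0) (by decide) (by decide)
    (hg.2 0 (by simp))
  obtain ⟨q, hq, hgq⟩ := hub_of_pres h7 hg.2 (b := 2) (T := [2]) (by decide) (by decide)
    (by decide +kernel)
  simp only [List.mem_cons, List.not_mem_nil, or_false] at hq
  subst hq
  have hmem : g ∈ K12 ⊓ FixL [4, 3, 2, 1, 0] := by
    refine ⟨hg.1.1, ?_⟩
    intro f hf
    simp only [List.mem_cons, List.not_mem_nil, or_false] at hf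
    rcases hf with rfl | rfl | rfl | rfl | rfl
    · exact hg.2 4 (by simp)
    · exact hg.2 3 (by simp)
    · exact hgq
    · exact hg.2 1 (by simp)
    · exact hg.2 0 (by simp)
  rw [rigid12] at hmem
  exact Subgroup.mem_bot.mp hmem

/-! ### Sifting -/

theorem sift_tab {K : Subgroup (Equiv.Perm GolayPt)} {L : List Nat} {b : Nat} {T : List Nat}
    {U : List (List Nat)} (hub : ∀ g ∈ K ⊓ FixL L, ∃ q ∈ T, g (pt b) = pt q)
    (hU : ∀ u ∈ U, ∃ h ∈ K ⊓ FixL L, Rep h u) (hb : b < 24)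
    (hcov : ∀ q ∈ T, ∃ u ∈ U, u.getD b 0 = q) :
    ∀ g ∈ K ⊓ FixL L, ∃ u ∈ U, ∃ h, Rep h u ∧ h⁻¹ * g ∈ K ⊓ FixL (b :: L) := by
  intro g hg
  obtain ⟨q, hq, hgq⟩ := hub g hg
  obtain ⟨u, hu, huq⟩ := hcov q hq
  obtain ⟨h, hh, hrep⟩ := hU u hu
  refine ⟨u, hu, h, hrep, ?_⟩
  have hmem : h⁻¹ * g ∈ K ⊓ FixL L := (K ⊓ FixL L).mul_mem ((K ⊓ FixL L).inv_mem hh) hg
  refine ⟨hmem.1, mem_FixL_cons.mpr ⟨?_, hmem.2⟩⟩
  show h⁻¹ (g (pt b)) = pt b
  rw [hgq, ← hrep.apply_eq hb huq]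
  simp

theorem cov1 : ∀ q ∈ T12, ∃ u ∈ U1, u.getD 0 0 = q := by decide +kernel
theorem cov2 : ∀ q ∈ [1, 2], ∃ u ∈ U2, u.getD 1 0 = q := by decide +kernel
theorem cov3 : ∀ q ∈ T9, ∃ u ∈ U3, u.getD 3 0 = q := by decide +kernel
theorem cov4 : ∀ q ∈ [4, 12], ∃ u ∈ U4, u.getD 4 0 = q := by decide +kernel

theorem T432_eq : T432 =
    U1.flatMap (fun a => U2.flatMap (fun b => U3.flatMap (fun c => U4.map (fun e =>
      tmul a (tmul b (tmul c e)))))) := by decide +kernel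

theorem exists_tab432 {g : Equiv.Perm GolayPt} (hg : g ∈ S0) : ∃ t ∈ T432, Rep g t := by
  have hg0 : g ∈ S0 ⊓ FixL [] := ⟨hg, by simp [mem_FixL]⟩
  obtain ⟨u1, hu1, h1, hr1, hg1⟩ := sift_tab hub1 U1_rep (by decide) cov1 g hg0
  obtain ⟨u2, hu2, h2, hr2, hg2⟩ := sift_tab hub2 U2_rep (by decide) cov2 _ hg1
  obtain ⟨u3, hu3, h3, hr3, hg3⟩ := sift_tab hub3 U3_rep (by decide) cov3 _ hg2
  obtain ⟨u4, hu4, h4, hr4, hg4⟩ := sift_tab hub4 U4_rep (by decide) cov4 _ hg3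
  have hone := S0_rigid _ hg4
  have hgeq : g = h1 * (h2 * (h3 * h4)) := by
    have : h4⁻¹ * (h3⁻¹ * (h2⁻¹ * (h1⁻¹ * g))) = 1 := hone
    rw [inv_mul_eq_one] at this
    rw [this]
    simp
  refine ⟨tmul u1 (tmul u2 (tmul u3 u4)), ?_, ?_⟩
  · rw [T432_eq]
    simp only [List.mem_flatMap, List.mem_map]
    exact ⟨u1, hu1, u2, hu2, u3, hu3, u4, hu4, rfl⟩
  · rw [hgeq]
    exact hr1.mul (hr2.mul (hr3.mul hr4))

theorem T432_rep : ∀ t ∈ T432, ∃ g ∈ S0, Rep g t := by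
  intro t ht
  rw [T432_eq] at ht
  simp only [List.mem_flatMap, List.mem_map] at ht
  obtain ⟨u1, hu1, u2, hu2, u3, hu3, u4, hu4, rfl⟩ := ht
  obtain ⟨g1, hg1, hr1⟩ := U1_rep u1 hu1
  obtain ⟨g2, hg2, hr2⟩ := U2_rep u2 hu2
  obtain ⟨g3, hg3, hr3⟩ := U3_rep u3 hu3
  obtain ⟨g4, hg4, hr4⟩ := U4_rep u4 hu4
  exact ⟨g1 * (g2 * (g3 * g4)),
    S0.mul_mem hg1.1 (S0.mul_mem hg2.1 (S0.mul_mem hg3.1 hg4.1)),
    hr1.mul (hr2.mul (hr3.mul hr4))⟩

theorem wit_of_cov {K : Subgroup (Equiv.Perm GolayPt)} {L : List Nat} {b : Nat} {T : List Nat}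
    {U : List (List Nat)} (hU : ∀ u ∈ U, ∃ h ∈ K ⊓ FixL L, Rep h u) (hb : b < 24)
    (hcov : ∀ q ∈ T, ∃ u ∈ U, u.getD b 0 = q) :
    ∀ q ∈ T, ∃ h ∈ K ⊓ FixL L, h (pt b) = pt q := by
  intro q hq
  obtain ⟨u, hu, huq⟩ := hcov q hq
  obtain ⟨h, hh, hrep⟩ := hU u hu
  exact ⟨h, hh, hrep.apply_eq hb huq⟩

theorem card_S0_4 : Nat.card ↥(S0 ⊓ FixL [4, 3, 1, 0]) = 1 := by
  have : S0 ⊓ FixL [4, 3, 1, 0] = ⊥ := by
    rw [eq_bot_iff]
    intro g hg
    exact Subgroup.mem_bot.mpr (S0_rigid g hg)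
  rw [this]; exact Subgroup.card_bot

theorem card_S0_3 : Nat.card ↥(S0 ⊓ FixL [3, 1, 0]) = 2 := by
  rw [card_step (T := [4, 12]) (by decide) (by decide) hub4
    (wit_of_cov U4_rep (by decide) cov4), card_S0_4]
  decide

theorem card_S0_2 : Nat.card ↥(S0 ⊓ FixL [1, 0]) = 18 := by
  rw [card_step (T := T9) (by decide) (by decide) hub3
    (wit_of_cov U3_rep (by decide) cov3), card_S0_3]
  decide

theorem card_S0_1 : Nat.card ↥(S0 ⊓ FixL [0]) = 36 := by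
  rw [card_step (T := [1, 2]) (by decide) (by decide) hub2
    (wit_of_cov U2_rep (by decide) cov2), card_S0_2]
  decide

theorem card_S0_0 : Nat.card ↥(S0 ⊓ FixL []) = 432 := by
  rw [card_step (T := T12) (by decide) (by decide) hub1
    (wit_of_cov U1_rep (by decide) cov1), card_S0_1]
  decide

theorem card_S0 : Nat.card ↥S0 = 432 := by
  have h := card_S0_0
  rwa [FixL_nil, inf_top_eq] at h

theorem T12_mem {p : GolayPt} (hp : p ∈ mk d0) : idx p ∈ T12 := by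
  rw [mem_mk] at hp
  have : ∀ i, i < 24 → d0.testBit i = true → i ∈ T12 := by decide +kernel
  exact this _ (idx_lt p) hp

/-- The base quartet stabiliser is transitive on the base dodecad. -/
theorem S0_transitive {p q : GolayPt} (hp : p ∈ mk d0) (hq : q ∈ mk d0) :
    ∃ g ∈ S0, g p = q := by
  obtain ⟨u, hu, hup⟩ := cov1 _ (T12_mem hp)
  obtain ⟨u', hu', huq⟩ := cov1 _ (T12_mem hq)
  obtain ⟨g, hg, hr⟩ := U1_rep u hu
  obtain ⟨g', hg', hr'⟩ := U1_rep u' hu'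
  have e1 : g (pt 0) = p := by rw [hr.apply_eq (by decide) hup, pt_idx]
  have e2 : g' (pt 0) = q := by rw [hr'.apply_eq (by decide) huq, pt_idx]
  refine ⟨g' * g⁻¹, S0.mul_mem hg'.1 (S0.inv_mem hg.1), ?_⟩
  show g' (g⁻¹ p) = q
  rw [← e1, pinv, e2]

/-! ### The linear action on oriented triples -/

/-- The matrix attached to a table. -/
def matOf (t : List Nat) : Matrix (Fin 2) (Fin 2) (ZMod 3) :=
  Matrix.of (fun i j => lab (t.getD (bx j) 0) (t.getD (bz j) 0) i)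

theorem U_lin : ∀ t ∈ Uall, ∀ pr ∈ pairs24,
    lab (t.getD pr.1 0) (t.getD pr.2 0) = M11Inv.mv (matOf t) (lab pr.1 pr.2) := by
  decide +kernel

theorem U_P : ∀ t ∈ Uall, ∀ pr ∈ pairs24, (t.getD pr.1 0, t.getD pr.2 0) ∈ pairs24 := by
  decide +kernel

theorem bp_mem : ∀ j : Fin 2, (bx j, bz j) ∈ pairs24 := by decide

theorem pairs_lt : ∀ pr ∈ pairs24, pr.1 < 24 ∧ pr.2 < 24 := by decide

theorem lab_bp : ∀ j : Fin 2, lab (bx j) (bz j) = Pi.single j 1 := by decide +kernel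

/-- The matrix of an element. -/
def PhiM (g : Equiv.Perm GolayPt) : Matrix (Fin 2) (Fin 2) (ZMod 3) :=
  Matrix.of (fun i j => lab (idx (g (pt (bx j)))) (idx (g (pt (bz j)))) i)

theorem PhiM_tab {g : Equiv.Perm GolayPt} {t : List Nat} (h : Rep g t) : PhiM g = matOf t := by
  ext i j
  simp only [PhiM, matOf, Matrix.of_apply]
  have h1 := h.2 (pt (bx j))
  have h2 := h.2 (pt (bz j))
  rw [idx_pt (pairs_lt _ (bp_mem j)).1] at h1
  rw [idx_pt (pairs_lt _ (bp_mem j)).2] at h2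
  rw [h1, h2]

/-- Linearity of an element on the oriented triples. -/
def Lin (g : Equiv.Perm GolayPt) : Prop :=
  ∀ pr ∈ pairs24, (∃ pr' ∈ pairs24, g (pt pr.1) = pt pr'.1 ∧ g (pt pr.2) = pt pr'.2) ∧
    lab (idx (g (pt pr.1))) (idx (g (pt pr.2))) = (PhiM g).mulVec (lab pr.1 pr.2)

theorem lin_of_tab {g : Equiv.Perm GolayPt} {t : List Nat} (ht : t ∈ Uall) (hgt : Rep g t) :
    Lin g := by
  intro pr hpr
  have h1 := hgt.2 (pt pr.1)
  have h2 := hgt.2 (pt pr.2)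
  rw [idx_pt (pairs_lt pr hpr).1] at h1
  rw [idx_pt (pairs_lt pr hpr).2] at h2
  refine ⟨⟨(t.getD pr.1 0, t.getD pr.2 0), U_P t ht pr hpr, hgt.apply (pairs_lt pr hpr).1,
    hgt.apply (pairs_lt pr hpr).2⟩, ?_⟩
  rw [← h1, ← h2, PhiM_tab hgt, M11Inv.mulVec_eq_mv]
  exact U_lin t ht pr hpr

theorem Lin.mul {g h : Equiv.Perm GolayPt} (hg : Lin g) (hh : Lin h) :
    PhiM (g * h) = PhiM g * PhiM h ∧ Lin (g * h) := by
  have key : ∀ pr ∈ pairs24,
      (∃ pr'' ∈ pairs24, (g * h) (pt pr.1) = pt pr''.1 ∧ (g * h) (pt pr.2) = pt pr''.2) ∧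
      lab (idx ((g * h) (pt pr.1))) (idx ((g * h) (pt pr.2))) =
        (PhiM g * PhiM h).mulVec (lab pr.1 pr.2) := by
    intro pr hpr
    obtain ⟨⟨pr', hpr', e1, e2⟩, hl⟩ := hh pr hpr
    obtain ⟨⟨pr'', hpr'', f1, f2⟩, hl'⟩ := hg pr' hpr'
    refine ⟨⟨pr'', hpr'', by rw [Equiv.Perm.mul_apply, e1, f1],
      by rw [Equiv.Perm.mul_apply, e2, f2]⟩, ?_⟩
    rw [Equiv.Perm.mul_apply, Equiv.Perm.mul_apply, e1, e2, hl', ← Matrix.mulVec_mulVec, ← hl,
      e1, e2, idx_pt (pairs_lt pr' hpr').1, idx_pt (pairs_lt pr' hpr').2]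
  have hmul : PhiM (g * h) = PhiM g * PhiM h := by
    ext i j
    have h1 := (key _ (bp_mem j)).2
    rw [lab_bp, Matrix.mulVec_single_one] at h1
    exact congrFun h1 i
  refine ⟨hmul, fun pr hpr => ?_⟩
  rw [hmul]
  exact key pr hpr

theorem S0_lin {g : Equiv.Perm GolayPt} (hg : g ∈ S0) : Lin g := by
  have hg0 : g ∈ S0 ⊓ FixL [] := ⟨hg, by simp [mem_FixL]⟩
  obtain ⟨u1, hu1, h1, hr1, hg1⟩ := sift_tab hub1 U1_rep (by decide) cov1 g hg0
  obtain ⟨u2, hu2, h2, hr2, hg2⟩ := sift_tab hub2 U2_rep (by decide) cov2 _ hg1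
  obtain ⟨u3, hu3, h3, hr3, hg3⟩ := sift_tab hub3 U3_rep (by decide) cov3 _ hg2
  obtain ⟨u4, hu4, h4, hr4, hg4⟩ := sift_tab hub4 U4_rep (by decide) cov4 _ hg3
  have hone := S0_rigid _ hg4
  have hgeq : g = h1 * (h2 * (h3 * h4)) := by
    have : h4⁻¹ * (h3⁻¹ * (h2⁻¹ * (h1⁻¹ * g))) = 1 := hone
    rw [inv_mul_eq_one] at this
    rw [this]
    simp
  rw [hgeq]
  have l1 : Lin h1 := lin_of_tab (by simp [Uall, hu1]) hr1
  have l2 : Lin h2 := lin_of_tab (by simp [Uall, hu2]) hr2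
  have l3 : Lin h3 := lin_of_tab (by simp [Uall, hu3]) hr3
  have l4 : Lin h4 := lin_of_tab (by simp [Uall, hu4]) hr4
  exact (l1.mul (l2.mul (l3.mul l4).2).2).2

theorem PhiM_mul {g h : Equiv.Perm GolayPt} (hg : g ∈ S0) (hh : h ∈ S0) :
    PhiM (g * h) = PhiM g * PhiM h :=
  ((S0_lin hg).mul (S0_lin hh)).1

theorem PhiM_one : PhiM 1 = 1 := by
  rw [PhiM_tab rep_one]
  decide +kernel

/-- The matrix representation of the base quartet stabiliser. -/
def PhiHom : ↥S0 →* Matrix (Fin 2) (Fin 2) (ZMod 3) where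
  toFun g := PhiM g.1
  map_one' := PhiM_one
  map_mul' g h := PhiM_mul g.2 h.2

theorem surj_dec : ∀ a b c d : ZMod 3, a * d - b * c ≠ 0 →
    ∃ t ∈ T432, matOf t = !![a, b; c, d] := by decide +kernel

theorem PhiHom_surj : Function.Surjective PhiHom.toHomUnits := by
  intro M
  have hdet : (M : Matrix (Fin 2) (Fin 2) (ZMod 3)).det ≠ 0 := by
    have := (Matrix.isUnit_iff_isUnit_det _).mp M.isUnit
    exact this.ne_zero
  rw [Matrix.det_fin_two] at hdet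
  obtain ⟨t, ht, hmat⟩ := surj_dec _ _ _ _ hdet
  obtain ⟨g, hg, hgt⟩ := T432_rep t ht
  refine ⟨⟨g, hg⟩, ?_⟩
  apply Units.ext
  show PhiM g = _
  rw [PhiM_tab hgt, hmat]
  exact (Matrix.eta_fin_two _).symm

/-- A group of order 432 mapping onto `GL(2, 3)` has a normal subgroup of order 9 with quotient
`GL(2, 3)`. -/
theorem struct_of_surj {G : Type*} [Group G] (ψ : G →* GL (Fin 2) (ZMod 3))
    (hs : Function.Surjective ψ) (hc : Nat.card G = 432) :
    ∃ (N : Subgroup G) (_ : N.Normal), Nat.card N = 9 ∧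
      Nonempty (G ⧸ N ≃* GL (Fin 2) (ZMod 3)) := by
  refine ⟨ψ.ker, ψ.normal_ker, ?_, ⟨QuotientGroup.quotientKerEquivOfSurjective ψ hs⟩⟩
  have h1 := Subgroup.card_eq_card_quotient_mul_card_subgroup ψ.ker
  have h2 : Nat.card (G ⧸ ψ.ker) = 48 := by
    rw [Nat.card_congr (QuotientGroup.quotientKerEquivOfSurjective ψ hs).toEquiv,
      Matrix.card_GL_field, ZMod.card]
    decide
  rw [hc, h2] at h1
  omega

/-- **The quartet stabiliser: order, structure, transitivity.** -/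
theorem quartet_stab (d : Finset GolayPt) (hd : d ∈ dodecads) (Q : Finset (Finset GolayPt))
    (hQ : Q ∈ quartets d) :
    Nat.card ↥(MulAction.stabilizer M24 d ⊓ MulAction.stabilizer M24 Q) = 432 ∧
    (∃ (N : Subgroup ↥(MulAction.stabilizer M24 d ⊓ MulAction.stabilizer M24 Q))
      (_ : N.Normal), Nat.card N = 9 ∧
      Nonempty (↥(MulAction.stabilizer M24 d ⊓ MulAction.stabilizer M24 Q) ⧸ N ≃*
        GL (Fin 2) (ZMod 3))) ∧
    ∀ p ∈ d, ∀ q ∈ d, ∃ g ∈ (MulAction.stabilizer M24 d ⊓ MulAction.stabilizer M24 Q),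
      ((g : ↥M24) : Equiv.Perm GolayPt) p = q := by
  obtain ⟨t, ht, htd, htQ⟩ := quartet_to_base hd hQ
  have h1 : ∀ y : ↥M24, y ∈ MulAction.stabilizer M24 d ⊓ MulAction.stabilizer M24 Q →
      t * (y : Equiv.Perm GolayPt) * t⁻¹ ∈ S0 := by
    intro y hy
    have hyd : (y : Equiv.Perm GolayPt) • d = d := hy.1
    have hyQ : (y : Equiv.Perm GolayPt) • Q = Q := hy.2
    refine ⟨mem_K12.mpr ⟨M24.mul_mem (M24.mul_mem ht y.2) (M24.inv_mem ht), ?_⟩, ?_⟩
    · rw [mul_smul, mul_smul, ← htd, inv_smul_smul, hyd]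
    · show (t * (y : Equiv.Perm GolayPt) * t⁻¹) • Q0 = Q0
      rw [mul_smul, mul_smul, ← htQ, inv_smul_smul, hyQ]
  have h2a : ∀ w ∈ S0, t⁻¹ * w * t ∈ M24 := fun w hw =>
    M24.mul_mem (M24.mul_mem (M24.inv_mem ht) hw.1.1) ht
  have h2b : ∀ (w : Equiv.Perm GolayPt) (hw : w ∈ S0),
      (⟨t⁻¹ * w * t, h2a w hw⟩ : ↥M24) ∈
        MulAction.stabilizer M24 d ⊓ MulAction.stabilizer M24 Q := by
    intro w hw
    have hwd : w • mk d0 = mk d0 := (mem_K12.mp hw.1).2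
    have hwQ : w • Q0 = Q0 := S0_smul hw
    refine ⟨?_, ?_⟩
    · show (t⁻¹ * w * t) • d = d
      rw [mul_smul, mul_smul, htd, hwd, ← htd, inv_smul_smul]
    · show (t⁻¹ * w * t) • Q = Q
      rw [mul_smul, mul_smul, htQ, hwQ, ← htQ, inv_smul_smul]
  let e := M11Inv.conjEquiv t (MulAction.stabilizer M24 d ⊓ MulAction.stabilizer M24 Q) S0 h1 h2a h2b
  have hcard : Nat.card ↥(MulAction.stabilizer M24 d ⊓ MulAction.stabilizer M24 Q) = 432 := by
    rw [Nat.card_congr e.toEquiv, card_S0]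
  refine ⟨hcard, ?_, ?_⟩
  · exact struct_of_surj (PhiHom.toHomUnits.comp e.toMonoidHom)
      (PhiHom_surj.comp e.surjective) hcard
  · intro p hp q hq
    have hp' : t p ∈ mk d0 := by
      rw [← htd]; exact Finset.smul_mem_smul_finset hp
    have hq' : t q ∈ mk d0 := by
      rw [← htd]; exact Finset.smul_mem_smul_finset hq
    obtain ⟨s, hs, hsp⟩ := S0_transitive hp' hq'
    refine ⟨⟨t⁻¹ * s * t, h2a s hs⟩, h2b s hs, ?_⟩
    show t⁻¹ (s (t p)) = q
    rw [hsp, pinv]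

end Cfsg.Agent.Lib.Helper7.QuartetStab
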