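import Mathlib
import Cfsg.Agent.Lib.Helper42.ReeAutStmt

set_option autoImplicit false

/-! S2127 piece GEOA: `N(U) = U H`, no nonidentity element of `U` normalizes `H`, and some
element normalizing `H` does not normalize `U`. -/

namespace Cfsg.Agent.Lib.Helper7.ReeAutGEOA

open Cfsg.Agent.Lib.Helper42.ReeSpStmt Cfsg.Agent.Lib.Helper42.ReeAutStmt

universe u v

/-- inclusion form of normalizing, in a finite group -/
theorem mem_normalizer_of_NU {G : Type u} [Group G] [Finite G] (U : Subgroup G) (g : G)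
    (h : NU U g) : g ∈ Subgroup.normalizer (U : Set G) := by
  have hinj : Function.Injective (fun q : U => (⟨g * q * g⁻¹, h q q.2⟩ : U)) := by
    intro a b hab
    have h1 : g * (a : G) * g⁻¹ = g * (b : G) * g⁻¹ := congrArg Subtype.val hab
    apply Subtype.ext
    simpa using h1
  have hsurj := Finite.surjective_of_injective hinj
  rw [Subgroup.mem_normalizer_iff]
  intro n
  constructor
  · exact h n
  · intro hn
    obtain ⟨q, hq⟩ := hsurj ⟨g * n * g⁻¹, hn⟩
    have h1 : g * (q : G) * g⁻¹ = g * n * g⁻¹ := congrArg Subtype.val hq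
    have h2 : (q : G) = n := by simpa using h1
    rw [← h2]; exact q.2

theorem qq_mod4 (m : ℕ) : qq m % 4 = 3 := by
  have h1 : qq m = 3 * (3 ^ 2) ^ m := by
    show 3 ^ (2 * m + 1) = 3 * (3 ^ 2) ^ m
    rw [pow_succ, pow_mul]; ring
  have h2 : (3 ^ 2) ^ m % 4 = 1 := by
    rw [Nat.pow_mod]; norm_num
  rw [h1, Nat.mul_mod, h2]

theorem main : GeoAP.{u, v} := by
  intro G _ _ U H A K _ _ m hax hsyl hnh
  have hq4 := qq_mod4 m
  have hq3 := three_le_qq m
  have hq27 : 27 ≤ qq m := by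
    have h1 : qq m = 3 ^ (2 * m + 1) := rfl
    rw [h1]
    calc 27 = 3 ^ 3 := by norm_num
      _ ≤ 3 ^ (2 * m + 1) := Nat.pow_le_pow_right (by norm_num) (by have := hax.hm; omega)
  -- part 1
  have p1 : ∀ g : G, NU U g → ∃ u ∈ U, ∃ h ∈ H, g = u * h := fun g hg =>
    hsyl.2.1 g (mem_normalizer_of_NU U g hg)
  -- an element of odd prime order in `H`
  have hodd : ∃ h ∈ H, h ≠ 1 ∧ Odd (orderOf h) := by
    set N := (qq m - 1) / 2 with hN
    have hN1 : N ≠ 1 := by omega
    have hNodd : N % 2 = 1 := by omega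
    have hNdvd : N ∣ qq m - 1 := ⟨2, by omega⟩
    set p := N.minFac with hp
    have hpp : p.Prime := Nat.minFac_prime hN1
    have hpN : p ∣ N := Nat.minFac_dvd N
    have hpodd : Odd p := by
      rcases hpp.eq_two_or_odd' with h2 | h2
      · exfalso
        rw [h2] at hpN
        omega
      · exact h2
    have : Fact p.Prime := ⟨hpp⟩
    have hpH : p ∣ Nat.card ↥H := by
      rw [hax.cardH]
      exact dvd_trans hpN hNdvd
    obtain ⟨h, hh⟩ := exists_prime_orderOf_dvd_card' p hpH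
    refine ⟨(h : G), h.2, ?_, ?_⟩
    · intro h1
      have h2 : orderOf (h : G) = 1 := by rw [h1, orderOf_one]
      rw [Subgroup.orderOf_coe, hh] at h2
      exact hpp.one_lt.ne' h2
    · rw [Subgroup.orderOf_coe, hh]
      exact hpodd
  -- `U ∩ H = 1`
  have hUH : ∀ x : G, x ∈ U → x ∈ H → x = 1 := by
    intro x hxU hxH
    have h1 : orderOf x ∣ qq m ^ 3 := by
      have := Subgroup.orderOf_dvd_natCard U hxU
      rwa [hax.cardU] at this
    have h2 : orderOf x ∣ qq m - 1 := by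
      have := Subgroup.orderOf_dvd_natCard H hxH
      rwa [hax.cardH] at this
    have hcop : Nat.Coprime (qq m ^ 3) (qq m - 1) := by
      apply Nat.Coprime.pow_left
      have hd1 := Nat.gcd_dvd_left (qq m) (qq m - 1)
      have hd2 := Nat.gcd_dvd_right (qq m) (qq m - 1)
      have hd3 : Nat.gcd (qq m) (qq m - 1) ∣ qq m - (qq m - 1) := Nat.dvd_sub hd1 hd2
      have hd4 : qq m - (qq m - 1) = 1 := by omega
      rw [hd4] at hd3
      exact Nat.dvd_one.1 hd3
    have h3 : orderOf x ∣ 1 := by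
      have := Nat.dvd_gcd h1 h2
      rwa [hcop.gcd_eq_one] at this
    exact orderOf_eq_one_iff.1 (Nat.dvd_one.1 h3)
  -- part 2
  have p2 : ∀ u ∈ U, (∀ h ∈ H, u⁻¹ * h * u ∈ H) → u = 1 := by
    intro u hu hnorm
    obtain ⟨h, hh, hne, hodd'⟩ := hodd
    have h1 : u⁻¹ * h * u * h⁻¹ ∈ H := H.mul_mem (hnorm h hh) (H.inv_mem hh)
    have h2 : u⁻¹ * h * u * h⁻¹ ∈ U := by
      have h3 : u⁻¹ * h * u * h⁻¹ = u⁻¹ * (h * u * h⁻¹) := by group
      rw [h3]
      exact U.mul_mem (U.inv_mem hu) (hax.normH h hh u hu)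
    have h3 := hUH _ h2 h1
    have h4 : u * h = h * u := by
      have h5 : h * u = u * (u⁻¹ * h * u * h⁻¹) * h := by group
      rw [h5, h3, mul_one]
    exact hax.fpf h hh hne hodd' u hu h4
  refine ⟨p1, p2, ?_⟩
  -- part 3
  by_contra hcon
  push_neg at hcon
  have hsub : ∀ n ∈ Subgroup.normalizer (H : Set G), n ∈ H := by
    intro n hn
    have hnH : ∀ h ∈ H, n⁻¹ * h * n ∈ H := by
      intro h hh
      have := (Subgroup.mem_normalizer_iff.mp (Subgroup.inv_mem _ hn) h).mp hh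
      simpa using this
    have hNU : NU U n := by
      by_contra hN
      obtain ⟨h, hh, hh'⟩ := hcon n hN
      exact hh' (hnH h hh)
    obtain ⟨u, hu, h', hh', hnu⟩ := p1 n hNU
    have hu1 : u = 1 := by
      apply p2 u hu
      intro h hh
      have hun : u = n * h'⁻¹ := by rw [hnu]; group
      have hh2 : h'⁻¹⁻¹ * (n⁻¹ * h * n) * h'⁻¹ ∈ H :=
        H.mul_mem (H.mul_mem (H.inv_mem (H.inv_mem hh')) (hnH h hh)) (H.inv_mem hh')
      have heq : u⁻¹ * h * u = h'⁻¹⁻¹ * (n⁻¹ * h * n) * h'⁻¹ := by rw [hun]; group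
      rw [heq]; exact hh2
    rw [hnu, hu1, one_mul]; exact hh'
  have hle : Nat.card ↥(Subgroup.normalizer (H : Set G)) ≤ Nat.card ↥H :=
    Subgroup.card_le_of_le (fun n hn => hsub n hn)
  rw [hnh, hax.cardH] at hle
  omega

end Cfsg.Agent.Lib.Helper7.ReeAutGEOA
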