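import Mathlib
import Cfsg.Agent.Lib.Helper42.ReeAutStmt

set_option autoImplicit false

/-! S2127 piece INJ: a field automorphism that is inner is trivial. -/

namespace Cfsg.Agent.Lib.Helper7.ReeAutINJ

open Cfsg.Agent.Lib.Helper42.ReeSpStmt Cfsg.Agent.Lib.Helper42.ReeAutStmt

universe u v

theorem main : InjP.{u, v} := by
  intro G _ _ K _ _ φ x e hA Φ hF hN σ g hσ
  have hconj : ∀ t u v, g * x t u v * g⁻¹ = x (σ t) (σ u) (σ v) := by
    intro t u v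
    rw [← hF.f_x σ t u v, hσ, MulAut.conj_apply]
  obtain ⟨t0, u0, v0, s, hg⟩ := hN g (fun t u v => ⟨σ t, σ u, σ v, hconj t u v⟩)
  have hphi0 : φ 0 = 0 := map_zero φ
  have hes : ∀ w : K, e s * x 0 0 w = x 0 0 ((s : K) * w) * e s := by
    intro w
    have h := hA.e_x s 0 0 w
    rw [mul_zero, mul_zero] at h
    exact h
  have hcomm : ∀ w : K, x t0 u0 v0 * x 0 0 w = x 0 0 w * x t0 u0 v0 := by
    intro w
    rw [hA.x_mul, hA.x_mul, hphi0]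
    have h1 : t0 + 0 = 0 + t0 := by ring
    have h2 : u0 + 0 - t0 * 0 ^ 3 = 0 + u0 - 0 * φ t0 ^ 3 := by ring
    have h3 : v0 + w - u0 * 0 - t0 ^ 2 * 0 ^ 3 + t0 * 0 * 0 ^ 3 =
        w + v0 - 0 * t0 - 0 ^ 2 * φ t0 ^ 3 + 0 * t0 * φ t0 ^ 3 := by ring
    rw [h1, h2, h3]
  have key : ∀ w : K, g * x 0 0 w * g⁻¹ = x 0 0 ((s : K) * w) := by
    intro w
    rw [hg]
    have h1 : x t0 u0 v0 * e s * x 0 0 w * (x t0 u0 v0 * e s)⁻¹ =
        x t0 u0 v0 * (e s * x 0 0 w) * (e s)⁻¹ * (x t0 u0 v0)⁻¹ := by group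
    rw [h1, hes w]
    have h2 : x t0 u0 v0 * (x 0 0 ((s : K) * w) * e s) * (e s)⁻¹ * (x t0 u0 v0)⁻¹ =
        (x t0 u0 v0 * x 0 0 ((s : K) * w)) * (x t0 u0 v0)⁻¹ := by group
    rw [h2, hcomm]
    group
  have hσv : ∀ w : K, σ w = (s : K) * w := by
    intro w
    have h1 := hconj 0 0 w
    rw [key w] at h1
    exact (hA.x_inj _ _ _ _ _ _ h1).2.2.symm
  have hs1 : (s : K) = 1 := by
    have h := hσv 1
    rw [map_one, mul_one] at h
    exact h.symm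
  ext w
  rw [hσv w, hs1, one_mul]
  rfl

end Cfsg.Agent.Lib.Helper7.ReeAutINJ
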