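import Cfsg.Agent.Lib.Helper7.M12Core

set_option autoImplicit false

namespace Cfsg.Agent.Lib.Helper7.S5599Aux

open Cfsg Cfsg.Agent.Lib.Helper7.GolayBase Cfsg.Agent.Lib.Helper7.GolayCode
  Cfsg.Agent.Lib.Helper7.M12Core
open scoped Pointwise

theorem d0_code : d0 ∈ codeList := inCode_sound (by decide +kernel)

theorem not_code : (8729438 : Nat) ∉ codeList := by
  rw [← inCode_iff]
  decide +kernel

theorem swap_bits : ∀ p : GolayPt,
    d0.testBit (idx (Equiv.swap (none : GolayPt) (some 0) p)) = (8729438 : Nat).testBit (idx p) := by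
  decide +kernel

theorem swap_smul : Equiv.swap (none : GolayPt) (some 0) • mk d0 = mk 8729438 := by
  ext p
  rw [← Finset.inv_smul_mem_iff, Equiv.swap_inv, Equiv.Perm.smul_def, mem_mk, mem_mk, swap_bits]

end Cfsg.Agent.Lib.Helper7.S5599Aux
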