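import Mathlib
import Cfsg.Agent.Lib.Helper41.SubfStmt

set_option autoImplicit false

/-! Piece COMB3A of S5965 (helper7): the vector `(1, -1, 0, …, 0)` has no `u`-symmetry. -/

namespace Cfsg.Agent.Lib.Helper7.SubfCOMB3A

open Cfsg.Agent.Lib.Helper41.SubfStmt

theorem zmod3 : ∀ u : ZMod 3, u ≠ 0 → u ≠ 1 → u ≠ -1 → False := by decide

theorem main : Comb3A := by
  intro n r k _ hn hr2 hk hk2 u huk hu1
  have hr : r.Prime := Fact.out
  have h2ne : (2 : ZMod r) ≠ 0 := by
    intro h
    have h' : ((2 : ℕ) : ZMod r) = 0 := by exact_mod_cast h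
    have : r ∣ 2 := (ZMod.natCast_eq_zero_iff 2 r).mp h'
    exact hr2 ((Nat.prime_dvd_prime_iff_eq hr Nat.prime_two).mp this)
  have hu0 : u ≠ 0 := by
    rintro rfl
    rw [zero_pow hk.ne_zero] at huk
    exact zero_ne_one huk
  have hum : u ≠ -1 := by
    rintro rfl
    have hodd : Odd k := hk.odd_of_ne_two hk2
    rw [hodd.neg_one_pow] at huk
    apply h2ne
    linear_combination -huk
  let e : Fin n → ZMod r := fun j => if j.val = 0 then 1 else if j.val = 1 then -1 else 0
  have he : ∀ j, e j = if j.val = 0 then 1 else if j.val = 1 then -1 else 0 := fun _ => rfl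
  refine ⟨e, ?_, ?_, ?_⟩
  · obtain ⟨m, rfl⟩ : ∃ m, n = m + 2 := ⟨n - 2, by omega⟩
    rw [Fin.sum_univ_succ, Fin.sum_univ_succ]
    simp [he]
  · refine ⟨⟨0, by omega⟩, ⟨1, by omega⟩, ?_⟩
    rw [he, he]
    simp only [if_true, one_ne_zero, if_false]
    intro h
    apply h2ne
    linear_combination h
  · rintro ⟨w, hw⟩
    have hE : ∀ j, ∃ z : ℤ, (z = 1 ∨ z = -1 ∨ (z = 0 ∧ 3 ≤ n)) ∧ e j = (z : ZMod r) := by
      intro j
      by_cases h0 : j.val = 0
      · exact ⟨1, Or.inl rfl, by simp [he, h0]⟩
      · by_cases h1 : j.val = 1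
        · exact ⟨-1, Or.inr (Or.inl rfl), by simp [he, h1]⟩
        · exact ⟨0, Or.inr (Or.inr ⟨rfl, by have := j.isLt; omega⟩), by simp [he, h0, h1]⟩
    have key : ∀ a, (∃ j, e j = a) → ∃ j', e j' = u * a - w := by
      rintro a ⟨j, hj⟩
      have h1 : 0 < (Finset.univ.filter (fun j => e j = a)).card :=
        Finset.card_pos.mpr ⟨j, by simp [hj]⟩
      rw [hw a] at h1
      obtain ⟨j', hj'⟩ := Finset.card_pos.mp h1
      exact ⟨j', by simpa using hj'⟩
    obtain ⟨j1, h1⟩ := key 1 ⟨⟨0, by omega⟩, by simp [he]⟩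
    obtain ⟨j2, h2⟩ := key (-1) ⟨⟨1, by omega⟩, by simp [he]⟩
    obtain ⟨s, hs, hs'⟩ := hE j1
    obtain ⟨t, ht, ht'⟩ := hE j2
    rw [hs'] at h1
    rw [ht'] at h2
    by_cases hn3 : 3 ≤ n
    · by_cases hr3 : r = 3
      · subst hr3
        exact zmod3 u hu0 hu1 hum
      · obtain ⟨j0, h0⟩ := key 0 ⟨⟨2, by omega⟩, by simp [he]⟩
        obtain ⟨z, hz, hz'⟩ := hE j0
        rw [hz'] at h0
        have hc : ((s + t - 2 * z : ℤ) : ZMod r) = 0 := by
          push_cast
          linear_combination h1 + h2 - 2 * h0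
        rw [ZMod.intCast_zmod_eq_zero_iff_dvd] at hc
        have hr5 : 5 ≤ r := by
          have := hr.two_le
          by_contra hlt
          have h4 : r = 4 := by omega
          subst h4
          exact absurd hr (by norm_num)
        have hzero : s + t - 2 * z = 0 := by
          apply Int.eq_zero_of_abs_lt_dvd hc
          rw [abs_lt]
          constructor <;> omega
        have hu : u = ((s - z : ℤ) : ZMod r) := by
          push_cast
          linear_combination -h1 + h0
        have h3 : s - z = 0 ∨ s - z = 1 ∨ s - z = -1 := by omega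
        rcases h3 with h | h | h
        · rw [h] at hu; exact hu0 (by simpa using hu)
        · rw [h] at hu; exact hu1 (by simpa using hu)
        · rw [h] at hu; exact hum (by simpa using hu)
    · have hs2 : s = 1 ∨ s = -1 := by
        rcases hs with h | h | ⟨_, h⟩
        · exact Or.inl h
        · exact Or.inr h
        · exact absurd h hn3
      have ht2 : t = 1 ∨ t = -1 := by
        rcases ht with h | h | ⟨_, h⟩
        · exact Or.inl h
        · exact Or.inr h
        · exact absurd h hn3
      have h2u : 2 * u = ((s - t : ℤ) : ZMod r) := by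
        push_cast
        linear_combination -h1 + h2
      rcases hs2 with rfl | rfl <;> rcases ht2 with rfl | rfl
      · exact hu0 (mul_left_cancel₀ h2ne (by rw [h2u]; push_cast; ring))
      · exact hu1 (mul_left_cancel₀ h2ne (by rw [h2u]; push_cast; ring))
      · exact hum (mul_left_cancel₀ h2ne (by rw [h2u]; push_cast; ring))
      · exact hu0 (mul_left_cancel₀ h2ne (by rw [h2u]; push_cast; ring))

end Cfsg.Agent.Lib.Helper7.SubfCOMB3A
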