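import Mathlib
import Cfsg.Agent.Lib.Helper41.SubfStmt

set_option autoImplicit false

/-! Piece COMB3B1 of S5965 (helper7): the vector `(1, 1, -2, 0, …, 0)` has no reflection
symmetry. -/

namespace Cfsg.Agent.Lib.Helper7.SubfCOMB3B1

open Cfsg.Agent.Lib.Helper41.SubfStmt

/-- the vector `(1, 1, -2, 0, …, 0)` -/
def vec (r m : ℕ) : Fin (m + 3) → ZMod r :=
  fun j => if j.val = 0 then 1 else if j.val = 1 then 1 else if j.val = 2 then -2 else 0

theorem count_formula (r m : ℕ) (a : ZMod r) :
    (Finset.univ.filter (fun j : Fin (m + 3) => vec r m j = a)).card =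
      (if (1 : ZMod r) = a then 2 else 0) + (if (-2 : ZMod r) = a then 1 else 0) +
        (if (0 : ZMod r) = a then m else 0) := by
  rw [Finset.card_filter, Fin.sum_univ_succ, Fin.sum_univ_succ, Fin.sum_univ_succ]
  simp only [vec, Fin.val_succ, Fin.val_zero]
  simp
  split_ifs <;> omega

theorem main : Comb3B1 := by
  intro n r _ hn hr2 hr3 h55
  have hr : r.Prime := Fact.out
  have hr5 : 5 ≤ r := by
    have := hr.two_le
    by_contra hlt
    have h4 : r = 4 := by omega
    subst h4
    exact absurd hr (by norm_num)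
  have hne : ∀ k : ℕ, 0 < k → k < 5 → ((k : ℕ) : ZMod r) ≠ 0 := by
    intro k hk0 hk5 h
    have h1 := (ZMod.natCast_eq_zero_iff k r).mp h
    have h2 := Nat.le_of_dvd hk0 h1
    omega
  have h6 : ((6 : ℕ) : ZMod r) ≠ 0 := by
    intro h
    have h1 := (ZMod.natCast_eq_zero_iff 6 r).mp h
    have h2 : r ∣ 2 * 3 := h1
    rcases (Nat.Prime.dvd_mul hr).mp h2 with h3 | h3
    · have := Nat.le_of_dvd (by norm_num) h3; omega
    · have := Nat.le_of_dvd (by norm_num) h3; omega
  have h5 : ((5 : ℕ) : ZMod r) = 0 → r = 5 := by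
    intro h
    have h1 := (ZMod.natCast_eq_zero_iff 5 r).mp h
    exact (Nat.prime_dvd_prime_iff_eq hr (by norm_num)).mp h1
  have e2 : (2 : ZMod r) ≠ 0 := by have := hne 2 (by norm_num) (by norm_num); exact_mod_cast this
  have e3 : (3 : ZMod r) ≠ 0 := by have := hne 3 (by norm_num) (by norm_num); exact_mod_cast this
  have e4 : (4 : ZMod r) ≠ 0 := by have := hne 4 (by norm_num) (by norm_num); exact_mod_cast this
  have e6 : (6 : ZMod r) ≠ 0 := by exact_mod_cast h6
  have e5 : (5 : ZMod r) = 0 → r = 5 := fun h => h5 (by exact_mod_cast h)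
  obtain ⟨m, rfl⟩ : ∃ m, n = m + 3 := ⟨n - 3, by omega⟩
  refine ⟨vec r m, ?_, ?_, ?_⟩
  · rw [Fin.sum_univ_succ, Fin.sum_univ_succ, Fin.sum_univ_succ]
    simp only [vec, Fin.val_succ, Fin.val_zero]
    simp
    ring
  · refine ⟨⟨0, by omega⟩, ⟨2, by omega⟩, ?_⟩
    simp only [vec]
    simp only [if_true, OfNat.ofNat_ne_zero, OfNat.ofNat_ne_one, if_false]
    intro h
    apply e3
    linear_combination h
  · rintro ⟨w, hw⟩
    have c1 := hw 1
    have c2 := hw (-2)
    rw [count_formula, count_formula] at c1 c2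
    have hm21 : (-2 : ZMod r) ≠ 1 := fun h => e3 (by linear_combination -h)
    have h1m2 : (1 : ZMod r) ≠ -2 := fun h => e3 (by linear_combination h)
    have h0m2 : (0 : ZMod r) ≠ -2 := fun h => e2 (by linear_combination h)
    rw [if_pos rfl, if_neg hm21, if_neg zero_ne_one] at c1
    rw [if_neg h1m2, if_pos rfl, if_neg h0m2] at c2
    by_cases hA1 : (1 : ZMod r) = -1 * 1 - w
    · have hw2 : w = -2 := by linear_combination hA1
      subst hw2
      have k1 : ¬ ((1 : ZMod r) = -1 * -2 - -2) := fun h => e3 (by linear_combination -h)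
      have k2 : ¬ ((-2 : ZMod r) = -1 * -2 - -2) := fun h => e6 (by linear_combination -h)
      have k3 : ¬ ((0 : ZMod r) = -1 * -2 - -2) := fun h => e4 (by linear_combination -h)
      rw [if_neg k1, if_neg k2, if_neg k3] at c2
      omega
    · by_cases hA3 : (0 : ZMod r) = -1 * 1 - w
      · have hw1 : w = -1 := by linear_combination hA3
        subst hw1
        have k0 : ¬ ((-2 : ZMod r) = -1 * 1 - -1) := fun h => e2 (by linear_combination -h)
        rw [if_neg hA1, if_neg k0, if_pos hA3] at c1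
        have k1 : ¬ ((1 : ZMod r) = -1 * -2 - -1) := fun h => e2 (by linear_combination -h)
        have k2 : ¬ ((-2 : ZMod r) = -1 * -2 - -1) := by
          intro h
          have h' := e5 (by linear_combination -h)
          exact h55 ⟨by omega, h'⟩
        have k3 : ¬ ((0 : ZMod r) = -1 * -2 - -1) := fun h => e3 (by linear_combination -h)
        rw [if_neg k1, if_neg k2, if_neg k3] at c2
        omega
      · rw [if_neg hA1, if_neg hA3] at c1
        split_ifs at c1 <;> omega

end Cfsg.Agent.Lib.Helper7.SubfCOMB3B1
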