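import Mathlib
import Cfsg.Agent.Lib.Helper41.SubfStmt

set_option autoImplicit false

/-! Piece REFLCOMB of S5965 (helper7). -/

namespace Cfsg.Agent.Lib.Helper7.SubfREFLCOMB

open Cfsg.Agent.Lib.Helper41.SubfStmt

theorem r3 : ∀ e0 e1 e2 : ZMod 3, e0 + e1 + e2 = 0 → ∃ w : ZMod 3, ∀ a : ZMod 3,
    ((if e0 = a then 1 else 0) + (if e1 = a then 1 else 0) + (if e2 = a then 1 else 0) : ℕ) =
    (if e0 = w - a then 1 else 0) + (if e1 = w - a then 1 else 0) +
      (if e2 = w - a then 1 else 0) := by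
  decide +kernel

theorem r5 : ∀ e0 e1 e2 e3 e4 : ZMod 5, e0 + e1 + e2 + e3 + e4 = 0 → ∃ w : ZMod 5,
    ∀ a : ZMod 5,
    ((if e0 = a then 1 else 0) + (if e1 = a then 1 else 0) + (if e2 = a then 1 else 0) +
      (if e3 = a then 1 else 0) + (if e4 = a then 1 else 0) : ℕ) =
    (if e0 = w - a then 1 else 0) + (if e1 = w - a then 1 else 0) +
      (if e2 = w - a then 1 else 0) + (if e3 = w - a then 1 else 0) +
      (if e4 = w - a then 1 else 0) := by
  decide +kernel

theorem main : ReflComb := by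
  intro r hr e hsum
  rcases hr with rfl | rfl
  · rw [Fin.sum_univ_three] at hsum
    obtain ⟨w, hw⟩ := r3 (e 0) (e 1) (e 2) hsum
    refine ⟨w, fun a => ?_⟩
    rw [Finset.card_filter, Finset.card_filter, Fin.sum_univ_three, Fin.sum_univ_three]
    exact hw a
  · rw [Fin.sum_univ_five] at hsum
    obtain ⟨w, hw⟩ := r5 (e 0) (e 1) (e 2) (e 3) (e 4) hsum
    refine ⟨w, fun a => ?_⟩
    rw [Finset.card_filter, Finset.card_filter, Fin.sum_univ_five, Fin.sum_univ_five]
    exact hw a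

end Cfsg.Agent.Lib.Helper7.SubfREFLCOMB
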